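import Cfsg.Agent.H59.JzKillDefs
import Cfsg.Agent.S2950
import Cfsg.Agent.H31.X.CharP2
import Cfsg.Agent.H63.SnIfV

/-!
# K-BASIC and K-Z (helper61, for helper59's JZ-KILL sub-project of S2951 / S2952)
-/

set_option autoImplicit false
open Cfsg

namespace Cfsg.Agent.H61.Jk

open Cfsg.Agent.H64.Jz Cfsg.Agent.H59.JzK

universe u

/-- What S2950 gives for a `Base` configuration: `K` is subnormal in `L` and `T` is Sylow in `L`. -/
theorem base_facts {G : Type u} [Group G] [Finite G] (S : Sylow 2 G) (M T K L : Subgroup G)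
    (hB : Base S M T K L) : (K.subgroupOf L).IsSubnormal ∧ IsSylowTwoIn T L := by
  obtain ⟨hZN, hO, hM, hMJ, hT, hTS, hK, hLmax, hKJL⟩ := hB
  obtain ⟨hchar, hsolv, hZ⟩ := hZN
  obtain ⟨L₀, hL₀max, hL₀, huniq, hsub, hsyl⟩ :=
    Cfsg.Agent.S2950.result hchar hsolv hZ hO S M hM hMJ T hT K hK
  have hLL₀ : L = L₀ := huniq L hLmax hKJL
  rw [hLL₀]
  exact ⟨hsub, hsyl⟩

/-- **K-BASIC**. -/
theorem kBasic : StKBasic.{u} := by
  intro G _ _ S M K L T' K' L' hR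
  obtain ⟨hB, hX, hB', hne⟩ := hR
  obtain ⟨-, hSylS⟩ := base_facts S M (S : Subgroup G) K L hB
  obtain ⟨hsub', hSylT'⟩ := base_facts S L T' K' L' hB'
  obtain ⟨-, -, -, -, -, -, -, -, hK'JL'⟩ := hB'
  have hK'L' : K' ≤ L' := le_sup_left.trans hK'JL'
  have hQT : pCoreOf 2 L' ≤ T' := Cfsg.Agent.Helper55.J48.pCoreOf_le_of_sylowIn hSylT'
  have hOQ : pCoreOf 2 K' ≤ pCoreOf 2 L' := Cfsg.Agent.H54.Uq.o2sn K' L' hK'L' hsub'
  refine ⟨hSylS.1, hQT, hOQ.trans hQT, ?_, Cfsg.Agent.H31.X.H54.le_normalizer_pCoreOf L', ?_⟩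
  · unfold pCoreOf
    exact Subgroup.map_subtype_le _
  · intro E hE hEL hN
    exact Cfsg.Agent.H31.X.H54.le_pCoreOf hEL hN hE

/-- A nontrivial 2-group has a central involution. -/
theorem exists_central_involution {G : Type u} [Group G] [Finite G] (P : Subgroup G)
    (hP : IsPGroup 2 ↥P) (hP1 : P ≠ ⊥) :
    ∃ z : G, z ∈ P ∧ z ∈ Subgroup.centralizer (P : Set G) ∧ z * z = 1 ∧ z ≠ 1 := by
  have : Fact (Nat.Prime 2) := ⟨Nat.prime_two⟩
  have : Nontrivial ↥P := (Subgroup.nontrivial_iff_ne_bot P).mpr hP1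
  have := hP.center_nontrivial
  have h2 : 2 ∣ Nat.card ↥(Subgroup.center ↥P) := by
    obtain ⟨n, hn⟩ := (hP.to_subgroup (Subgroup.center ↥P)).exists_card_eq
    have hgt : 1 < Nat.card ↥(Subgroup.center ↥P) := Finite.one_lt_card
    rw [hn] at hgt ⊢
    cases n with
    | zero => simp at hgt
    | succ n => exact Dvd.intro_left _ (pow_succ 2 n).symm
  obtain ⟨z, hz⟩ := exists_prime_orderOf_dvd_card' 2 h2
  refine ⟨((z : ↥P) : G), (z : ↥P).2, ?_, ?_, ?_⟩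
  · rw [Subgroup.mem_centralizer_iff]
    intro y hy
    have h := Subgroup.mem_center_iff.mp z.2 ⟨y, hy⟩
    exact congrArg Subtype.val h
  · have h := pow_orderOf_eq_one z
    rw [hz] at h
    have h' : ((z : ↥P) : G) ^ 2 = 1 := by
      have := congrArg (fun w : ↥(Subgroup.center ↥P) => ((w : ↥P) : G)) h
      simpa using this
    rwa [pow_two] at h'
  · intro h1
    have hz1 : z = 1 := Subtype.ext (Subtype.ext h1)
    rw [hz1, orderOf_one] at hz
    norm_num at hz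

/-- **K-Z**. -/
theorem kZ : StKZ.{u} := by
  intro G _ _ S M K L T' K' L' hR
  obtain ⟨hB, hX, hB', hne⟩ := hR
  have hchar : IsCharacteristicTwoType G := hB.1.1
  obtain ⟨-, hSylS⟩ := base_facts S M (S : Subgroup G) K L hB
  obtain ⟨-, hSylT'⟩ := base_facts S L T' K' L' hB'
  obtain ⟨-, -, -, -, -, -, -, hLmax, -⟩ := hB
  obtain ⟨-, -, -, -, hT'max, hT'S, -, hL'max, -⟩ := hB'
  have hT'ne : T' ≠ ⊥ := hT'max.1.2.1
  have hS1 : (S : Subgroup G) ≠ ⊥ := by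
    intro h
    apply hT'ne
    rw [eq_bot_iff, ← h]
    exact hT'S
  obtain ⟨z, hzS, hzC, hz2, hz1⟩ := exists_central_involution (S : Subgroup G) S.isPGroup' hS1
  have hQS : pCoreOf 2 L ≤ S := Cfsg.Agent.Helper55.J48.pCoreOf_le_of_sylowIn hSylS
  have hQ'S : pCoreOf 2 L' ≤ S :=
    (Cfsg.Agent.Helper55.J48.pCoreOf_le_of_sylowIn hSylT').trans hT'S
  have hzCQ : z ∈ Subgroup.centralizer (pCoreOf 2 L : Set G) :=
    Subgroup.centralizer_le (by exact_mod_cast hQS) hzC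
  have hzCQ' : z ∈ Subgroup.centralizer (pCoreOf 2 L' : Set G) :=
    Subgroup.centralizer_le (by exact_mod_cast hQ'S) hzC
  have hzQ : z ∈ pCoreOf 2 L := Cfsg.Agent.Helper55.J48.centralizer_pCoreOf_le hchar hLmax.1 hzCQ
  have hzQ' : z ∈ pCoreOf 2 L' :=
    Cfsg.Agent.Helper55.J48.centralizer_pCoreOf_le hchar hL'max.1 hzCQ'
  refine ⟨z, Cfsg.Agent.H63.Sn.omegaCenterOf_mem _ hzQ hzCQ (by rw [pow_two]; exact hz2), hz1, hzQ'⟩

example : StKBasic.{u} := kBasic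
example : StKZ.{u} := kZ

end Cfsg.Agent.H61.Jk

#print axioms Cfsg.Agent.H61.Jk.kBasic
#print axioms Cfsg.Agent.H61.Jk.kZ
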