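import Mathlib
import Cfsg.Prelude.Def_JordanBlocks

/-!
# Centralisers of unipotent Jordan-type matrices in `GL`

Matrices commuting with `Cfsg.jordanTypeMatrix d F` are parametrised by their first block-columns;
they are block triangular for a suitable labelling, with diagonal blocks the matrices
`diagBlock`, which gives the order of the centraliser in `GL`.
-/

set_option autoImplicit false

namespace Cfsg.Agent.H61

open Finset

section unipcent

variable {t : ℕ} {d : Fin t → ℕ}

/-- Index type of a Jordan type. -/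
abbrev JI (d : Fin t → ℕ) := (k : Fin t) × Fin (d k)

theorem JI_ext_iff (x y : JI d) : x = y ↔ x.1 = y.1 ∧ x.2.val = y.2.val := by
  constructor
  · rintro rfl
    exact ⟨rfl, rfl⟩
  · rintro ⟨h1, h2⟩
    obtain ⟨k, a⟩ := x
    obtain ⟨l, b⟩ := y
    simp only at h1
    subst h1
    simp only at h2
    rw [Fin.ext h2]

/-- Move up by `j` positions inside a block (truncated). -/
def jsub (x : JI d) (j : ℕ) : JI d := ⟨x.1, ⟨x.2.val - j, lt_of_le_of_lt (Nat.sub_le _ _) x.2.2⟩⟩

/-- First position of block `l`. -/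
def jtop (hd : ∀ k, 1 ≤ d k) (l : Fin t) : JI d := ⟨l, ⟨0, hd l⟩⟩

@[simp] theorem jsub_fst (x : JI d) (j : ℕ) : (jsub x j).1 = x.1 := rfl
@[simp] theorem jsub_snd (x : JI d) (j : ℕ) : (jsub x j).2.val = x.2.val - j := rfl
@[simp] theorem jtop_fst (hd : ∀ k, 1 ≤ d k) (l : Fin t) : (jtop hd l).1 = l := rfl
@[simp] theorem jtop_snd (hd : ∀ k, 1 ≤ d k) (l : Fin t) : (jtop hd l).2.val = 0 := rfl

variable (d) in
/-- The nilpotent part of the unipotent Jordan-type matrix. -/
def jordanNil (F : Type*) [Field F] : Matrix (JI d) (JI d) F :=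
  Matrix.of fun x y => if x.1 = y.1 ∧ x.2.val = y.2.val + 1 then 1 else 0

variable {F : Type*} [Field F]

theorem jordanTypeMatrix_eq : Cfsg.jordanTypeMatrix d F = 1 + jordanNil d F := by
  ext x y
  obtain ⟨k, a⟩ := x
  obtain ⟨l, b⟩ := y
  rw [Cfsg.jordanTypeMatrix, Matrix.blockDiagonal'_apply, Matrix.add_apply, Matrix.one_apply]
  by_cases hkl : k = l
  · subst hkl
    simp only [dite_true, cast_eq, jordanNil, Matrix.of_apply, true_and, Cfsg.jordanBlock]
    by_cases hab : a = b
    · subst hab
      simp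
    · have hab' : a.val ≠ b.val := fun h => hab (Fin.ext h)
      have hne : (⟨k, a⟩ : JI d) ≠ ⟨k, b⟩ := by
        intro h
        rw [JI_ext_iff] at h
        exact hab' h.2
      simp [hab', hne]
  · have hne : (⟨k, a⟩ : JI d) ≠ ⟨l, b⟩ := by
      intro h
      rw [JI_ext_iff] at h
      exact hkl h.1
    simp [hkl, hne, jordanNil]

theorem commute_jordanType_iff (g : Matrix (JI d) (JI d) F) :
    g * Cfsg.jordanTypeMatrix d F = Cfsg.jordanTypeMatrix d F * g ↔
      g * jordanNil d F = jordanNil d F * g := by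
  rw [jordanTypeMatrix_eq, mul_add, add_mul, mul_one, one_mul]
  exact add_right_inj g

theorem mul_jordanNil_apply (g : Matrix (JI d) (JI d) F) (x y : JI d) :
    (g * jordanNil d F) x y =
      if h : y.2.val + 1 < d y.1 then g x ⟨y.1, ⟨y.2.val + 1, h⟩⟩ else 0 := by
  rw [Matrix.mul_apply]
  split_ifs with h
  · rw [Finset.sum_eq_single (⟨y.1, ⟨y.2.val + 1, h⟩⟩ : JI d)]
    · simp [jordanNil]
    · intro z _ hz
      have : ¬ (z.1 = y.1 ∧ z.2.val = y.2.val + 1) := by
        intro hh
        apply hz
        rw [JI_ext_iff]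
        exact hh
      simp [jordanNil, this]
    · intro hh
      exact absurd (Finset.mem_univ _) hh
  · apply Finset.sum_eq_zero
    intro z _
    have : ¬ (z.1 = y.1 ∧ z.2.val = y.2.val + 1) := by
      rintro ⟨h1, h2⟩
      apply h
      have h3 := z.2.2
      have h4 : d z.1 = d y.1 := congrArg d h1
      omega
    simp [jordanNil, this]

theorem jordanNil_mul_apply (g : Matrix (JI d) (JI d) F) (x y : JI d) :
    (jordanNil d F * g) x y = if 1 ≤ x.2.val then g (jsub x 1) y else 0 := by
  rw [Matrix.mul_apply]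
  split_ifs with h
  · rw [Finset.sum_eq_single (jsub x 1)]
    · have : x.2.val = x.2.val - 1 + 1 := by omega
      simp [jordanNil, ← this]
    · intro z _ hz
      have : ¬ (x.1 = z.1 ∧ x.2.val = z.2.val + 1) := by
        rintro ⟨h1, h2⟩
        apply hz
        rw [JI_ext_iff]
        refine ⟨h1.symm, ?_⟩
        simp only [jsub_snd]
        omega
      simp [jordanNil, this]
    · intro hh
      exact absurd (Finset.mem_univ _) hh
  · apply Finset.sum_eq_zero
    intro z _
    have : ¬ (x.1 = z.1 ∧ x.2.val = z.2.val + 1) := by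
      rintro ⟨h1, h2⟩
      omega
    simp [jordanNil, this]

theorem mul_jordanNil_pow_apply (g : Matrix (JI d) (JI d) F) (j : ℕ) :
    ∀ (x y : JI d), (g * jordanNil d F ^ j) x y =
      if h : y.2.val + j < d y.1 then g x ⟨y.1, ⟨y.2.val + j, h⟩⟩ else 0 := by
  induction j with
  | zero =>
    intro x y
    simp
  | succ j ih =>
    intro x y
    rw [pow_succ, ← mul_assoc, mul_jordanNil_apply]
    by_cases h : y.2.val + (j + 1) < d y.1
    · have h1 : y.2.val + 1 < d y.1 := by omega
      have h2 : y.2.val + 1 + j < d y.1 := by omega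
      rw [dif_pos h, dif_pos h1, ih]
      simp only
      rw [dif_pos h2]
      congr 3
      omega
    · rw [dif_neg h]
      split_ifs with h1
      · rw [ih]
        simp only
        rw [dif_neg (by omega)]
      · rfl

theorem jordanNil_pow_mul_apply (g : Matrix (JI d) (JI d) F) (j : ℕ) :
    ∀ (x y : JI d), (jordanNil d F ^ j * g) x y =
      if j ≤ x.2.val then g (jsub x j) y else 0 := by
  induction j with
  | zero =>
    intro x y
    simp [jsub]
  | succ j ih =>
    intro x y
    rw [pow_succ', mul_assoc, jordanNil_mul_apply, ih]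
    by_cases h : j + 1 ≤ x.2.val
    · rw [if_pos h, if_pos (by omega), if_pos (by simp only [jsub_snd]; omega)]
      congr 1
      rw [JI_ext_iff]
      simp only [jsub_fst, jsub_snd, true_and]
      omega
    · rw [if_neg h]
      split_ifs with h1 h2
      · simp only [jsub_snd] at h2
        omega
      · rfl
      · rfl


section param

variable (hd : ∀ k, 1 ≤ d k)

include hd in
theorem comm_apply_eq (g : Matrix (JI d) (JI d) F)
    (hg : g * jordanNil d F = jordanNil d F * g) (x y : JI d) :
    g x y = if y.2.val ≤ x.2.val then g (jsub x y.2.val) (jtop hd y.1) else 0 := by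
  have hc : g * jordanNil d F ^ y.2.val = jordanNil d F ^ y.2.val * g :=
    (Commute.pow_right (show Commute g (jordanNil d F) from hg) _).eq
  have h1 := mul_jordanNil_pow_apply g y.2.val x (jtop hd y.1)
  have h2 := jordanNil_pow_mul_apply g y.2.val x (jtop hd y.1)
  rw [hc, h2] at h1
  rw [h1, dif_pos (by simp)]
  congr 1
  rw [JI_ext_iff]
  simp

include hd in
theorem comm_apply_zero (g : Matrix (JI d) (JI d) F)
    (hg : g * jordanNil d F = jordanNil d F * g) (x : JI d) (l : Fin t)
    (h : x.2.val < d x.1 - d l) : g x (jtop hd l) = 0 := by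
  have hc : g * jordanNil d F ^ (d l) = jordanNil d F ^ (d l) * g :=
    (Commute.pow_right (show Commute g (jordanNil d F) from hg) _).eq
  have h1 := mul_jordanNil_pow_apply g (d l) ⟨x.1, ⟨x.2.val + d l, by omega⟩⟩ (jtop hd l)
  have h2 := jordanNil_pow_mul_apply g (d l) ⟨x.1, ⟨x.2.val + d l, by omega⟩⟩ (jtop hd l)
  rw [hc, h2] at h1
  rw [dif_neg (by simp), if_pos (by simp)] at h1
  have h3 : jsub (⟨x.1, ⟨x.2.val + d l, by omega⟩⟩ : JI d) (d l) = x := by
    rw [JI_ext_iff]
    simp
  rw [h3] at h1
  exact h1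

/-- The commuting matrix attached to its first block-columns. -/
def matOfParam (f : JI d × Fin t → F) : Matrix (JI d) (JI d) F :=
  Matrix.of fun x y => if y.2.val ≤ x.2.val then f (jsub x y.2.val, y.1) else 0

theorem matOfParam_apply (f : JI d × Fin t → F) (x y : JI d) :
    matOfParam f x y = if y.2.val ≤ x.2.val then f (jsub x y.2.val, y.1) else 0 := rfl

theorem matOfParam_comm (f : JI d × Fin t → F)
    (hf : ∀ p : JI d × Fin t, p.1.2.val < d p.1.1 - d p.2 → f p = 0) :
    matOfParam f * jordanNil d F = jordanNil d F * matOfParam f := by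
  ext x y
  rw [mul_jordanNil_apply, jordanNil_mul_apply]
  have hx := x.2.2
  have hy := y.2.2
  by_cases h : y.2.val + 1 < d y.1
  · rw [dif_pos h, matOfParam_apply]
    by_cases h1 : y.2.val + 1 ≤ x.2.val
    · have h2 : 1 ≤ x.2.val := by omega
      have h3 : y.2.val ≤ (jsub x 1).2.val := by simp only [jsub_snd]; omega
      rw [if_pos h1, if_pos h2, matOfParam_apply, if_pos h3]
      congr 2
      rw [JI_ext_iff]
      simp only [jsub_fst, jsub_snd, true_and]
      omega
    · rw [if_neg h1]
      by_cases h2 : 1 ≤ x.2.val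
      · have h3 : ¬ y.2.val ≤ (jsub x 1).2.val := by simp only [jsub_snd]; omega
        rw [if_pos h2, matOfParam_apply, if_neg h3]
      · rw [if_neg h2]
  · rw [dif_neg h]
    by_cases h2 : 1 ≤ x.2.val
    · rw [if_pos h2, matOfParam_apply]
      by_cases h3 : y.2.val ≤ (jsub x 1).2.val
      · rw [if_pos h3]
        symm
        apply hf
        simp only [jsub_fst, jsub_snd] at h3 ⊢
        omega
      · rw [if_neg h3]
    · rw [if_neg h2]

/-- Matrices commuting with the nilpotent part are parametrised by their first block-columns. -/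
def commEquivParam :
    {g : Matrix (JI d) (JI d) F // g * jordanNil d F = jordanNil d F * g} ≃
      {f : JI d × Fin t → F // ∀ p : JI d × Fin t, p.1.2.val < d p.1.1 - d p.2 → f p = 0} where
  toFun g := ⟨fun p => g.1 p.1 (jtop hd p.2), fun p hp => comm_apply_zero hd g.1 g.2 p.1 p.2 hp⟩
  invFun f := ⟨matOfParam f.1, matOfParam_comm f.1 f.2⟩
  left_inv g := by
    apply Subtype.ext
    ext x y
    exact (comm_apply_eq hd g.1 g.2 x y).symm
  right_inv f := by
    apply Subtype.ext
    funext p
    simp [matOfParam, jsub]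

/-- Block label making commuting matrices block triangular. -/
def jlabel (D : ℕ) (x : JI d) : ℕ ×ₗ ℕ := toLex (d x.1 - x.2.val, D - x.2.val)

theorem jlabel_eq_iff (D : ℕ) (hD : ∀ k, d k ≤ D) (x y : JI d) :
    jlabel D x = jlabel D y ↔ d x.1 = d y.1 ∧ x.2.val = y.2.val := by
  unfold jlabel
  rw [Equiv.apply_eq_iff_eq, Prod.mk.injEq]
  have hx := x.2.2
  have hy := y.2.2
  have hDx := hD x.1
  have hDy := hD y.1
  constructor
  · rintro ⟨h1, h2⟩
    omega
  · rintro ⟨h1, h2⟩
    omega

/-- The diagonal block of size class `i`. -/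
def diagBlock (g : Matrix (JI d) (JI d) F) (i : ℕ) :
    Matrix {k : Fin t // d k = i} {k : Fin t // d k = i} F :=
  Matrix.of fun k l => g (jtop hd k.1) (jtop hd l.1)

include hd in
theorem comm_blockTriangular (g : Matrix (JI d) (JI d) F)
    (hg : g * jordanNil d F = jordanNil d F * g) (D : ℕ) (hD : ∀ k, d k ≤ D) :
    g.BlockTriangular (jlabel D) := by
  intro x y hxy
  rw [jlabel, jlabel, Prod.Lex.toLex_lt_toLex] at hxy
  simp only at hxy
  rw [comm_apply_eq hd g hg x y]
  split_ifs with h
  · apply comm_apply_zero hd g hg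
    simp only [jsub_fst, jsub_snd]
    have hx := x.2.2
    have hy := y.2.2
    have hDx := hD x.1
    have hDy := hD y.1
    omega
  · rfl

theorem toSquareBlock_eq (g : Matrix (JI d) (JI d) F)
    (hg : g * jordanNil d F = jordanNil d F * g) (D : ℕ) (hD : ∀ k, d k ≤ D) (x0 : JI d) :
    ∃ e : {x : JI d // jlabel D x = jlabel D x0} ≃ {k : Fin t // d k = d x0.1},
      g.toSquareBlock (jlabel D) (jlabel D x0) = (diagBlock hd g (d x0.1)).submatrix e e := by
  refine ⟨{ toFun := fun x => ⟨x.1.1, ((jlabel_eq_iff D hD _ _).mp x.2).1⟩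
            invFun := fun k => ⟨⟨k.1, ⟨x0.2.val, by rw [k.2]; exact x0.2.2⟩⟩,
              (jlabel_eq_iff D hD _ _).mpr ⟨k.2, rfl⟩⟩
            left_inv := fun x => by
              apply Subtype.ext
              rw [JI_ext_iff]
              exact ⟨rfl, ((jlabel_eq_iff D hD _ _).mp x.2).2.symm⟩
            right_inv := fun k => rfl }, ?_⟩
  ext x y
  rw [Matrix.toSquareBlock_def]
  simp only [Matrix.of_apply, Matrix.submatrix_apply, diagBlock, Equiv.coe_fn_mk]
  have hx := ((jlabel_eq_iff D hD _ _).mp x.2).2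
  have hy := ((jlabel_eq_iff D hD _ _).mp y.2).2
  rw [comm_apply_eq hd g hg x.1 y.1, if_pos (by omega)]
  congr 1
  rw [JI_ext_iff]
  simp only [jsub_fst, jsub_snd, jtop_fst, jtop_snd, true_and]
  omega

theorem comm_det_ne_zero_iff (g : Matrix (JI d) (JI d) F)
    (hg : g * jordanNil d F = jordanNil d F * g) :
    g.det ≠ 0 ↔ ∀ i : Fin (univ.sup d + 1), (diagBlock hd g i.val).det ≠ 0 := by
  have hD : ∀ k, d k ≤ univ.sup d := fun k => Finset.le_sup (Finset.mem_univ k)
  rw [(comm_blockTriangular hd g hg _ hD).det, Finset.prod_ne_zero_iff]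
  constructor
  · intro h i
    by_cases hi : ∃ k, d k = i.val
    · obtain ⟨k, hk⟩ := hi
      obtain ⟨e, he⟩ := toSquareBlock_eq hd g hg _ hD (jtop hd k)
      have h1 := h (jlabel _ (jtop hd k)) (Finset.mem_image_of_mem _ (Finset.mem_univ _))
      rw [he, Matrix.det_submatrix_equiv_self] at h1
      rw [← hk]
      exact h1
    · have : IsEmpty {k : Fin t // d k = i.val} := ⟨fun k => hi ⟨k.1, k.2⟩⟩
      rw [Matrix.det_isEmpty]
      exact one_ne_zero
  · intro h v hv
    rw [Finset.mem_image] at hv
    obtain ⟨x0, -, rfl⟩ := hv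
    obtain ⟨e, he⟩ := toSquareBlock_eq hd g hg _ hD x0
    rw [he, Matrix.det_submatrix_equiv_self]
    exact h ⟨d x0.1, Nat.lt_succ_of_le (hD _)⟩

end param

section count

variable (hd : ∀ k, 1 ≤ d k)

/-- Diagonal block of a parameter function. -/
def paramBlock (f : JI d × Fin t → F) (i : ℕ) :
    Matrix {k : Fin t // d k = i} {k : Fin t // d k = i} F :=
  Matrix.of fun k l => f (jtop hd k.1, l.1)

/-- Invertible matrices commuting with the Jordan-type matrix, as commuting matrices with
nonzero determinant. -/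
def centEquiv1 :
    {g : GL (JI d) F // (g : Matrix (JI d) (JI d) F) * Cfsg.jordanTypeMatrix d F =
        Cfsg.jordanTypeMatrix d F * (g : Matrix (JI d) (JI d) F)} ≃
      {g : {g : Matrix (JI d) (JI d) F // g * jordanNil d F = jordanNil d F * g} //
        g.1.det ≠ 0} where
  toFun s := ⟨⟨s.1.1, (commute_jordanType_iff _).mp s.2⟩, s.1.det_ne_zero⟩
  invFun m := ⟨Matrix.GeneralLinearGroup.mkOfDetNeZero m.1.1 m.2,
    (commute_jordanType_iff _).mpr m.1.2⟩
  left_inv s := by
    apply Subtype.ext
    apply Units.ext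
    rfl
  right_inv m := rfl

/-- Second step: pass to parameters. -/
def centEquiv2 :
    {g : {g : Matrix (JI d) (JI d) F // g * jordanNil d F = jordanNil d F * g} //
        g.1.det ≠ 0} ≃
      {f : {f : JI d × Fin t → F // ∀ p : JI d × Fin t, p.1.2.val < d p.1.1 - d p.2 → f p = 0} //
        ∀ i : Fin (univ.sup d + 1), (paramBlock hd f.1 i.val).det ≠ 0} :=
  (commEquivParam hd).subtypeEquiv (fun g => comm_det_ne_zero_iff hd g.1 g.2)

variable (d) in
/-- The free off-diagonal parameters. -/
abbrev ZR := {a : JI d × Fin t // ¬ (a.1.2.val < d a.1.1 - d a.2) ∧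
  ¬ (a.1.2.val = 0 ∧ d a.1.1 = d a.2)}

variable (d F) in
/-- The family of invertible diagonal blocks. -/
abbrev GLfam := ∀ i : Fin (univ.sup d + 1),
  {m : Matrix {k : Fin t // d k = i.val} {k : Fin t // d k = i.val} F // m.det ≠ 0}

/-- Rebuild a parameter function from its diagonal blocks and the free parameters. -/
def reconParam (m : GLfam d F) (h : ZR d → F) : JI d × Fin t → F := fun a =>
  if hR : a.1.2.val = 0 ∧ d a.1.1 = d a.2 then
    (m ⟨d a.2, Nat.lt_succ_of_le (Finset.le_sup (Finset.mem_univ _))⟩).1 ⟨a.1.1, hR.2⟩ ⟨a.2, rfl⟩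
  else if hZ : a.1.2.val < d a.1.1 - d a.2 then 0 else h ⟨a, hZ, hR⟩

theorem reconParam_zero (m : GLfam d F) (h : ZR d → F) (p : JI d × Fin t)
    (hp : p.1.2.val < d p.1.1 - d p.2) : reconParam m h p = 0 := by
  unfold reconParam
  rw [dif_neg (by rintro ⟨h1, h2⟩; omega), dif_pos hp]

theorem reconParam_block (m : GLfam d F) (h : ZR d → F) (i : Fin (univ.sup d + 1)) :
    paramBlock hd (reconParam m h) i.val = (m i).1 := by
  ext k l
  obtain ⟨k, hk⟩ := k
  obtain ⟨l, hl⟩ := l
  have hi : i = ⟨d l, Nat.lt_succ_of_le (Finset.le_sup (Finset.mem_univ _))⟩ := Fin.ext hl.symm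
  subst hi
  simp only [paramBlock, Matrix.of_apply, reconParam]
  rw [dif_pos ⟨rfl, hk⟩]
  rfl

/-- Third step: split the parameters into invertible diagonal blocks and free parameters. -/
def centEquiv3 :
    {f : {f : JI d × Fin t → F // ∀ p : JI d × Fin t, p.1.2.val < d p.1.1 - d p.2 → f p = 0} //
        ∀ i : Fin (univ.sup d + 1), (paramBlock hd f.1 i.val).det ≠ 0} ≃
      GLfam d F × (ZR d → F) where
  toFun f := (fun i => ⟨paramBlock hd f.1.1 i.val, f.2 i⟩, fun a => f.1.1 a.1)
  invFun mh := ⟨⟨reconParam mh.1 mh.2, reconParam_zero mh.1 mh.2⟩, fun i => by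
    rw [reconParam_block]
    exact (mh.1 i).2⟩
  left_inv f := by
    apply Subtype.ext
    apply Subtype.ext
    funext a
    simp only [reconParam]
    by_cases hR : a.1.2.val = 0 ∧ d a.1.1 = d a.2
    · rw [dif_pos hR]
      simp only [paramBlock, Matrix.of_apply]
      have ha : ((jtop hd a.1.1, a.2) : JI d × Fin t) = a := by
        refine Prod.ext ?_ rfl
        rw [JI_ext_iff]
        exact ⟨rfl, hR.1.symm⟩
      exact congrArg f.1.1 ha
    · rw [dif_neg hR]
      by_cases hZ : a.1.2.val < d a.1.1 - d a.2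
      · rw [dif_pos hZ]
        exact (f.1.2 a hZ).symm
      · rw [dif_neg hZ]
  right_inv mh := by
    refine Prod.ext ?_ ?_
    · funext i
      apply Subtype.ext
      exact reconParam_block hd mh.1 mh.2 i
    · funext a
      simp only [reconParam]
      rw [dif_neg a.2.2, dif_neg a.2.1]

theorem card_det_ne_zero [Fintype F] {q : ℕ} (hq : Fintype.card F = q) (K : Type*) [Fintype K]
    [DecidableEq K] :
    Nat.card {m : Matrix K K F // m.det ≠ 0} =
      ∏ j : Fin (Fintype.card K), (q ^ Fintype.card K - q ^ j.val) := by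
  have e1 : {m : Matrix K K F // m.det ≠ 0} ≃
      {m : Matrix (Fin (Fintype.card K)) (Fin (Fintype.card K)) F // m.det ≠ 0} :=
    (Matrix.reindex (Fintype.equivFin K) (Fintype.equivFin K)).subtypeEquiv (fun m => by
      rw [Matrix.det_reindex_self])
  have e2 : {m : Matrix (Fin (Fintype.card K)) (Fin (Fintype.card K)) F // m.det ≠ 0} ≃
      GL (Fin (Fintype.card K)) F :=
    { toFun := fun m => Matrix.GeneralLinearGroup.mkOfDetNeZero m.1 m.2
      invFun := fun g => ⟨g.1, g.det_ne_zero⟩
      left_inv := fun m => rfl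
      right_inv := fun g => Units.ext rfl }
  rw [Nat.card_congr (e1.trans e2), Matrix.card_GL_field, hq]

end count

section arith

/-- Number of free parameters for a pair of blocks of sizes `n`, `m`. -/
def wgt (n m : ℕ) : ℕ := ∑ c ∈ range n, if ¬ (c < n - m) ∧ ¬ (c = 0 ∧ n = m) then 1 else 0

theorem wgt_eq (n m : ℕ) :
    wgt n m = (if n < m then n else 0) + (if m < n then m else 0) +
      (if n = m then n - 1 else 0) := by
  unfold wgt
  rw [← Finset.card_filter]
  rcases lt_trichotomy n m with h | h | h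
  · have h1 : (range n).filter (fun c => ¬ (c < n - m) ∧ ¬ (c = 0 ∧ n = m)) = range n := by
      ext c
      simp only [mem_filter, mem_range]
      omega
    rw [h1, card_range, if_pos h, if_neg (by omega), if_neg (by omega)]
    omega
  · subst h
    have h1 : (range n).filter (fun c => ¬ (c < n - n) ∧ ¬ (c = 0 ∧ n = n)) = Ico 1 n := by
      ext c
      simp only [mem_filter, mem_range, mem_Ico, Nat.sub_self, and_true]
      constructor
      · rintro ⟨h2, h3, h4⟩
        omega
      · rintro ⟨h2, h3⟩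
        refine ⟨h3, by omega, by omega⟩
    rw [h1, Nat.card_Ico]
    simp
  · have h1 : (range n).filter (fun c => ¬ (c < n - m) ∧ ¬ (c = 0 ∧ n = m)) = Ico (n - m) n := by
      ext c
      simp only [mem_filter, mem_range, mem_Ico]
      omega
    rw [h1, Nat.card_Ico, if_neg (by omega), if_pos h, if_neg (by omega)]
    omega

theorem card_ZR_eq_sum : Fintype.card (ZR d) = ∑ k : Fin t, ∑ l : Fin t, wgt (d k) (d l) := by
  rw [Fintype.card_subtype, Finset.card_filter, Fintype.sum_prod_type, Fintype.sum_sigma]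
  apply Finset.sum_congr rfl
  intro k _
  rw [Finset.sum_comm]
  apply Finset.sum_congr rfl
  intro l _
  exact Fin.sum_univ_eq_sum_range
    (fun c => if ¬ (c < d k - d l) ∧ ¬ (c = 0 ∧ d k = d l) then 1 else 0) (d k)

theorem sum_fiber_d (φ : ℕ → ℕ) :
    ∑ k : Fin t, φ (d k) = ∑ i ∈ range (univ.sup d + 1),
      (univ.filter (fun k : Fin t => d k = i)).card * φ i := by
  rw [← Finset.sum_fiberwise_of_maps_to (g := d) (t := range (univ.sup d + 1))
    (fun k _ => mem_range.mpr (Nat.lt_succ_of_le (Finset.le_sup (mem_univ k))))]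
  apply Finset.sum_congr rfl
  intro i _
  rw [Finset.sum_congr rfl (fun k hk => by rw [(mem_filter.mp hk).2] :
    ∀ k ∈ univ.filter (fun k : Fin t => d k = i), φ (d k) = φ i), Finset.sum_const, smul_eq_mul]

theorem card_ZR_aux (A : ℕ → ℕ) (hA : ∀ i, A i = (univ.filter (fun k : Fin t => d k = i)).card) :
    Fintype.card (ZR d) = 2 * (∑ i ∈ range (univ.sup d + 1), ∑ j ∈ range (univ.sup d + 1),
      if i < j then i * A i * A j else 0) + ∑ i ∈ range (univ.sup d + 1), (i - 1) * A i ^ 2 := by
  rw [card_ZR_eq_sum]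
  have h1 : ∑ k : Fin t, ∑ l : Fin t, wgt (d k) (d l) =
      ∑ i ∈ range (univ.sup d + 1), ∑ j ∈ range (univ.sup d + 1), A i * A j * wgt i j := by
    rw [sum_fiber_d (fun i => ∑ l : Fin t, wgt i (d l))]
    apply Finset.sum_congr rfl
    intro i _
    rw [sum_fiber_d (fun j => wgt i j), Finset.mul_sum]
    apply Finset.sum_congr rfl
    intro j _
    rw [hA, hA]
    ring
  rw [h1]
  have h2 : ∀ i j, A i * A j * wgt i j = (if i < j then i * A i * A j else 0) +
      (if j < i then j * A j * A i else 0) + (if i = j then (i - 1) * A i ^ 2 else 0) := by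
    intro i j
    rw [wgt_eq]
    rcases lt_trichotomy i j with h | h | h
    · rw [if_pos h, if_neg (by omega), if_neg (by omega), if_pos h, if_neg (by omega),
        if_neg (by omega)]
      ring
    · subst h
      simp
      ring
    · rw [if_neg (by omega), if_pos h, if_neg (by omega), if_neg (by omega), if_pos h,
        if_neg (by omega)]
      ring
  simp only [h2, Finset.sum_add_distrib]
  have h3 : ∑ i ∈ range (univ.sup d + 1), ∑ j ∈ range (univ.sup d + 1),
      (if j < i then j * A j * A i else 0) =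
      ∑ i ∈ range (univ.sup d + 1), ∑ j ∈ range (univ.sup d + 1),
        (if i < j then i * A i * A j else 0) := Finset.sum_comm
  have h4 : ∑ i ∈ range (univ.sup d + 1), ∑ j ∈ range (univ.sup d + 1),
      (if i = j then (i - 1) * A i ^ 2 else 0) =
      ∑ i ∈ range (univ.sup d + 1), (i - 1) * A i ^ 2 := by
    apply Finset.sum_congr rfl
    intro i hi
    rw [Finset.sum_ite_eq, if_pos hi]
  rw [h3, h4]
  ring

theorem card_unipotent_centralizer [Fintype F] {q : ℕ} (hq : Fintype.card F = q)
    (hd : ∀ k, 1 ≤ d k) :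
    Nat.card {g : GL (JI d) F // (g : Matrix (JI d) (JI d) F) * Cfsg.jordanTypeMatrix d F =
        Cfsg.jordanTypeMatrix d F * (g : Matrix (JI d) (JI d) F)} =
      q ^ (2 * (∑ i ∈ range (univ.sup d + 1), ∑ j ∈ range (univ.sup d + 1),
        if i < j then i * (univ.filter (fun k : Fin t => d k = i)).card *
          (univ.filter (fun k : Fin t => d k = j)).card else 0) +
        ∑ i ∈ range (univ.sup d + 1), (i - 1) * (univ.filter (fun k : Fin t => d k = i)).card ^ 2) *
      ∏ i ∈ range (univ.sup d + 1), ∏ j : Fin ((univ.filter (fun k : Fin t => d k = i)).card),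
        (q ^ (univ.filter (fun k : Fin t => d k = i)).card - q ^ (j : ℕ)) := by
  rw [Nat.card_congr (((centEquiv1).trans (centEquiv2 hd)).trans (centEquiv3 hd)), Nat.card_prod,
    Nat.card_pi, Nat.card_fun, Nat.card_eq_fintype_card (α := F), hq,
    Nat.card_eq_fintype_card (α := ZR d),
    card_ZR_aux (fun i => (univ.filter (fun k : Fin t => d k = i)).card) (fun i => rfl), mul_comm]
  congr 1
  rw [← Fin.prod_univ_eq_prod_range (fun i => ∏ j : Fin ((univ.filter
    (fun k : Fin t => d k = i)).card), (q ^ (univ.filter (fun k : Fin t => d k = i)).card -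
      q ^ (j : ℕ))) (univ.sup d + 1)]
  apply Finset.prod_congr rfl
  intro i _
  rw [card_det_ne_zero hq, Fintype.card_subtype]

end arith

end unipcent

end Cfsg.Agent.H61
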