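import Cfsg.Agent.H23.StbDefs

/-!
# S2125, piece NORMU (helper61): `N_G(U) ≤ B`
-/

set_option autoImplicit false

namespace Cfsg.Agent.H61.Stb

open Cfsg.Lie Cfsg.Agent.H23 Cfsg.Agent.H23.Stb

universe u

theorem normU : StNormU.{u} := by
  intro D F _ z η rT w0 hC g hg hnorm
  have hP := hC.hP
  have hS := hP.sem
  have hN := hP.semN
  have hT := hP.tab
  have hT2 := hP.tab2
  obtain ⟨M, hM⟩ : ∃ M : Subgroup ↥(D.group F), M =
      (Subgroup.normalizer ((D.posUnipotent F : Subgroup (GL D.Idx F)) : Set (GL D.Idx F))).subgroupOf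
        (D.group F) := ⟨_, rfl⟩
  have hmemM : ∀ x : ↥(D.group F), x ∈ M ↔ (x : GL D.Idx F) ∈
      Subgroup.normalizer ((D.posUnipotent F : Subgroup (GL D.Idx F)) : Set (GL D.Idx F)) := by
    intro x; rw [hM, Subgroup.mem_subgroupOf]
  have hle : D.borelSubgroup F ≤
      Subgroup.normalizer ((D.posUnipotent F : Subgroup (GL D.Idx F)) : Set (GL D.Idx F)) := by
    apply sup_le
    · exact Subgroup.le_normalizer
    · exact diagonal_le_normalizer_rootGen hS D.IsPosRoot (fun _ hr => hr.1)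
  have hBM : (bnPair hP).B ≤ M := by
    rw [bnPair_B]
    intro b hb
    rw [Subgroup.mem_subgroupOf] at hb
    rw [hmemM]
    exact hle hb
  have hMeq := Cfsg.H8BN.eq_parabolic_of_le (bnPair hP) M hBM
  have hempty : (bnPair hP).S ∩ (M : Set ↥(D.group F)) = ∅ := by
    rw [Set.eq_empty_iff_forall_notMem]
    rintro s ⟨hsS, hsM⟩
    obtain ⟨i, hi, rfl⟩ := eq_nG_of_mem_S hP s hsS
    have hcoe : ((nG hP.sem i : ↥(D.group F)) : GL D.Idx F) = nU hS (D.simple i) 1 := rfl
    have hsM' : nG hP.sem i ∈ M := hsM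
    have hn0 := (hmemM (nG hP.sem i)).mp hsM'
    rw [hcoe] at hn0
    have hn : nU hS (D.simple i) 1 ∈
        Subgroup.normalizer ((D.posUnipotent F : Subgroup (GL D.Idx F)) : Set (GL D.Idx F)) := hn0
    have hpl := hT.simple_lt i hi
    have hx : xU hS (D.simple i) 1 ∈ D.posUnipotent F :=
      xU_mem_rootGen hS D.IsPosRoot _ (hT.simple_pos i hi) 1
    have h1 : nU hS (D.simple i) 1 * xU hS (D.simple i) 1 * (nU hS (D.simple i) 1)⁻¹ ∈
        D.posUnipotent F :=
      (Subgroup.mem_set_normalizer_iff.mp hn _).mp hx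
    have hss : nU hS (D.simple i) 1 * nU hS (D.simple i) 1 ∈ D.borelSubgroup F := by
      rw [nU_mul_self]
      exact (le_sup_right : D.diagonalSubgroup F ≤ _)
        (Subgroup.inv_mem _ (hU_mem_diag hS _ hpl (-1) (by simp)))
    apply nU_mul_xU_mul_nU_not_mem hS hN hT hT2 i hi
    have e : nU hS (D.simple i) 1 * xU hS (D.simple i) 1 * nU hS (D.simple i) 1 =
        (nU hS (D.simple i) 1 * xU hS (D.simple i) 1 * (nU hS (D.simple i) 1)⁻¹) *
          (nU hS (D.simple i) 1 * nU hS (D.simple i) 1) := by group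
    rw [e]
    exact Subgroup.mul_mem _ ((le_sup_left : D.posUnipotent F ≤ D.borelSubgroup F) h1) hss
  have hpar_empty : (bnPair hP).parabolic ∅ = (bnPair hP).B := by
    unfold Cfsg.BNPair.parabolic; rw [Subgroup.closure_empty, sup_bot_eq]
  rw [hempty, hpar_empty] at hMeq
  have hgM : (⟨g, hg⟩ : ↥(D.group F)) ∈ M := by
    rw [hmemM, Subgroup.mem_set_normalizer_iff]
    exact hnorm
  rw [hMeq, bnPair_B, Subgroup.mem_subgroupOf] at hgM
  exact hgM

example : StNormU.{u} := normU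

end Cfsg.Agent.H61.Stb

#print axioms Cfsg.Agent.H61.Stb.normU
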