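import Cfsg.Agent.H12.GraphGens
import Cfsg.Agent.H23.FieldMap
import Cfsg.Agent.H23.ChkD4
import Cfsg.Agent.H23.NconjD4
import Cfsg.Agent.H23.TabD4
import Cfsg.Agent.H23.Tab2D4
import Cfsg.Prelude.Def_ChevAutomorphisms

/-!
# S2607 (helper96), piece P-FIELD, Chevalley half (helper61)

The field automorphisms of `D₄(F)` are the image of an injective homomorphism
`(F ≃+* F) →* MulAut (D₄(F))` (entrywise action).  Light closure (D4 tables only).
-/

set_option autoImplicit false

namespace Cfsg.Agent.H61.D4F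

open Cfsg Cfsg.Lie Cfsg.Agent.H23
open scoped MatrixGroups

universe u

variable {D : ChevalleyDatum} {F : Type u} [Field F] {z : ℕ → ℕ → ℤ}

theorem glMap_mem (hS : Sem D F z) (τ : F ≃+* F) (g : GL D.Idx F) (hg : g ∈ D.group F) :
    glMap D (τ : F →+* F) g ∈ D.group F :=
  glMap_group_le hS hS (τ : F →+* F) (Subgroup.mem_map_of_mem _ hg)

theorem glMap_cancel (D : ChevalleyDatum) (τ τ' : F ≃+* F) (h : ∀ x, τ' (τ x) = x)
    (g : GL D.Idx F) : glMap D (τ' : F →+* F) (glMap D (τ : F →+* F) g) = g := by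
  apply Units.ext
  ext i k
  rw [glMap_apply, glMap_apply]
  exact h _

/-- the entrywise automorphism attached to a field automorphism -/
noncomputable def fieldAut (hS : Sem D F z) (σ : F ≃+* F) : MulAut ↥(D.group F) where
  toFun g := ⟨glMap D (σ : F →+* F) g.1, glMap_mem hS σ g.1 g.2⟩
  invFun g := ⟨glMap D (σ.symm : F →+* F) g.1, glMap_mem hS σ.symm g.1 g.2⟩
  left_inv g := Subtype.ext (glMap_cancel D σ σ.symm σ.symm_apply_apply g.1)
  right_inv g := Subtype.ext (glMap_cancel D σ.symm σ σ.apply_symm_apply g.1)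
  map_mul' a b := Subtype.ext (map_mul (glMap D (σ : F →+* F)) a.1 b.1)

theorem fieldAut_val (hS : Sem D F z) (σ : F ≃+* F) (g : ↥(D.group F)) :
    ((fieldAut hS σ g : ↥(D.group F)) : GL D.Idx F) = glMap D (σ : F →+* F) g.1 := rfl

theorem fieldAut_apply (hS : Sem D F z) (σ : F ≃+* F) (g : ↥(D.group F)) (i k : D.Idx) :
    (((fieldAut hS σ g : ↥(D.group F)) : GL D.Idx F) : Matrix D.Idx D.Idx F) i k =
      σ (((g : GL D.Idx F) : Matrix D.Idx D.Idx F) i k) := by
  rw [fieldAut_val, glMap_apply]; rfl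

/-- `σ ↦` entrywise action is a homomorphism. -/
noncomputable def fieldHom (hS : Sem D F z) : (F ≃+* F) →* MulAut ↥(D.group F) where
  toFun := fieldAut hS
  map_one' := by
    ext g : 1
    apply Subtype.ext
    apply Units.ext
    ext i k
    rw [fieldAut_apply]
    rfl
  map_mul' σ τ := by
    ext g : 1
    apply Subtype.ext
    apply Units.ext
    ext i k
    rw [MulAut.mul_apply, fieldAut_apply, fieldAut_apply, fieldAut_apply]
    rfl

theorem fieldHom_apply (hS : Sem D F z) (σ : F ≃+* F) : fieldHom hS σ = fieldAut hS σ := rfl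

/-- the image of a root element -/
theorem fieldAut_x (hS : Sem D F z) (σ : F ≃+* F) (g : ↥(D.group F)) (r : ℕ) (t : F)
    (hg : ((g : GL D.Idx F) : Matrix D.Idx D.Idx F) = D.x F r t) :
    (((fieldAut hS σ g : ↥(D.group F)) : GL D.Idx F) : Matrix D.Idx D.Idx F) = D.x F r (σ t) := by
  ext i k
  rw [fieldAut_apply, hg]
  exact x_map (σ : F →+* F) r t i k

/-- **P-FIELD** (Chevalley half): the field automorphisms of `D₄(F)`. -/
theorem d4_field_hom (F : Type u) [Field F] :
    ∃ Ψ : (F ≃+* F) →* MulAut ↥(chevD4.group F), Function.Injective Ψ ∧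
      ∀ f : MulAut ↥(chevD4.group F), chevD4.IsFieldAut f ↔ f ∈ Ψ.range := by
  have hS := chk_D4.sem F
  have hN := nconj_D4.semN chk_D4.tblOK F
  have hT := tab_D4
  have hT2 := tab2_D4
  refine ⟨fieldHom hS, ?_, ?_⟩
  · intro σ τ h
    ext t
    have hr : chevD4.simple 0 < chevD4.nroots := hT.simple_lt 0 (by decide)
    let g : ↥(chevD4.group F) := ⟨xU hS (chevD4.simple 0) t, xU_mem_group hS _ _⟩
    have e : ∀ ρ : F ≃+* F, ((fieldHom hS ρ g : ↥(chevD4.group F)) : GL chevD4.Idx F) =
        xU hS (chevD4.simple 0) (ρ t) := fun ρ => glMap_xU hS hS (ρ : F →+* F) _ t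
    have h1 : xU hS (chevD4.simple 0) (σ t) = xU hS (chevD4.simple 0) (τ t) := by
      rw [← e σ, ← e τ, h]
    have h2 : xU hS (chevD4.simple 0) (σ t + -(τ t)) = 1 := by
      rw [← xU_mul, ← xU_inv, h1, mul_inv_cancel]
    have h3 := xU_eq_one_imp hS hT hT2 _ hr _ h2
    linear_combination h3
  · intro f
    rw [MonoidHom.mem_range]
    constructor
    · rintro ⟨σ, hσ⟩
      refine ⟨σ, ?_⟩
      have key : (fieldHom hS σ).toMonoidHom = f.toMonoidHom := by
        apply Cfsg.Agent.H12.GraphFix.hom_ext_fund hS hN hT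
        intro k i t hi hk
        show fieldAut hS σ k = f k
        apply Subtype.ext
        apply Units.ext
        rcases hk with hk | hk
        · rw [hσ k _ t (hT.simple_lt i hi) hk]
          exact fieldAut_x hS σ k _ t hk
        · rw [hσ k _ t (hT.neg_lt _ (hT.simple_lt i hi)) hk]
          exact fieldAut_x hS σ k _ t hk
      exact MulEquiv.ext (fun y => DFunLike.congr_fun key y)
    · rintro ⟨σ, rfl⟩
      exact ⟨σ, fun g r t _ hg => fieldAut_x hS σ g r t hg⟩

end Cfsg.Agent.H61.D4F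

#print axioms Cfsg.Agent.H61.D4F.d4_field_hom
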