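import Mathlib
import Cfsg.Agent.H61.SL2Sylow

set_option autoImplicit false

namespace Cfsg.Agent.H61

open Matrix
open scoped MatrixGroups

section action

theorem card_div_dvd_of_stabilizer {G X : Type*} [Group G] [Finite G] [Finite X] [MulAction G X]
    (c : ℕ) (h : ∀ x : X, Nat.card (MulAction.stabilizer G x) = c) :
    Nat.card G / c ∣ Nat.card X := by
  classical
  have := Fintype.ofFinite G
  have := Fintype.ofFinite X
  have : Fintype (Quotient (MulAction.orbitRel G X)) := Fintype.ofFinite _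
  have hs : ∀ b : X, Fintype (MulAction.stabilizer G b) := fun b => Fintype.ofFinite _
  rw [Nat.card_eq_fintype_card (α := X), MulAction.card_eq_sum_card_group_div_card_stabilizer G X]
  apply Finset.dvd_sum
  intro ω _
  rw [← Nat.card_eq_fintype_card, ← Nat.card_eq_fintype_card, h]

variable {G : Type*} [Group G]

/-- Conjugation of an element of `S` by an element of its normalizer. -/
def nconj (S : Subgroup G) (g : ↥(Subgroup.normalizer (S : Set G))) (s : ↥S) : ↥S :=
  ⟨(g : G) * (s : G) * (g : G)⁻¹, (Subgroup.mem_normalizer_iff.mp g.2 s).mp s.2⟩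

theorem nconj_val (S : Subgroup G) (g : ↥(Subgroup.normalizer (S : Set G))) (s : ↥S) :
    (nconj S g s : G) = (g : G) * (s : G) * (g : G)⁻¹ := rfl

/-- Ordered pairs of non-commuting elements of `S`. -/
abbrev NcPairs (S : Subgroup G) : Type _ := {p : ↥S × ↥S // p.1 * p.2 ≠ p.2 * p.1}

/-- The normalizer acts on pairs of non-commuting elements by conjugation. -/
@[reducible] def ncAction (S : Subgroup G) : MulAction ↥(Subgroup.normalizer (S : Set G)) (NcPairs S) where
  smul g p := ⟨(nconj S g p.1.1, nconj S g p.1.2), by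
    intro h
    apply p.2
    have h' := congrArg Subtype.val h
    simp only [Subgroup.coe_mul, nconj_val] at h'
    apply Subtype.ext
    simp only [Subgroup.coe_mul]
    have e1 : ((p.1.1 : G) * (p.1.2 : G)) =
        (g : G)⁻¹ * ((g : G) * p.1.1 * (g : G)⁻¹ * ((g : G) * p.1.2 * (g : G)⁻¹)) * (g : G) := by
      group
    rw [e1, h']
    group⟩
  one_smul p := by
    apply Subtype.ext
    apply Prod.ext <;> apply Subtype.ext <;>
      show ((1 : ↥(Subgroup.normalizer (S : Set G))) : G) * _ *
        ((1 : ↥(Subgroup.normalizer (S : Set G))) : G)⁻¹ = _ <;> simp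
  mul_smul g h p := by
    apply Subtype.ext
    apply Prod.ext <;> apply Subtype.ext <;>
      show ((g * h : ↥(Subgroup.normalizer (S : Set G))) : G) * _ *
        ((g * h : ↥(Subgroup.normalizer (S : Set G))) : G)⁻¹ =
        (g : G) * ((h : G) * _ * (h : G)⁻¹) * (g : G)⁻¹ <;>
      simp only [Subgroup.coe_mul] <;> group

end action

section small

variable {F : Type*} [Field F]

theorem sJ_sq_coe : ((sJ F * sJ F : SL(2, F)) : Matrix (Fin 2) (Fin 2) F) = -1 := by
  ext i j
  simp only [Matrix.SpecialLinearGroup.coe_mul]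
  fin_cases i <;> fin_cases j <;> simp [sJ]

theorem sJ_sq_sq : (sJ F * sJ F) * (sJ F * sJ F) = (1 : SL(2, F)) := by
  apply Matrix.SpecialLinearGroup.ext
  intro i j
  simp only [Matrix.SpecialLinearGroup.coe_mul]
  fin_cases i <;> fin_cases j <;> simp [sJ]

/-- An element of `SL(2,F)` commuting with two non-commuting elements is `±1`. -/
theorem sl2_eq_pm_one_of_commute (h2 : (2 : F) ≠ 0) (x y g : SL(2, F)) (hxy : x * y ≠ y * x)
    (hgx : g * x = x * g) (hgy : g * y = y * g) :
    (g : Matrix (Fin 2) (Fin 2) F) = 1 ∨ (g : Matrix (Fin 2) (Fin 2) F) = -1 := by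
  have hx2 : x * x ≠ 1 := by
    intro h
    have hc := sl2_mem_center_of_sq h2 x h
    rw [Subgroup.mem_center_iff] at hc
    exact hxy (hc y).symm
  obtain ⟨a, b, hab⟩ := sl2_commutant x g hx2 hgx
  have hgy' : (g : Matrix (Fin 2) (Fin 2) F) * (y : Matrix (Fin 2) (Fin 2) F) =
      (y : Matrix (Fin 2) (Fin 2) F) * (g : Matrix (Fin 2) (Fin 2) F) := by
    rw [← Matrix.SpecialLinearGroup.coe_mul, ← Matrix.SpecialLinearGroup.coe_mul, hgy]
  rw [hab] at hgy'
  have hb : b = 0 := by
    by_contra hb
    apply hxy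
    apply Matrix.SpecialLinearGroup.ext
    intro i j
    simp only [Matrix.SpecialLinearGroup.coe_mul]
    have h3 : b • ((x : Matrix (Fin 2) (Fin 2) F) * (y : Matrix (Fin 2) (Fin 2) F)) =
        b • ((y : Matrix (Fin 2) (Fin 2) F) * (x : Matrix (Fin 2) (Fin 2) F)) := by
      simp only [Matrix.add_mul, Matrix.mul_add, Matrix.smul_mul, Matrix.mul_smul, Matrix.one_mul,
        Matrix.mul_one] at hgy'
      exact add_left_cancel hgy'
    have h4 := congrFun (congrFun h3 i) j
    simp only [Matrix.smul_apply, smul_eq_mul] at h4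
    exact mul_left_cancel₀ hb h4
  rw [hb, zero_smul, add_zero] at hab
  have hdet := g.det_coe
  rw [hab, Matrix.det_smul, Matrix.det_one, mul_one, Fintype.card_fin] at hdet
  have hsq : a * a = 1 := by rw [← pow_two]; exact hdet
  rcases mul_self_eq_one_iff.mp hsq with h | h
  · left; rw [hab, h, one_smul]
  · right; rw [hab, h]; simp

theorem card_ncPairs_q8 :
    Nat.card {p : QuaternionGroup 2 × QuaternionGroup 2 // p.1 * p.2 ≠ p.2 * p.1} = 24 := by
  rw [Nat.card_eq_fintype_card]
  decide +kernel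

end small

section small2

variable {F : Type*} [Field F] [Fintype F]

/-- When the Sylow 2-subgroup of `SL(2,F)` is quaternion of order 8, its normalizer has order 24. -/
theorem sl2_normalizer_sylow_small (hodd : Odd (Fintype.card F)) (S : Sylow 2 SL(2, F))
    (e : ↥(S : Subgroup SL(2, F)) ≃* QuaternionGroup 2) :
    Nat.card (Subgroup.normalizer ((S : Subgroup SL(2, F)) : Set SL(2, F))) = 24 := by
  classical
  have h2 := two_ne_zero_of_odd_card hodd
  have hS8 : Nat.card (S : Subgroup SL(2, F)) = 8 := by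
    rw [Nat.card_congr e.toEquiv, Nat.card_eq_fintype_card, QuaternionGroup.card]
  let _inst := ncAction (S : Subgroup SL(2, F))
  have hX : Nat.card (NcPairs (S : Subgroup SL(2, F))) = 24 := by
    rw [← card_ncPairs_q8]
    apply Nat.card_congr
    refine Equiv.subtypeEquiv (Equiv.prodCongr e.toEquiv e.toEquiv) ?_
    intro p
    show p.1 * p.2 ≠ p.2 * p.1 ↔ e p.1 * e p.2 ≠ e p.2 * e p.1
    rw [← map_mul, ← map_mul, e.injective.ne_iff]
  -- -1 as an element of the normalizer
  have hzc : sJ F * sJ F ∈ Subgroup.center SL(2, F) := sl2_mem_center_of_sq h2 _ sJ_sq_sq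
  have hzcomm : ∀ k : SL(2, F), (sJ F * sJ F) * k * (sJ F * sJ F)⁻¹ = k := by
    intro k
    have hzc' := hzc
    rw [Subgroup.mem_center_iff] at hzc'
    rw [← hzc' k, mul_inv_cancel_right]
  have hzN : sJ F * sJ F ∈ Subgroup.normalizer ((S : Subgroup SL(2, F)) : Set SL(2, F)) := by
    rw [Subgroup.mem_normalizer_iff]
    intro k
    rw [hzcomm k]
  have hz1 : (sJ F * sJ F : SL(2, F)) ≠ 1 := sJ_sq_ne_one h2
  have hstab : ∀ p : NcPairs (S : Subgroup SL(2, F)),
      Nat.card (MulAction.stabilizer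
        ↥(Subgroup.normalizer ((S : Subgroup SL(2, F)) : Set SL(2, F))) p) = 2 := by
    intro p
    rw [Nat.card_eq_two_iff]
    have hzstab : (⟨sJ F * sJ F, hzN⟩ :
        ↥(Subgroup.normalizer ((S : Subgroup SL(2, F)) : Set SL(2, F)))) ∈
        MulAction.stabilizer _ p := by
      rw [MulAction.mem_stabilizer_iff]
      apply Subtype.ext
      apply Prod.ext <;> apply Subtype.ext
      · exact hzcomm _
      · exact hzcomm _
    refine ⟨1, ⟨⟨sJ F * sJ F, hzN⟩, hzstab⟩, ?_, ?_⟩
    · intro h
      apply hz1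
      have := congrArg (fun t : MulAction.stabilizer
        ↥(Subgroup.normalizer ((S : Subgroup SL(2, F)) : Set SL(2, F))) p =>
          ((t : ↥(Subgroup.normalizer ((S : Subgroup SL(2, F)) : Set SL(2, F)))) : SL(2, F))) h
      exact this.symm
    · rw [Set.eq_univ_iff_forall]
      rintro ⟨⟨g, hgN⟩, hg⟩
      rw [MulAction.mem_stabilizer_iff] at hg
      have hg1 : g * ((p.1.1 : ↥(S : Subgroup SL(2, F))) : SL(2, F)) * g⁻¹ = (p.1.1 : SL(2, F)) :=
        congrArg (fun q : NcPairs (S : Subgroup SL(2, F)) => ((q.1.1 : ↥(S : Subgroup SL(2, F))) : SL(2, F))) hg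
      have hg2 : g * ((p.1.2 : ↥(S : Subgroup SL(2, F))) : SL(2, F)) * g⁻¹ = (p.1.2 : SL(2, F)) :=
        congrArg (fun q : NcPairs (S : Subgroup SL(2, F)) => ((q.1.2 : ↥(S : Subgroup SL(2, F))) : SL(2, F))) hg
      have hne : ((p.1.1 : ↥(S : Subgroup SL(2, F))) : SL(2, F)) * (p.1.2 : SL(2, F)) ≠
          (p.1.2 : SL(2, F)) * (p.1.1 : SL(2, F)) := by
        intro h
        exact p.2 (Subtype.ext h)
      have hc1 : g * (p.1.1 : SL(2, F)) = (p.1.1 : SL(2, F)) * g := by
        calc g * (p.1.1 : SL(2, F)) = (g * (p.1.1 : SL(2, F)) * g⁻¹) * g := by group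
          _ = (p.1.1 : SL(2, F)) * g := by rw [hg1]
      have hc2 : g * (p.1.2 : SL(2, F)) = (p.1.2 : SL(2, F)) * g := by
        calc g * (p.1.2 : SL(2, F)) = (g * (p.1.2 : SL(2, F)) * g⁻¹) * g := by group
          _ = (p.1.2 : SL(2, F)) * g := by rw [hg2]
      rcases sl2_eq_pm_one_of_commute h2 _ _ g hne hc1 hc2 with h | h
      · left
        apply Subtype.ext
        apply Subtype.ext
        apply Matrix.SpecialLinearGroup.ext
        intro i j
        rw [h]; rfl
      · right
        apply Subtype.ext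
        apply Subtype.ext
        apply Matrix.SpecialLinearGroup.ext
        intro i j
        show (g : Matrix (Fin 2) (Fin 2) F) i j = ((sJ F * sJ F : SL(2, F)) : Matrix (Fin 2) (Fin 2) F) i j
        rw [h, sJ_sq_coe]
  have hdvd := card_div_dvd_of_stabilizer
    (G := ↥(Subgroup.normalizer ((S : Subgroup SL(2, F)) : Set SL(2, F))))
    (X := NcPairs (S : Subgroup SL(2, F))) 2 hstab
  rw [hX] at hdvd
  -- S ≤ N, 8 ∣ |N|, 16 ∤ |N|
  have hSN : (S : Subgroup SL(2, F)) ≤
      Subgroup.normalizer ((S : Subgroup SL(2, F)) : Set SL(2, F)) := Subgroup.le_normalizer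
  have h8 : 8 ∣ Nat.card (Subgroup.normalizer ((S : Subgroup SL(2, F)) : Set SL(2, F))) := by
    rw [← hS8]; exact Subgroup.card_dvd_of_le hSN
  have h16 : ¬ 16 ∣ Nat.card (Subgroup.normalizer ((S : Subgroup SL(2, F)) : Set SL(2, F))) := by
    intro h
    have h' : 2 ^ 4 ∣ Nat.card SL(2, F) := by
      have : (16 : ℕ) ∣ Nat.card SL(2, F) := h.trans (Subgroup.card_subgroup_dvd_card _)
      simpa using this
    have := S.pow_dvd_card_of_pow_dvd_card h'
    rw [hS8] at this
    omega
  -- N ≠ S
  obtain ⟨x, y, w, hxS, hyS, hx2, hx4, hyx, hwx, hwy⟩ := exists_q8_in_sylow hodd S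
  have hxy : x * y ≠ y * x := by
    intro h
    apply hx2
    have h3 : y * x * y⁻¹ = x := by rw [← h, mul_inv_cancel_right]
    rw [h3] at hyx
    calc x * x = x * x⁻¹ := by rw [← hyx]
      _ = 1 := mul_inv_cancel x
  have hcl : Subgroup.closure ({x, y} : Set SL(2, F)) = (S : Subgroup SL(2, F)) := by
    have hle : Subgroup.closure ({x, y} : Set SL(2, F)) ≤ (S : Subgroup SL(2, F)) := by
      rw [Subgroup.closure_le]
      rintro z (rfl | rfl)
      · exact hxS
      · exact hyS
    apply Subgroup.eq_of_le_of_card_ge hle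
    have hzx : Subgroup.zpowers x ≤ Subgroup.closure ({x, y} : Set SL(2, F)) := by
      rw [Subgroup.zpowers_le]
      exact Subgroup.subset_closure (by simp)
    have d1 : 4 ∣ Nat.card (Subgroup.closure ({x, y} : Set SL(2, F))) := by
      have := Subgroup.card_dvd_of_le hzx
      rwa [Nat.card_zpowers, hx4] at this
    have d2 : Nat.card (Subgroup.closure ({x, y} : Set SL(2, F))) ∣ 8 := by
      rw [← hS8]; exact Subgroup.card_dvd_of_le hle
    have hne4 : Nat.card (Subgroup.closure ({x, y} : Set SL(2, F))) ≠ 4 := by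
      intro h4
      have heq : Subgroup.zpowers x = Subgroup.closure ({x, y} : Set SL(2, F)) :=
        Subgroup.eq_of_le_of_card_ge hzx (by rw [Nat.card_zpowers, hx4, h4])
      have hy : y ∈ Subgroup.zpowers x := by
        rw [heq]; exact Subgroup.subset_closure (by simp)
      obtain ⟨k, rfl⟩ := Subgroup.mem_zpowers_iff.mp hy
      exact hxy ((Commute.refl x).zpow_right k).eq
    rw [hS8]
    have hpos : 0 < Nat.card (Subgroup.closure ({x, y} : Set SL(2, F))) := Nat.card_pos
    have hle8 := Nat.le_of_dvd (by norm_num) d2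
    obtain ⟨c, hc⟩ := d1
    have : c = 1 ∨ c = 2 := by
      rcases d2 with ⟨d, hd⟩
      rw [hc] at hd hle8
      omega
    omega
  have hwN : w ∈ Subgroup.normalizer ((S : Subgroup SL(2, F)) : Set SL(2, F)) := by
    apply Subgroup.mem_normalizer_fintype
    intro z hz
    have hz' : z ∈ Subgroup.closure ({x, y} : Set SL(2, F)) := by rw [hcl]; exact hz
    have h1 : MulAut.conj w z ∈
        (Subgroup.closure ({x, y} : Set SL(2, F))).map (MulAut.conj w).toMonoidHom :=
      Subgroup.mem_map_of_mem _ hz'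
    rw [MonoidHom.map_closure] at h1
    have h3 : Subgroup.closure ((MulAut.conj w).toMonoidHom '' ({x, y} : Set SL(2, F))) ≤
        (S : Subgroup SL(2, F)) := by
      rw [Subgroup.closure_le]
      rintro t ⟨s, (rfl | rfl), rfl⟩
      · show w * s * w⁻¹ ∈ (S : Subgroup SL(2, F))
        rw [hwx]; exact hyS
      · show w * s * w⁻¹ ∈ (S : Subgroup SL(2, F))
        rw [hwy]; exact Subgroup.mul_mem _ hxS hyS
    exact h3 h1
  have hwS : w ∉ (S : Subgroup SL(2, F)) := by
    intro hw
    -- zpowers x has index 2 in S, hence is normal in S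
    let X : ↥(S : Subgroup SL(2, F)) := ⟨x, hxS⟩
    have hXord : orderOf X = 4 := by rw [Subgroup.orderOf_mk]; exact hx4
    have hidx : (Subgroup.zpowers X).index = 2 := by
      have := (Subgroup.zpowers X).card_mul_index
      rw [Nat.card_zpowers, hXord, hS8] at this
      omega
    have hnorm : (Subgroup.zpowers X).Normal := Subgroup.normal_of_index_eq_two hidx
    have hmem := hnorm.conj_mem X (Subgroup.mem_zpowers X) ⟨w, hw⟩
    obtain ⟨k, hk⟩ := Subgroup.mem_zpowers_iff.mp hmem
    have hk' : x ^ k = w * x * w⁻¹ := by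
      have := congrArg Subtype.val hk
      simpa [X] using this
    rw [hwx] at hk'
    exact hxy (hk' ▸ ((Commute.refl x).zpow_right k).eq)
  have hgt : 8 < Nat.card (Subgroup.normalizer ((S : Subgroup SL(2, F)) : Set SL(2, F))) := by
    have hlt : (S : Subgroup SL(2, F)) <
        Subgroup.normalizer ((S : Subgroup SL(2, F)) : Set SL(2, F)) := by
      refine lt_of_le_of_ne hSN ?_
      intro h
      apply hwS
      rw [h]; exact hwN
    have hle8 : 8 ≤ Nat.card (Subgroup.normalizer ((S : Subgroup SL(2, F)) : Set SL(2, F))) := by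
      rw [← hS8]; exact Subgroup.card_le_of_le hSN
    refine lt_of_le_of_ne hle8 ?_
    intro h8'
    exact hlt.ne (Subgroup.eq_of_le_of_card_ge hSN (by rw [hS8, ← h8']))
  -- arithmetic
  obtain ⟨m, hm⟩ := h8
  rw [hm] at hdvd h16 hgt ⊢
  have h24 : 8 * m / 2 = 4 * m := by omega
  rw [h24] at hdvd
  have hm6 : m ∣ 6 := by
    have : 4 * m ∣ 4 * 6 := hdvd
    exact (Nat.mul_dvd_mul_iff_left (by norm_num)).mp this
  have hmle : m ≤ 6 := Nat.le_of_dvd (by norm_num) hm6
  have hmodd : ¬ 2 ∣ m := by
    intro ⟨c, hc⟩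
    apply h16
    exact ⟨c, by rw [hc]; ring⟩
  interval_cases m <;> omega

end small2

end Cfsg.Agent.H61
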