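import Mathlib
import Cfsg.Prelude.Def_LinearParabolics

/-!
# Orders of standard parabolic subgroups of `GL_n(q)`

Counting linearly independent tuples adapted to an increasing chain of subspaces, the order of the
group of invertible block triangular matrices, and the block combinatorics of `Cfsg.compLabel`.
-/

set_option autoImplicit false

namespace Cfsg.Agent.H61

open Finset
open scoped MatrixGroups



/-- Step equivalence for counting independent tuples adapted to an increasing chain. -/
noncomputable def flagStepEquiv {K V : Type*} [Field K] [AddCommGroup V] [Module K V] (k : ℕ)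
    (W : Fin (k + 1) → Submodule K V) :
    {s : Fin (k + 1) → V // LinearIndependent K s ∧ ∀ j, s j ∈ W j} ≃
      Σ s : {s : Fin k → V // LinearIndependent K s ∧ ∀ j, s j ∈ W (Fin.castSucc j)},
        {x : V // x ∈ W (Fin.last k) ∧ x ∉ Submodule.span K (Set.range s.1)} where
  toFun s := ⟨⟨Fin.init s.1, (linearIndependent_finSucc'.mp s.2.1).1, fun j => s.2.2 (Fin.castSucc j)⟩,
    ⟨s.1 (Fin.last k), s.2.2 (Fin.last k), (linearIndependent_finSucc'.mp s.2.1).2⟩⟩
  invFun p := ⟨Fin.snoc (α := fun _ => V) p.1.1 p.2.1,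
    linearIndependent_finSnoc.mpr ⟨p.1.2.1, p.2.2.2⟩, by
      intro j
      refine Fin.lastCases ?_ (fun i => ?_) j
      · simpa using p.2.2.1
      · simpa using p.1.2.2 i⟩
  left_inv s := by
    apply Subtype.ext
    simp [Fin.snoc_init_self]
  right_inv p := by
    obtain ⟨⟨s, hs⟩, ⟨x, hx⟩⟩ := p
    refine Sigma.subtype_ext (β := V) (p := fun (a : {s : Fin k → V // LinearIndependent K s ∧
      ∀ j, s j ∈ W (Fin.castSucc j)}) (b : V) => b ∈ W (Fin.last k) ∧
        b ∉ Submodule.span K (Set.range a.1)) ?_ ?_
    · apply Subtype.ext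
      simp [Fin.init_snoc]
    · simp

theorem card_flag_indep {K V : Type*} [Field K] [Fintype K] [AddCommGroup V] [Module K V]
    [Finite V] {q : ℕ} (hq : Fintype.card K = q) :
    ∀ (k : ℕ) (W : Fin k → Submodule K V) (d : Fin k → ℕ), Monotone W →
      (∀ j, Nat.card (W j) = q ^ d j) →
      Nat.card {s : Fin k → V // LinearIndependent K s ∧ ∀ j, s j ∈ W j} =
        ∏ j : Fin k, (q ^ d j - q ^ j.val) := by
  classical
  intro k
  induction k with
  | zero =>
    intro W d _ _
    have : Unique {s : Fin 0 → V // LinearIndependent K s ∧ ∀ j, s j ∈ W j} :=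
      { default := ⟨fun i => i.elim0, linearIndependent_empty_type, fun j => j.elim0⟩
        uniq := fun a => Subtype.ext (funext fun i => i.elim0) }
    simp
  | succ k ih =>
    intro W d hW hd
    have := Fintype.ofFinite {s : Fin k → V // LinearIndependent K s ∧ ∀ j, s j ∈ W (Fin.castSucc j)}
    have hfib : ∀ s : {s : Fin k → V // LinearIndependent K s ∧ ∀ j, s j ∈ W (Fin.castSucc j)},
        Nat.card {x : V // x ∈ W (Fin.last k) ∧ x ∉ Submodule.span K (Set.range s.1)} =
          q ^ d (Fin.last k) - q ^ k := by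
      intro s
      have hle : Submodule.span K (Set.range s.1) ≤ W (Fin.last k) := by
        rw [Submodule.span_le]
        rintro _ ⟨j, rfl⟩
        exact hW (Fin.le_last _) (s.2.2 j)
      have h1 : Nat.card (Submodule.span K (Set.range s.1)) = q ^ k := by
        have := Fintype.ofFinite (Submodule.span K (Set.range s.1))
        rw [Nat.card_eq_fintype_card, Module.card_eq_pow_finrank (K := K), finrank_span_eq_card s.2.1,
          Fintype.card_fin, hq]
      have h2 : {x : V | x ∈ W (Fin.last k) ∧ x ∉ Submodule.span K (Set.range s.1)} =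
          (W (Fin.last k) : Set V) \ (Submodule.span K (Set.range s.1) : Set V) := by
        ext x; simp
      change Nat.card {x : V | x ∈ W (Fin.last k) ∧ x ∉ Submodule.span K (Set.range s.1)} = _
      rw [h2, Nat.card_coe_set_eq, Set.ncard_sdiff hle (Set.toFinite _), ← Nat.card_coe_set_eq,
        ← Nat.card_coe_set_eq]
      change Nat.card (W (Fin.last k)) - Nat.card (Submodule.span K (Set.range s.1)) = _
      rw [h1, hd]
    rw [Nat.card_congr (flagStepEquiv k W), Nat.card_sigma]
    simp only [hfib]
    rw [Finset.sum_const, Finset.card_univ, smul_eq_mul, ← Nat.card_eq_fintype_card,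
      ih (fun j => W (Fin.castSucc j)) (fun j => d (Fin.castSucc j))
        (fun a b hab => hW (Fin.castSucc_le_castSucc_iff.mpr hab)) (fun j => hd _),
      Fin.prod_univ_castSucc]
    simp




/-- Column vectors supported on the rows whose label does not exceed `c`. -/
def colSub (F : Type*) [Field F] {n : ℕ} (b : Fin n → ℕ) (c : ℕ) : Submodule F (Fin n → F) where
  carrier := {v | ∀ i, c < b i → v i = 0}
  add_mem' := fun {v w} hv hw i hi => by simp [hv i hi, hw i hi]
  zero_mem' := fun i _ => rfl
  smul_mem' := fun a v hv i hi => by simp [hv i hi]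

theorem card_colSub {F : Type*} [Field F] [Fintype F] {q : ℕ} (hq : Fintype.card F = q) {n : ℕ}
    (b : Fin n → ℕ) (c : ℕ) :
    Nat.card (colSub F b c) = q ^ (univ.filter fun i : Fin n => ¬ c < b i).card := by
  classical
  let e : colSub F b c ≃ ({i : Fin n // ¬ c < b i} → F) :=
    { toFun := fun v i => v.1 i.1
      invFun := fun f => ⟨fun i => if h : ¬ c < b i then f ⟨i, h⟩ else 0, fun i hi => by
        simp [hi]⟩
      left_inv := fun v => by
        apply Subtype.ext
        funext i
        by_cases h : c < b i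
        · simp [h, v.2 i h]
        · simp [h]
      right_inv := fun f => by
        funext i
        simp [i.2] }
  rw [Nat.card_congr e, Nat.card_eq_fintype_card, Fintype.card_fun, Fintype.card_subtype, hq]

theorem card_blockTriangular_GL {F : Type*} [Field F] [Fintype F] {q : ℕ}
    (hq : Fintype.card F = q) {n : ℕ} (b : Fin n → ℕ) (hb : Monotone b) :
    Nat.card {g : GL (Fin n) F // (g : Matrix (Fin n) (Fin n) F).BlockTriangular b} =
      ∏ j : Fin n, (q ^ (univ.filter fun i : Fin n => ¬ b j < b i).card - q ^ j.val) := by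
  classical
  have e1 : {g : GL (Fin n) F // (g : Matrix (Fin n) (Fin n) F).BlockTriangular b} ≃
      {s : {s : Fin n → Fin n → F // LinearIndependent F s} // ∀ j, s.1 j ∈ colSub F b (b j)} :=
    (Matrix.equiv_GL_linearindependent n).subtypeEquiv (fun g => by
      constructor
      · intro h j i hi
        exact h hi
      · intro h i j hij
        exact h j i hij)
  have e2 : {s : {s : Fin n → Fin n → F // LinearIndependent F s} // ∀ j, s.1 j ∈ colSub F b (b j)} ≃
      {s : Fin n → Fin n → F // LinearIndependent F s ∧ ∀ j, s j ∈ colSub F b (b j)} :=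
    Equiv.subtypeSubtypeEquivSubtypeInter (fun s : Fin n → Fin n → F => LinearIndependent F s)
      (fun s : Fin n → Fin n → F => ∀ j, s j ∈ colSub F b (b j))
  rw [Nat.card_congr (e1.trans e2)]
  exact card_flag_indep hq n (fun j => colSub F b (b j))
    (fun j => (univ.filter fun i : Fin n => ¬ b j < b i).card)
    (fun j j' hjj' v hv i hi => hv i (lt_of_le_of_lt (hb hjj') hi))
    (fun j => card_colSub hq b (b j))




theorem pow_sub_pow_qint (q d j : ℕ) (hq : 1 ≤ q) :
    q ^ d - q ^ j = q ^ j * ((q - 1) * ∑ l ∈ range (d - j), q ^ l) := by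
  rcases le_or_gt d j with h | h
  · rw [Nat.sub_eq_zero_of_le h, Nat.sub_eq_zero_of_le (Nat.pow_le_pow_right hq h)]
    simp
  · have h1 := geom_sum_mul_of_one_le hq (d - j)
    rw [mul_comm (q - 1), h1, Nat.mul_sub, mul_one, ← pow_add, Nat.add_sub_cancel' h.le]

section comb

variable {n : ℕ} (μ : Fin n → ℕ)

/-- The composition extended by zero to all naturals. -/
def muN (t : ℕ) : ℕ := if h : t < n then μ ⟨t, h⟩ else 0

/-- Partial sums of the composition. -/
def psum (m : ℕ) : ℕ := ∑ t ∈ range m, muN μ t

theorem psum_succ (m : ℕ) : psum μ (m + 1) = psum μ m + muN μ m := Finset.sum_range_succ _ _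

theorem psum_mono : Monotone (psum μ) := fun _ _ hab =>
  Finset.sum_le_sum_of_subset (range_mono hab)

theorem psum_n : psum μ n = ∑ i, μ i := by
  unfold psum
  rw [← Fin.sum_univ_eq_sum_range]
  apply Finset.sum_congr rfl
  intro i _
  simp [muN]

theorem sum_filter_le_eq_psum (j : Fin n) :
    ∑ k ∈ univ.filter (fun k : Fin n => k ≤ j), μ k = psum μ (j.val + 1) := by
  rw [Finset.sum_filter]
  have hmu : ∀ k : Fin n, muN μ k.val = μ k := by
    intro k
    simp [muN]
  have h : ∀ k : Fin n, (if k ≤ j then μ k else 0) =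
      (fun k : ℕ => if k ≤ j.val then muN μ k else 0) k.val := by
    intro k
    simp only [hmu, Fin.le_iff_val_le_val]
  rw [Finset.sum_congr rfl (fun k _ => h k),
    Fin.sum_univ_eq_sum_range (fun k : ℕ => if k ≤ j.val then muN μ k else 0) n,
    ← Finset.sum_filter]
  unfold psum
  congr 1
  ext k
  simp only [mem_filter, mem_range]
  omega

/-- The block label as a function of a natural number. -/
def labN (i : ℕ) : ℕ := (univ.filter fun j : Fin n => psum μ (j.val + 1) ≤ i).card

theorem compLabel_eq_labN (i : Fin n) : Cfsg.compLabel μ i = labN μ i.val := by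
  unfold Cfsg.compLabel labN
  simp only [sum_filter_le_eq_psum]

theorem compLabel_mono : Monotone (Cfsg.compLabel μ) := by
  intro i i' h
  unfold Cfsg.compLabel
  apply Finset.card_le_card
  intro j hj
  simp only [mem_filter, mem_univ, true_and] at hj ⊢
  exact hj.trans (Fin.le_def.mp h)

theorem labN_block (t : ℕ) (ht : t < n) (k : ℕ) (hk : k < muN μ t) :
    labN μ (psum μ t + k) = t := by
  unfold labN
  have h : (univ.filter fun j : Fin n => psum μ (j.val + 1) ≤ psum μ t + k) =
      univ.filter (fun j : Fin n => j.val < t) := by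
    ext j
    simp only [mem_filter, mem_univ, true_and]
    constructor
    · intro h
      by_contra hj
      push Not at hj
      have h2 := psum_mono μ (Nat.add_le_add_right hj 1)
      rw [psum_succ] at h2
      omega
    · intro h
      have h2 := psum_mono μ (show j.val + 1 ≤ t by omega)
      omega
  rw [h, Fin.card_filter_val_lt]
  omega

theorem exists_block (m i : ℕ) (hi : i < psum μ m) :
    ∃ t, t < m ∧ ∃ k, k < muN μ t ∧ i = psum μ t + k := by
  induction m with
  | zero => simp [psum] at hi
  | succ m ih =>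
    by_cases h : i < psum μ m
    · obtain ⟨t, ht, k, hk, e⟩ := ih h
      exact ⟨t, by omega, k, hk, e⟩
    · rw [psum_succ] at hi
      exact ⟨m, by omega, i - psum μ m, by omega, by omega⟩

theorem labN_le_iff (hμ : ∑ i, μ i = n) (t : ℕ) (i : ℕ) (hi : i < n) :
    labN μ i ≤ t ↔ i < psum μ (t + 1) := by
  obtain ⟨t', ht', k', hk', rfl⟩ := exists_block μ n i (by rw [psum_n, hμ]; exact hi)
  rw [labN_block μ t' ht' k' hk']
  constructor
  · intro h
    have h2 := psum_mono μ (Nat.add_le_add_right h 1)
    rw [psum_succ] at h2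
    omega
  · intro h
    by_contra hc
    push Not at hc
    have h2 := psum_mono μ (show t + 1 ≤ t' by omega)
    omega

theorem card_le_label (hμ : ∑ i, μ i = n) (t : ℕ) (ht : t < n) (k : ℕ) (hk : k < muN μ t)
    (j : Fin n) (hj : j.val = psum μ t + k) :
    (univ.filter fun i : Fin n => ¬ Cfsg.compLabel μ j < Cfsg.compLabel μ i).card =
      psum μ (t + 1) := by
  have h : (univ.filter fun i : Fin n => ¬ Cfsg.compLabel μ j < Cfsg.compLabel μ i) =
      univ.filter (fun i : Fin n => i.val < psum μ (t + 1)) := by
    ext i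
    simp only [mem_filter, mem_univ, true_and, compLabel_eq_labN, hj, labN_block μ t ht k hk,
      not_lt]
    exact labN_le_iff μ hμ t i.val i.2
  rw [h, Fin.card_filter_val_lt]
  have h2 := psum_mono μ (show t + 1 ≤ n by omega)
  rw [psum_n, hμ] at h2
  omega

theorem prod_range_psum {M : Type*} [CommMonoid M] (h : ℕ → M) (m : ℕ) :
    ∏ i ∈ range (psum μ m), h i = ∏ t ∈ range m, ∏ k ∈ range (muN μ t), h (psum μ t + k) := by
  induction m with
  | zero => simp [psum]
  | succ m ih => rw [psum_succ, Finset.prod_range_add, ih, Finset.prod_range_succ]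

theorem prod_qint_blocks (hμ : ∑ i, μ i = n) (q : ℕ) :
    ∏ j : Fin n, ∑ l ∈ range ((univ.filter fun i : Fin n =>
        ¬ Cfsg.compLabel μ j < Cfsg.compLabel μ i).card - j.val), q ^ l =
      ∏ t : Fin n, ∏ k ∈ range (μ t), ∑ l ∈ range (k + 1), q ^ l := by
  classical
  let dN : ℕ → ℕ := fun j => if h : j < n then
    (univ.filter fun i : Fin n => ¬ Cfsg.compLabel μ ⟨j, h⟩ < Cfsg.compLabel μ i).card else 0
  have h1 : ∀ j : Fin n, (∑ l ∈ range ((univ.filter fun i : Fin n =>
        ¬ Cfsg.compLabel μ j < Cfsg.compLabel μ i).card - j.val), q ^ l) =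
      (fun j : ℕ => ∑ l ∈ range (dN j - j), q ^ l) j.val := by
    intro j
    simp [dN]
  rw [Finset.prod_congr rfl (fun j _ => h1 j),
    Fin.prod_univ_eq_prod_range (fun j : ℕ => ∑ l ∈ range (dN j - j), q ^ l) n]
  have hn : range n = range (psum μ n) := by rw [psum_n, hμ]
  rw [hn, prod_range_psum]
  have h2 : ∀ t : Fin n, ∏ k ∈ range (μ t), ∑ l ∈ range (k + 1), q ^ l =
      (fun t : ℕ => ∏ k ∈ range (muN μ t), ∑ l ∈ range (k + 1), q ^ l) t.val := by
    intro t
    simp [muN]
  rw [Finset.prod_congr rfl (fun t _ => h2 t),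
    Fin.prod_univ_eq_prod_range (fun t : ℕ => ∏ k ∈ range (muN μ t), ∑ l ∈ range (k + 1), q ^ l) n]
  apply Finset.prod_congr rfl
  intro t ht
  rw [mem_range] at ht
  rw [← Finset.prod_range_reflect (fun k => ∑ l ∈ range (k + 1), q ^ l) (muN μ t)]
  apply Finset.prod_congr rfl
  intro k hk
  rw [mem_range] at hk
  have hlt : psum μ t + k < n := by
    have h3 := psum_mono μ (show t + 1 ≤ n by omega)
    rw [psum_n, hμ, psum_succ] at h3
    omega
  have h4 : dN (psum μ t + k) = psum μ (t + 1) := by
    simp only [dN, dif_pos hlt]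
    exact card_le_label μ hμ t ht k hk ⟨_, hlt⟩ rfl
  simp only [h4, psum_succ]
  congr 2
  omega

end comb

end Cfsg.Agent.H61
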