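import Cfsg.Agent.H77.TmDefs2
import Cfsg.Agent.H14.OtDefs

/-!
# S5987-EXEVEN sub-tree (helper61, co-lead for helper77): definitions and piece statements

Goal: `Cfsg.Agent.H77.Tm.StExEven` (elements of `Ω⁻_{2k+2}(q)` of odd prime order `r ≠ p`, `i = ii F r`
even, with `A` blocks spread evenly over the `(r - 1) / i` types).

Method: abstract quadratic models `(V, Q, g)` (`QCtx r Q g`, any characteristic), orthogonal sums,
a trivial summand of the right type, and transport to the standard minus space `F^(MI k)`.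
-/

set_option autoImplicit false
open scoped MatrixGroups
open scoped Matrix

namespace Cfsg.Agent.H61.Tm

open Cfsg.Agent.H45 Cfsg.Agent.H42.Spd Cfsg.Agent.H42.Ti Cfsg.Agent.H77.Tq Cfsg.Agent.H77.Tm
  Module Polynomial

universe u

/-- Quadratic models: a quadratic space of dimension `n` with nondegenerate polar form and an
isometry `g`, `g ^ r = 1`, with fixed space of dimension `c` and isotypic components of dimensions
`a φ` (`φ ∈ Φs`). -/
def ModelQ (F : Type u) [Field F] (r n c : ℕ) (Φs : Finset F[X]) (a : F[X] → ℕ) : Prop :=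
  ∃ (V : Type u) (_ : AddCommGroup V) (_ : Module F V) (_ : FiniteDimensional F V)
    (Q : QuadraticForm F V) (g : Module.End F V),
    QCtx r Q g ∧ Module.finrank F V = n ∧
      Module.finrank F ↥(LinearMap.ker (g - 1)) = c ∧
      ∀ φ ∈ Φs, Module.finrank F ↥(LinearMap.ker (aeval g φ)) = a φ

/-! ## One block -/

/-- TMX-BLOCKONE: for `i` even there is a quadratic space of dimension `i` with a fixed-point-free
isometry of order `r` (an element of order `r` of `O⁻_i(q)`, Cauchy + the order formula). -/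
def StBlockOne : Prop :=
  ∀ (F : Type u) [Field F] [Fintype F] (p : ℕ) [Fact p.Prime] [CharP F p] (r : ℕ), r.Prime →
    r ≠ 2 → r ≠ p → Even (ii F r) → ∀ a b : F, Aniso a b →
    ∃ (V : Type u) (_ : AddCommGroup V) (_ : Module F V) (_ : FiniteDimensional F V)
      (Q : QuadraticForm F V) (g : Module.End F V),
      QCtx r Q g ∧ Module.finrank F V = ii F r ∧ LinearMap.ker (g - 1) = ⊥

/-- TMX-POWERS (pure linear algebra): a fixed-point-free `T` with `T ^ r = 1` on a space of
dimension `i = ii F r` is killed by one irreducible factor of the cyclotomic polynomial, and every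
other factor kills a suitable power of `T`. -/
def StPowers : Prop :=
  ∀ (F : Type u) [Field F] [Fintype F] (V : Type u) [AddCommGroup V] [Module F V]
    [FiniteDimensional F V] (r : ℕ) (T : Module.End F V),
    r.Prime → (r : F) ≠ 0 → T ^ r = 1 → LinearMap.ker (T - 1) = ⊥ →
    Module.finrank F V = ii F r → 0 < ii F r →
    ∀ Φs : Finset F[X], IsCycSet F r Φs → ∀ φ₀ ∈ Φs, ∃ e : ℕ, aeval (T ^ e) φ₀ = 0

open Classical in
/-- TMX-BLOCKEX: for `i` even, one block of every type `φ₀`. -/
def StBlockEx : Prop :=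
  ∀ (F : Type u) [Field F] [Fintype F] (p : ℕ) [Fact p.Prime] [CharP F p] (r : ℕ), r.Prime →
    r ≠ 2 → r ≠ p → Even (ii F r) → ∀ a b : F, Aniso a b →
    ∀ Φs : Finset F[X], IsCycSet F r Φs → ∀ φ₀ ∈ Φs,
    ModelQ F r (ii F r) 0 Φs (fun φ => if φ = φ₀ then ii F r else 0)

/-! ## Sums -/

/-- TMX-SUM: orthogonal sums of models. -/
def StModSum : Prop :=
  ∀ (F : Type u) [Field F] (r : ℕ) (Φs : Finset F[X]) (n₁ c₁ n₂ c₂ : ℕ) (a₁ a₂ : F[X] → ℕ),
    ModelQ F r n₁ c₁ Φs a₁ → ModelQ F r n₂ c₂ Φs a₂ →
    ModelQ F r (n₁ + n₂) (c₁ + c₂) Φs (fun φ => a₁ φ + a₂ φ)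

/-- TMX-ALL: for `i` even, fixed-point-free models with arbitrary multiplicities. -/
def StModAll : Prop :=
  ∀ (F : Type u) [Field F] [Fintype F] (p : ℕ) [Fact p.Prime] [CharP F p] (r : ℕ), r.Prime →
    r ≠ 2 → r ≠ p → Even (ii F r) → ∀ a b : F, Aniso a b →
    ∀ Φs : Finset F[X], IsCycSet F r Φs → ∀ mult : F[X] → ℕ,
    ModelQ F r (ii F r * ∑ φ ∈ Φs, mult φ) 0 Φs (fun φ => ii F r * mult φ)

/-- TMX-FIX: the orthogonal sum of a fixed-point-free model with a quadratic space `(C, QC)` on
which the isometry is the identity: the fixed space of the sum is an isometric copy of `C`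
(`j` = the inclusion of `C`). -/
def StModFix : Prop :=
  ∀ (F : Type u) [Field F] (r n : ℕ) (Φs : Finset F[X]) (a : F[X] → ℕ)
    (C : Type u) [AddCommGroup C] [Module F C] [FiniteDimensional F C] (QC : QuadraticForm F C),
    (∀ φ ∈ Φs, φ.eval 1 ≠ 0) → ModelQ F r n 0 Φs a →
    (∀ x, (∀ y, QuadraticMap.polar ⇑QC x y = 0) → x = 0) →
    ∃ (V : Type u) (_ : AddCommGroup V) (_ : Module F V) (_ : FiniteDimensional F V)
      (Q : QuadraticForm F V) (g : Module.End F V) (j : C →ₗ[F] V),
      QCtx r Q g ∧ Module.finrank F V = n + Module.finrank F C ∧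
      Function.Injective j ∧ LinearMap.range j = LinearMap.ker (g - 1) ∧
      (∀ c, Q (j c) = QC c) ∧
      ∀ φ ∈ Φs, Module.finrank F ↥(LinearMap.ker (aeval g φ)) = a φ

/-! ## The type of the whole space -/

/-- TMX-TYPEV: `i` even, `dim range (T - 1) = i A`, `dim ker (T - 1) = 2 e`, `dim V = 2 n`.
If the fixed space has a totally singular subspace of half its dimension exactly when `A` is odd,
then `V` has no totally singular subspace of dimension `n` (`V` is of minus type). -/
def StTypeV : Prop :=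
  ∀ (F : Type u) [Field F] [Fintype F] (V : Type u) [AddCommGroup V] [Module F V]
    [FiniteDimensional F V] (r : ℕ) (Q : QuadraticForm F V) (T : Module.End F V),
    QCtx r Q T → Even (ii F r) → ∀ A n e : ℕ,
    Module.finrank F ↥(LinearMap.range (T - 1)) = ii F r * A →
    Module.finrank F ↥(LinearMap.ker (T - 1)) = 2 * e →
    Module.finrank F V = 2 * n →
    (Odd A → ∃ L : Submodule F V, L ≤ LinearMap.ker (T - 1) ∧ TS Q L ∧
      Module.finrank F ↥L = e) →
    (Even A → ∀ L : Submodule F V, L ≤ LinearMap.ker (T - 1) → TS Q L →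
      Module.finrank F ↥L < e) →
    ∀ U : Submodule F V, TS Q U → Module.finrank F ↥U < n

/-! ## Transport to the standard minus space -/

/-- TMX-TRANSM: a quadratic space of dimension `2 k + 2` with nondegenerate polar form and no
totally singular subspace of dimension `k + 1` is isometric to the standard minus space. -/
def StTransM : Prop :=
  ∀ (F : Type u) [Field F] [Fintype F] (k : ℕ) (a b : F) (V : Type u) [AddCommGroup V]
    [Module F V] [FiniteDimensional F V] (Q : QuadraticForm F V),
    Aniso a b → Module.finrank F V = 2 * k + 2 →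
    (∀ x, (∀ y, QuadraticMap.polar ⇑Q x y = 0) → x = 0) →
    (∀ U : Submodule F V, TS Q U → Module.finrank F ↥U < k + 1) →
    ∃ e : V ≃ₗ[F] (MI k → F), ∀ v, Cfsg.quadFormMinus k F a b (e v) = Q v

/-- TMX-TRANSG: transport of an isometry of odd order `r` along an isometry `e` onto the standard
minus space: the matrix `x` of `e ∘ g ∘ e⁻¹` lies in `Ω⁻`, and has the same kernel dimensions. -/
def StTransG : Prop :=
  ∀ (F : Type u) [Field F] [Fintype F] (k : ℕ) (a b : F) (r : ℕ) (V : Type u) [AddCommGroup V]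
    [Module F V] [FiniteDimensional F V] (Q : QuadraticForm F V) (g : Module.End F V)
    (e : V ≃ₗ[F] (MI k → F)),
    Aniso a b → 2 ≤ k → QCtx r Q g → (∀ v, Cfsg.quadFormMinus k F a b (e v) = Q v) →
    ∃ x : GL (MI k) F, x ∈ Cfsg.Geo.omegaGL (Cfsg.quadFormMinus k F a b) ∧ x ^ r = 1 ∧
      (∀ w : MI k → F, (x : Matrix (MI k) (MI k) F) *ᵥ w = e (g (e.symm w))) ∧
      fixDim k x = Module.finrank F ↥(LinearMap.ker (g - 1)) ∧
      (∀ φ : F[X], Module.finrank F ↥(LinearMap.ker
          (aeval (Matrix.toLin' (x : Matrix (MI k) (MI k) F)) φ))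
        = Module.finrank F ↥(LinearMap.ker (aeval g φ))) ∧
      (∀ z : F, (x : Matrix (MI k) (MI k) F) = z • (1 : Matrix (MI k) (MI k) F) →
        g = z • (1 : Module.End F V))

end Cfsg.Agent.H61.Tm
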