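import Mathlib

/-!
# Piece `S5965-DIAGZ` of helper99's project (helper61)

A matrix `y` with `y ^ r = 1` over a finite field containing the `r`-th roots of unity is
diagonalisable.
-/

set_option autoImplicit false

namespace Cfsg.Agent.H61.Sub

open scoped MatrixGroups

section eig

variable {K : Type*} [Field K] {V : Type*} [AddCommGroup V] [Module K V]

/-- If `T ^ r = 1` and `K` contains a primitive `r`-th root of unity (`r ≠ 0` in `K`), the
eigenvectors of `T` span. -/
theorem eig_span (T : Module.End K V) (r : ℕ) (hr0 : 0 < r) (hrK : (r : K) ≠ 0) (ζ : K)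
    (hζ : IsPrimitiveRoot ζ r) (hT : T ^ r = 1) (v : V) :
    v ∈ Submodule.span K {w : V | ∃ j : ℕ, T w = ζ ^ j • w} := by
  classical
  have hζr : ζ ^ r = 1 := hζ.pow_eq_one
  have hζ0 : ζ ≠ 0 := hζ.ne_zero hr0.ne'
  have hζi : (ζ⁻¹) ^ r = 1 := by rw [inv_pow, hζr, inv_one]
  obtain ⟨u, hu⟩ : ∃ u : ℕ → V,
      ∀ j, u j = ∑ i ∈ Finset.range r, ((ζ⁻¹) ^ (i * j)) • (T ^ i) v := ⟨_, fun j => rfl⟩
  have ha : ∀ j, T (u j) = ζ ^ j • u j := by
    intro j
    obtain ⟨f, hf⟩ : ∃ f : ℕ → V, ∀ i, f i = (ζ ^ j * (ζ⁻¹) ^ (i * j)) • (T ^ i) v :=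
      ⟨_, fun i => rfl⟩
    have h1 : T (u j) = ∑ i ∈ Finset.range r, f (i + 1) := by
      rw [hu, map_sum]
      apply Finset.sum_congr rfl
      intro i _
      rw [hf, map_smul, pow_succ', Module.End.mul_apply]
      congr 1
      rw [add_mul, one_mul, pow_add, ← mul_assoc, mul_comm (ζ ^ j), mul_assoc, ← mul_pow,
        mul_inv_cancel₀ hζ0, one_pow, mul_one]
    have h2 : ζ ^ j • u j = ∑ i ∈ Finset.range r, f i := by
      rw [hu, Finset.smul_sum]
      apply Finset.sum_congr rfl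
      intro i _
      rw [hf, smul_smul]
    have h3 : f r = f 0 := by
      rw [hf, hf, hT, zero_mul, pow_zero, pow_zero, pow_mul, hζi, one_pow]
    have h4 := Finset.sum_range_succ' f r
    rw [Finset.sum_range_succ, h3] at h4
    rw [h1, h2]
    exact (add_right_cancel h4).symm
  have hb : ∑ j ∈ Finset.range r, u j = (r : K) • v := by
    have h1 : ∑ j ∈ Finset.range r, u j =
        ∑ i ∈ Finset.range r, (∑ j ∈ Finset.range r, ((ζ⁻¹) ^ i) ^ j) • (T ^ i) v := by
      simp only [hu]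
      rw [Finset.sum_comm]
      apply Finset.sum_congr rfl
      intro i _
      rw [Finset.sum_smul]
      apply Finset.sum_congr rfl
      intro j _
      rw [pow_mul]
    rw [h1, Finset.sum_eq_single 0]
    · simp
    · intro i hi hi0
      have hω : (ζ⁻¹) ^ i ≠ 1 := by
        intro h
        rw [inv_pow, inv_eq_one] at h
        have h2 := hζ.dvd_of_pow_eq_one i h
        have h3 := Nat.le_of_dvd (Nat.pos_of_ne_zero hi0) h2
        exact absurd (Finset.mem_range.1 hi) (not_lt.2 h3)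
      have h2 := geom_sum_mul ((ζ⁻¹) ^ i) r
      have h5 : ((ζ⁻¹) ^ i) ^ r = 1 := by rw [← pow_mul, mul_comm, pow_mul, hζi, one_pow]
      rw [h5, sub_self] at h2
      rcases mul_eq_zero.1 h2 with h3 | h3
      · rw [h3, zero_smul]
      · exact absurd (sub_eq_zero.1 h3) hω
    · intro h
      exact absurd (Finset.mem_range.2 hr0) h
  have hv : v = (r : K)⁻¹ • ∑ j ∈ Finset.range r, u j := by
    rw [hb, smul_smul, inv_mul_cancel₀ hrK, one_smul]
  rw [hv]
  apply Submodule.smul_mem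
  apply Submodule.sum_mem
  intro j _
  exact Submodule.subset_span ⟨j, ha j⟩

end eig

variable {F : Type*} [Field F] [Fintype F]

theorem exists_diagonalization (n r : ℕ) (hr : r.Prime) (hrF : (r : F) ≠ 0)
    (hc : orderOf (Fintype.card F : ZMod r) = 1) (y : Matrix (Fin n) (Fin n) F)
    (hy : y ^ r = 1) :
    ∃ (Q : Matrix (Fin n) (Fin n) F) (d : Fin n → F), IsUnit Q.det ∧ (∀ i, d i ^ r = 1) ∧
      y * Q = Q * Matrix.diagonal d := by
  classical
  have : Fact r.Prime := ⟨hr⟩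
  have h1 : (Fintype.card F : ZMod r) = 1 := orderOf_eq_one_iff.1 hc
  have hdvd : r ∣ Fintype.card F - 1 := by
    have hpos : 1 ≤ Fintype.card F := Fintype.card_pos
    have h2 : ((Fintype.card F - 1 : ℕ) : ZMod r) = 0 := by
      rw [Nat.cast_sub hpos, h1]; simp
    exact (ZMod.natCast_eq_zero_iff _ _).1 h2
  obtain ⟨ζ, hζ⟩ : ∃ ζ : F, IsPrimitiveRoot ζ r := by
    have hcard : Nat.card Fˣ = Fintype.card F - 1 := by
      rw [Nat.card_eq_fintype_card, Fintype.card_units]
    obtain ⟨x, hx⟩ := exists_prime_orderOf_dvd_card' (G := Fˣ) r (by rw [hcard]; exact hdvd)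
    refine ⟨(x : F), ?_⟩
    rw [IsPrimitiveRoot.coe_units_iff, ← hx]
    exact IsPrimitiveRoot.orderOf x
  obtain ⟨T, hTdef⟩ : ∃ T : Module.End F (Fin n → F), T = Matrix.toLinAlgEquiv' y := ⟨_, rfl⟩
  have hT : T ^ r = 1 := by rw [hTdef, ← map_pow, hy, map_one]
  have hTapp : ∀ v : Fin n → F, T v = y.mulVec v := by
    intro v; rw [hTdef, Matrix.toLinAlgEquiv'_apply]
  have hspan : Submodule.span F {w : Fin n → F | ∃ j : ℕ, T w = ζ ^ j • w} = ⊤ :=
    eq_top_iff.2 (fun v _ => eig_span T r hr.pos hrF ζ hζ hT v)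
  obtain ⟨b, hbE, hbspan, hbli⟩ :=
    exists_linearIndependent F {w : Fin n → F | ∃ j : ℕ, T w = ζ ^ j • w}
  have : Fintype b := Fintype.ofFinite b
  have hcardb : Fintype.card b = n := by
    have h2 := Module.finrank_eq_card_basis
      (Module.Basis.mk hbli (by rw [Subtype.range_coe, hbspan, hspan]))
    rw [Module.finrank_fin_fun] at h2
    exact h2.symm
  obtain ⟨e⟩ : Nonempty (Fin n ≃ b) := ⟨(Fintype.equivFinOfCardEq hcardb).symm⟩
  have hev : ∀ i : Fin n, ∃ j : ℕ, T (e i : Fin n → F) = ζ ^ j • (e i : Fin n → F) :=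
    fun i => hbE (e i).2
  choose J hJ using hev
  refine ⟨Matrix.of (fun k i => (e i : Fin n → F) k), fun i => ζ ^ J i, ?_, ?_, ?_⟩
  · rw [← Matrix.isUnit_iff_isUnit_det, ← Matrix.linearIndependent_cols_iff_isUnit]
    have h2 : (Matrix.of (fun k i => (e i : Fin n → F) k)).col = fun i => (e i : Fin n → F) := by
      ext i k; rfl
    rw [h2]
    exact hbli.comp e e.injective
  · intro i
    rw [← pow_mul, mul_comm, pow_mul, hζ.pow_eq_one, one_pow]
  · ext k i
    rw [Matrix.mul_diagonal]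
    have h2 := congrFun (hJ i) k
    rw [hTapp] at h2
    simp only [Matrix.mulVec, dotProduct, Pi.smul_apply, smul_eq_mul] at h2
    simp only [Matrix.mul_apply, Matrix.of_apply]
    rw [h2, mul_comm]

end Cfsg.Agent.H61.Sub
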