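import Cfsg.Agent.H23.StbDefs

/-!
# S2125, piece PAR (helper61): an automorphism fixing `B` permutes the minimal parabolic subgroups
-/

set_option autoImplicit false

namespace Cfsg.Agent.H61.Stb

open Cfsg.Lie Cfsg.Agent.H23 Cfsg.Agent.H23.Stb

universe u

/-- Abstract (B, N)-pair version: an automorphism fixing `B` permutes the minimal parabolics. -/
theorem par_aux {G : Type*} [Group G] (P : Cfsg.BNPair G) (θ : G ≃* G)
    (hB : ∀ g : G, θ g ∈ P.B ↔ g ∈ P.B) (s : G) (hs : s ∈ P.S) :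
    ∃ s' ∈ P.S, (P.parabolic {s}).map θ.toMonoidHom = P.parabolic {s'} := by
  have hsS : ({s} : Set G) ⊆ P.S := Set.singleton_subset_iff.mpr hs
  have hBpar : ∀ J : Set G, P.B ≤ P.parabolic J := fun J => le_sup_left
  have hmempar : ∀ t : G, t ∈ P.parabolic {t} := fun t =>
    (le_sup_right : Subgroup.closure {t} ≤ P.parabolic {t}) (Subgroup.subset_closure rfl)
  have hpar_empty : P.parabolic ∅ = P.B := by
    unfold Cfsg.BNPair.parabolic; rw [Subgroup.closure_empty, sup_bot_eq]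
  obtain ⟨M, hM⟩ : ∃ M : Subgroup G, M = (P.parabolic {s}).map θ.toMonoidHom := ⟨_, rfl⟩
  have hmemM : ∀ x : G, x ∈ M ↔ ∃ y ∈ P.parabolic {s}, θ y = x := by
    intro x; rw [hM, Subgroup.mem_map]; rfl
  have hBM : P.B ≤ M := by
    intro b hb
    rw [hmemM]
    refine ⟨θ.symm b, hBpar _ ((hB _).mp ?_), by simp⟩
    simpa using hb
  have hMeq := Cfsg.H8BN.eq_parabolic_of_le P M hBM
  have hKne : (P.S ∩ (M : Set G)).Nonempty := by
    by_contra hcon
    rw [Set.not_nonempty_iff_eq_empty] at hcon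
    rw [hcon, hpar_empty] at hMeq
    have h1 : θ s ∈ M := (hmemM _).mpr ⟨s, hmempar s, rfl⟩
    rw [hMeq] at h1
    exact Cfsg.H8BN.S_not_mem_B P hs ((hB s).mp h1)
  obtain ⟨s', hs'S, hs'M⟩ := hKne
  refine ⟨s', hs'S, ?_⟩
  have hle : P.parabolic {s'} ≤ M := by
    apply sup_le hBM
    rw [Subgroup.closure_le]
    intro x hx
    rw [Set.mem_singleton_iff] at hx; subst hx; exact hs'M
  obtain ⟨M', hM'⟩ : ∃ M' : Subgroup G, M' = (P.parabolic {s'}).comap θ.toMonoidHom := ⟨_, rfl⟩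
  have hmemM' : ∀ x : G, x ∈ M' ↔ θ x ∈ P.parabolic {s'} := by
    intro x; rw [hM', Subgroup.mem_comap]; rfl
  have hBM' : P.B ≤ M' := by
    intro b hb
    rw [hmemM']
    exact hBpar _ ((hB b).mpr hb)
  have hM'le : M' ≤ P.parabolic {s} := by
    intro g hg
    rw [hmemM'] at hg
    obtain ⟨g', hg', hgg⟩ := (hmemM _).mp (hle hg)
    have h1 : g' = g := θ.injective hgg
    rw [← h1]; exact hg'
  have hM'eq := Cfsg.H8BN.eq_parabolic_of_le P M' hBM'
  have hK'sub : P.S ∩ (M' : Set G) ⊆ {s} := by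
    rw [← Cfsg.H8BN.parabolic_le_iff P Set.inter_subset_left hsS, ← hM'eq]
    exact hM'le
  have hK'ne : (P.S ∩ (M' : Set G)).Nonempty := by
    by_contra hcon
    rw [Set.not_nonempty_iff_eq_empty] at hcon
    rw [hcon, hpar_empty] at hM'eq
    have h1 : θ.symm s' ∈ M' := by
      rw [hmemM']; simpa using hmempar s'
    rw [hM'eq] at h1
    have h2 := (hB (θ.symm s')).mpr h1
    rw [MulEquiv.apply_symm_apply] at h2
    exact Cfsg.H8BN.S_not_mem_B P hs'S h2
  have hK' : P.S ∩ (M' : Set G) = {s} := by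
    apply Set.Subset.antisymm hK'sub
    obtain ⟨t, ht⟩ := hK'ne
    have h1 := hK'sub ht
    rw [Set.mem_singleton_iff] at h1; subst h1
    exact Set.singleton_subset_iff.mpr ht
  rw [hK'] at hM'eq
  rw [← hM'eq, hM']
  exact Subgroup.map_comap_eq_self_of_surjective θ.surjective _

theorem par : StPar.{u} := by
  intro D F _ z η hP θ hpres i hi
  have hB : ∀ g : ↥(D.group F), θ g ∈ (bnPair hP).B ↔ g ∈ (bnPair hP).B := by
    intro g
    rw [bnPair_B, Subgroup.mem_subgroupOf, Subgroup.mem_subgroupOf]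
    exact hpres g
  obtain ⟨s', hs', heq⟩ := par_aux (bnPair hP) θ hB (nG hP.sem i) (nG_mem_S hP i hi)
  obtain ⟨j, hj, rfl⟩ := eq_nG_of_mem_S hP s' hs'
  exact ⟨j, hj, heq⟩

example : StPar.{u} := par

end Cfsg.Agent.H61.Stb

#print axioms Cfsg.Agent.H61.Stb.par
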