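import Mathlib
import Cfsg.Agent.H93.ConwayDefs

/-!
helper61: piece C-CLASS of S0406 (helper93's project): some class modulo `2L` contains at
least 48 vectors of norm 8 (pigeonhole).
-/

set_option autoImplicit false
set_option linter.unusedSectionVars false
set_option linter.unusedVariables false
set_option linter.unusedSimpArgs false

namespace Cfsg.Agent.H61.Conway

open Matrix Cfsg.Agent.H93.Conway

/-- reduction modulo 2 -/
def pi2 (x : Fin 24 → ℤ) : Fin 24 → ZMod 2 := fun i => ((x i : ℤ) : ZMod 2)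

theorem exists_of_pi2_eq {x y : Fin 24 → ℤ} (h : pi2 x = pi2 y) :
    ∃ u : Fin 24 → ℤ, x - y = (2 : ℤ) • u := by
  have hd : ∀ i, (2 : ℤ) ∣ x i - y i := by
    intro i
    have h1 : ((x i : ℤ) : ZMod 2) = ((y i : ℤ) : ZMod 2) := congrFun h i
    have h0 : ((x i - y i : ℤ) : ZMod 2) = 0 := by
      push_cast
      rw [h1, sub_self]
    have := (ZMod.intCast_zmod_eq_zero_iff_dvd _ 2).mp h0
    exact_mod_cast this
  choose u hu using hd
  refine ⟨u, funext fun i => ?_⟩
  rw [Pi.sub_apply, hu i]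
  simp

/-- Piece C-CLASS of S0406. -/
theorem cls : StmtClass := by
  intro hOrth B hB h4 h6 h8
  classical
  obtain ⟨N, hN⟩ : ∃ N : (Fin 24 → ℤ) → ℤ, N = fun x => x ⬝ᵥ (B *ᵥ x) := ⟨_, rfl⟩
  have hNdef : ∀ x, N x = x ⬝ᵥ (B *ᵥ x) := fun x => by rw [hN]
  have hNneg : ∀ y, N (-y) = N y := by
    intro y
    rw [hNdef, hNdef]
    simp [Matrix.mulVec_neg]
  have hN0 : N 0 = 0 := by
    rw [hNdef]
    simp
  have f4 : {x : Fin 24 → ℤ | x ⬝ᵥ (B *ᵥ x) = 4}.Finite :=
    Set.finite_of_ncard_ne_zero (by rw [h4]; norm_num)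
  have f6 : {x : Fin 24 → ℤ | x ⬝ᵥ (B *ᵥ x) = 6}.Finite :=
    Set.finite_of_ncard_ne_zero (by rw [h6]; norm_num)
  have f8 : {x : Fin 24 → ℤ | x ⬝ᵥ (B *ᵥ x) = 8}.Finite :=
    Set.finite_of_ncard_ne_zero (by rw [h8]; norm_num)
  have c4 : f4.toFinset.card = 196560 := by
    rw [← Set.ncard_eq_toFinset_card _ f4]; exact h4
  have c6 : f6.toFinset.card = 16773120 := by
    rw [← Set.ncard_eq_toFinset_card _ f6]; exact h6
  have c8 : f8.toFinset.card = 398034000 := by
    rw [← Set.ncard_eq_toFinset_card _ f8]; exact h8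
  have m4 : ∀ x, x ∈ f4.toFinset ↔ N x = 4 := by
    intro x; rw [Set.Finite.mem_toFinset, hNdef]; rfl
  have m6 : ∀ x, x ∈ f6.toFinset ↔ N x = 6 := by
    intro x; rw [Set.Finite.mem_toFinset, hNdef]; rfl
  have m8 : ∀ x, x ∈ f8.toFinset ↔ N x = 8 := by
    intro x; rw [Set.Finite.mem_toFinset, hNdef]; rfl
  obtain ⟨T, hT⟩ : ∃ T : Finset (Fin 24 → ℤ), T = insert 0 (f4.toFinset ∪ f6.toFinset) :=
    ⟨_, rfl⟩
  have memT : ∀ x, x ∈ T ↔ x = 0 ∨ N x = 4 ∨ N x = 6 := by
    intro x
    rw [hT, Finset.mem_insert, Finset.mem_union, m4, m6]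
  have hle8 : ∀ x ∈ T, N x ≤ 8 := by
    intro x hx
    rcases (memT x).mp hx with h | h | h
    · rw [h, hN0]; norm_num
    · rw [h]; norm_num
    · rw [h]; norm_num
  have hne8 : ∀ x ∈ T, N x ≠ 8 := by
    intro x hx
    rcases (memT x).mp hx with h | h | h
    · rw [h, hN0]; norm_num
    · rw [h]; norm_num
    · rw [h]; norm_num
  have cT : T.card = 16969681 := by
    have h0 : (0 : Fin 24 → ℤ) ∉ f4.toFinset ∪ f6.toFinset := by
      rw [Finset.mem_union, m4, m6, hN0]
      norm_num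
    have hd : Disjoint f4.toFinset f6.toFinset := by
      rw [Finset.disjoint_left]
      intro x hx hx'
      rw [m4] at hx
      rw [m6] at hx'
      omega
    rw [hT, Finset.card_insert_of_notMem h0, Finset.card_union_of_disjoint hd, c4, c6]
  have key : ∀ x ∈ T, ∀ y ∈ T, pi2 x = pi2 y → y = x ∨ y = -x := by
    intro x hx y hy h
    by_contra hne
    push Not at hne
    obtain ⟨u, hu⟩ := exists_of_pi2_eq h
    have hx8 := hle8 x hx
    have hy8 := hle8 y hy
    rw [hNdef] at hx8 hy8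
    have h3 := hOrth B hB x y u hx8 hy8 hu (fun e => hne.1 e.symm)
      (fun e => hne.2 (by rw [e, neg_neg]))
    apply hne8 x hx
    rw [hNdef]
    exact h3.1
  have cImgT : 8484841 ≤ (T.image pi2).card := by
    have h := Finset.card_le_mul_card_image (f := pi2) T 2 (by
      intro a ha
      obtain ⟨x₀, hx₀, rfl⟩ := Finset.mem_image.mp ha
      have hsub : T.filter (fun x => pi2 x = pi2 x₀) ⊆ {x₀, -x₀} := by
        intro y hy
        rw [Finset.mem_filter] at hy
        rcases key x₀ hx₀ y hy.1 hy.2.symm with h | h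
        · rw [h]; simp
        · rw [h]; simp
      exact (Finset.card_le_card hsub).trans Finset.card_le_two)
    rw [cT] at h
    omega
  have hdisj : Disjoint (f8.toFinset.image pi2) (T.image pi2) := by
    rw [Finset.disjoint_left]
    intro a ha ha'
    obtain ⟨x, hx, rfl⟩ := Finset.mem_image.mp ha
    obtain ⟨y, hy, hxy⟩ := Finset.mem_image.mp ha'
    rw [m8] at hx
    obtain ⟨u, hu⟩ := exists_of_pi2_eq hxy.symm
    have hy8 := hle8 y hy
    have hne : x ≠ y := by
      rintro rfl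
      exact hne8 x hy hx
    have hne' : x ≠ -y := by
      rintro rfl
      rw [hNneg] at hx
      exact hne8 y hy hx
    have hx8 : N x ≤ 8 := le_of_eq hx
    rw [hNdef] at hx8 hy8
    have h3 := hOrth B hB x y u hx8 hy8 hu hne hne'
    apply hne8 y hy
    rw [hNdef]
    exact h3.2.1
  have cImg8 : (f8.toFinset.image pi2).card ≤ 8292375 := by
    have h1 : (f8.toFinset.image pi2 ∪ T.image pi2).card ≤ Fintype.card (Fin 24 → ZMod 2) :=
      Finset.card_le_univ _
    rw [Finset.card_union_of_disjoint hdisj] at h1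
    have h2 : Fintype.card (Fin 24 → ZMod 2) = 16777216 := by
      simp
    omega
  have hex : ∃ a ∈ f8.toFinset.image pi2,
      48 ≤ (f8.toFinset.filter (fun x => pi2 x = a)).card := by
    by_contra hcon
    push Not at hcon
    have h := Finset.card_le_mul_card_image (f := pi2) f8.toFinset 47
      (fun a ha => by have := hcon a ha; omega)
    rw [c8] at h
    omega
  obtain ⟨a, ha, hcard⟩ := hex
  refine ⟨f8.toFinset.filter (fun x => pi2 x = a), hcard, ?_, ?_⟩
  · intro x hx
    rw [Finset.mem_filter, m8, hNdef] at hx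
    exact hx.1
  · intro x hx y hy
    rw [Finset.mem_filter] at hx hy
    exact exists_of_pi2_eq (hx.2.trans hy.2.symm)

end Cfsg.Agent.H61.Conway
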