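import Mathlib
import Cfsg.Agent.H93.ConwayDefs

/-!
helper61: piece C-T2 of S0406 (helper93's project): the lattice contains at most `128 * 759`
vectors of shape `((±2)^8, 0^16)`.
-/

set_option autoImplicit false
set_option linter.unusedSectionVars false
set_option linter.unusedVariables false
set_option linter.unusedSimpArgs false

namespace Cfsg.Agent.H61.Conway

open Matrix Cfsg.Agent.H93.Conway

/-- the support of an integer vector -/
def supp (x : Fin 24 → ℤ) : Finset (Fin 24) := Finset.univ.filter fun i => x i ≠ 0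

/-- halving modulo 2 -/
def cw (x : Fin 24 → ℤ) : Fin 24 → ZMod 2 := fun i => ((x i / 2 : ℤ) : ZMod 2)

/-- the sign bits at the first seven positions of the support -/
def bits (x : Fin 24 → ℤ) : Fin 7 → Bool := fun j =>
  if h : (supp x).card = 8 then decide (x ((supp x).orderEmbOfFin h j.castSucc) = -2) else false

theorem bits_eq (x : Fin 24 → ℤ) (T : Finset (Fin 24)) (hT : supp x = T) (h : T.card = 8)
    (j : Fin 7) : bits x j = decide (x (T.orderEmbOfFin h j.castSucc) = -2) := by
  subst hT
  simp [bits, h]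

theorem cw_ne_zero {x : Fin 24 → ℤ} (hx : IsT2 x) (i : Fin 24) : cw x i ≠ 0 ↔ x i ≠ 0 := by
  show (((x i / 2 : ℤ)) : ZMod 2) ≠ 0 ↔ x i ≠ 0
  rcases hx.1 i with h | h | h <;> rw [h] <;> decide

theorem hammingNorm_cw {x : Fin 24 → ℤ} (hx : IsT2 x) : hammingNorm (cw x) = 8 := by
  have e : (Finset.univ.filter fun i => cw x i ≠ 0) = Finset.univ.filter fun i => x i ≠ 0 :=
    Finset.filter_congr (fun i _ => cw_ne_zero hx i)
  show (Finset.univ.filter fun i => cw x i ≠ 0).card = 8
  rw [e]
  exact hx.2

theorem mem_supp (x : Fin 24 → ℤ) (i : Fin 24) : i ∈ supp x ↔ x i ≠ 0 := by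
  simp [supp]

theorem val_of_mem_supp {x : Fin 24 → ℤ} (hx : IsT2 x) {i : Fin 24} (hi : i ∈ supp x) :
    x i = 2 ∨ x i = -2 := by
  rw [mem_supp] at hi
  rcases hx.1 i with h | h | h
  · exact absurd h hi
  · exact Or.inl h
  · exact Or.inr h

/-- Piece C-T2 of S0406. -/
theorem t2 : StmtT2 := by
  intro hL4 hCode hOct Λ hΛ
  obtain ⟨C, hC, hde, hn4⟩ := hCode hL4 Λ hΛ
  have hO := hOct C hde hn4
  have hinj : {x : Fin 24 → ℤ | x ∈ Λ ∧ IsT2 x}.ncard ≤
      ({w : Fin 24 → ZMod 2 | w ∈ C ∧ hammingNorm w = 8} ×ˢ
        (Set.univ : Set (Fin 7 → Bool))).ncard := by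
    apply Set.ncard_le_ncard_of_injOn (fun x => (cw x, bits x))
    · rintro x ⟨hxΛ, hxT⟩
      refine ⟨⟨?_, hammingNorm_cw hxT⟩, Set.mem_univ _⟩
      have h1 : cw x ∈ codeOf Λ := by
        refine ⟨x, hxΛ, fun i => ?_, fun i => rfl⟩
        rcases hxT.1 i with h | h | h <;> rw [h] <;> decide
      rw [← hC] at h1
      exact h1
    · rintro x ⟨hxΛ, hxT⟩ x' ⟨hx'Λ, hx'T⟩ hf
      have h1 : cw x = cw x' := congrArg Prod.fst hf
      have h2 : bits x = bits x' := congrArg Prod.snd hf
      have hsupp : supp x' = supp x := by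
        ext i
        rw [mem_supp, mem_supp, ← cw_ne_zero hx'T, ← cw_ne_zero hxT, h1]
      have h8 : (supp x).card = 8 := hxT.2
      have agree7 : ∀ j : Fin 7, x ((supp x).orderEmbOfFin h8 j.castSucc)
          = x' ((supp x).orderEmbOfFin h8 j.castSucc) := by
        intro j
        have b1 := bits_eq x (supp x) rfl h8 j
        have b2 := bits_eq x' (supp x) hsupp h8 j
        have hb : decide (x ((supp x).orderEmbOfFin h8 j.castSucc) = -2)
            = decide (x' ((supp x).orderEmbOfFin h8 j.castSucc) = -2) := by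
          rw [← b1, ← b2, h2]
        have hm : (supp x).orderEmbOfFin h8 j.castSucc ∈ supp x :=
          Finset.orderEmbOfFin_mem _ _ _
        have hm' : (supp x).orderEmbOfFin h8 j.castSucc ∈ supp x' := by rw [hsupp]; exact hm
        have hiff : x ((supp x).orderEmbOfFin h8 j.castSucc) = -2 ↔
            x' ((supp x).orderEmbOfFin h8 j.castSucc) = -2 := by
          simpa using hb
        rcases val_of_mem_supp hxT hm with v | v <;> rcases val_of_mem_supp hx'T hm' with v' | v'
        · rw [v, v']
        · exfalso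
          have := hiff.mpr v'
          rw [v] at this
          exact absurd this (by decide)
        · exfalso
          have := hiff.mp v
          rw [v'] at this
          exact absurd this (by decide)
        · rw [v, v']
      obtain ⟨i₀, hi₀⟩ : ∃ i₀, i₀ = (supp x).orderEmbOfFin h8 (Fin.last 7) := ⟨_, rfl⟩
      have hi₀m : i₀ ∈ supp x := by rw [hi₀]; exact Finset.orderEmbOfFin_mem _ _ _
      have hi₀m' : i₀ ∈ supp x' := by rw [hsupp]; exact hi₀m
      have hdiff : ∀ i, i ≠ i₀ → x i = x' i := by
        intro i hi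
        by_cases hm : i ∈ supp x
        · have hr : i ∈ Set.range ((supp x).orderEmbOfFin h8) := by
            rw [Finset.range_orderEmbOfFin]
            exact hm
          obtain ⟨k, rfl⟩ := hr
          rcases Fin.eq_castSucc_or_eq_last k with ⟨j, rfl⟩ | rfl
          · exact agree7 j
          · exact absurd hi₀.symm hi
        · have hm' : i ∉ supp x' := by rw [hsupp]; exact hm
          rw [mem_supp, not_not] at hm hm'
          rw [hm, hm']
      have hyΛ : x - x' ∈ Λ := Λ.sub_mem hxΛ hx'Λ
      have h4 : ∀ i, (4 : ℤ) ∣ (x - x') i := by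
        intro i
        rw [Pi.sub_apply]
        by_cases hi : i = i₀
        · subst hi
          rcases val_of_mem_supp hxT hi₀m with v | v <;>
            rcases val_of_mem_supp hx'T hi₀m' with v' | v' <;> rw [v, v'] <;> decide
        · rw [hdiff i hi, sub_self]
          exact dvd_zero _
      have hsum : ∑ i, (x - x') i = x i₀ - x' i₀ := by
        rw [Finset.sum_eq_single i₀]
        · rfl
        · intro i _ hi
          rw [Pi.sub_apply, hdiff i hi, sub_self]
        · intro h
          exact absurd (Finset.mem_univ _) h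
      have h8d : (8 : ℤ) ∣ x i₀ - x' i₀ := by
        rw [← hsum]
        exact (hL4 Λ hΛ (x - x') h4).mpr hyΛ
      have hi₀eq : x i₀ = x' i₀ := by
        rcases val_of_mem_supp hxT hi₀m with v | v <;>
          rcases val_of_mem_supp hx'T hi₀m' with v' | v' <;> rw [v, v'] at h8d ⊢ <;> omega
      funext i
      by_cases hi : i = i₀
      · rw [hi]; exact hi₀eq
      · exact hdiff i hi
  have huniv : (Set.univ : Set (Fin 7 → Bool)).ncard = 128 := by
    rw [Set.ncard_univ, Nat.card_eq_fintype_card]
    simp
  rw [Set.ncard_prod, huniv] at hinj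
  omega

end Cfsg.Agent.H61.Conway
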