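import Mathlib
import Cfsg.Agent.H75.ESDefs

/-!
# S6002-FIX (helper61, for helper75)

An element `y` of odd prime order `r` of the normaliser of an extraspecial matrix group `R` of
order 32 with twelve elements of square one, not centralising `R`, has `(r, |C_R(y)|) = (3, 8)`
or `(5, 2)`.
-/

set_option autoImplicit false

namespace Cfsg.Agent.H61.ES

open Cfsg.Agent.H75.ES Matrix

universe u

section Conj

variable {G : Type u} [Group G]

/-- Conjugation by `y` on a conjugation-invariant subtype, as an endofunction. -/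
def conjEnd (P : G → Prop) (y : G) (h1 : ∀ x, P x → P (y * x * y⁻¹)) :
    Function.End {x // P x} :=
  fun x => ⟨y * x.1 * y⁻¹, h1 _ x.2⟩

theorem conjEnd_pow_val (P : G → Prop) (y : G) (h1 : ∀ x, P x → P (y * x * y⁻¹)) (n : ℕ)
    (x : {x // P x}) : ((conjEnd P y h1 ^ n) x).1 = y ^ n * x.1 * (y ^ n)⁻¹ := by
  induction n generalizing x with
  | zero =>
    rw [pow_zero, pow_zero]
    change x.1 = 1 * x.1 * 1⁻¹
    simp
  | succ n ih =>
    rw [pow_succ]
    change ((conjEnd P y h1 ^ n) (conjEnd P y h1 x)).1 = _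
    rw [ih]
    simp [conjEnd, pow_succ, mul_assoc]

/-- Fixed-point congruence for conjugation by an element of prime order. -/
theorem card_fixed_modEq (P : G → Prop) [Finite {x // P x}] (y : G)
    (h1 : ∀ x, P x → P (y * x * y⁻¹)) (r : ℕ) (hr : r.Prime) (hy : y ^ r = 1) :
    Nat.card {x // P x} ≡ Nat.card {x : G // P x ∧ y * x = x * y} [MOD r] := by
  classical
  have := Fintype.ofFinite {x // P x}
  have : Fact r.Prime := ⟨hr⟩
  have hpow : conjEnd P y h1 ^ r ^ 1 = 1 := by
    funext x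
    apply Subtype.ext
    rw [pow_one, conjEnd_pow_val, hy]
    change 1 * x.1 * 1⁻¹ = x.1
    simp
  have h := Equiv.Perm.card_fixedPoints_modEq (p := r) (n := 1) hpow
  have h' : Nat.card {x // P x} ≡ Nat.card ↥(Function.fixedPoints (conjEnd P y h1)) [MOD r] := by
    rw [Nat.card_eq_fintype_card, Nat.card_eq_fintype_card]
    convert h
  have hcard : Nat.card ↥(Function.fixedPoints (conjEnd P y h1)) =
      Nat.card {x : G // P x ∧ y * x = x * y} := by
    apply Nat.card_congr
    refine (Equiv.subtypeEquivRight (fun x => ?_)).trans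
      (Equiv.subtypeSubtypeEquivSubtypeInter P (fun x => y * x = x * y))
    change conjEnd P y h1 x = x ↔ y * x.1 = x.1 * y
    rw [Subtype.ext_iff]
    change y * x.1 * y⁻¹ = x.1 ↔ _
    rw [mul_inv_eq_iff_eq_mul]
  rw [← hcard]
  exact h'

end Conj

/-- The arithmetic. -/
theorem fix_arith (r c f : ℕ) (hr : r.Prime) (hr2 : r ≠ 2) (hc : c ∣ 32) (hc32 : c ≠ 32)
    (h1 : 32 ≡ c [MOD r]) (hf1 : 1 ≤ f) (hfc : f ≤ c) (h2 : 12 ≡ f [MOD r]) :
    (r = 3 ∧ c = 8) ∨ (r = 5 ∧ c = 2) := by
  have hcle : c ≤ 32 := Nat.le_of_dvd (by norm_num) hc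
  have hclt : c < 32 := lt_of_le_of_ne hcle hc32
  have hd : r ∣ 32 - c := (Nat.modEq_iff_dvd' hcle).mp h1.symm
  have hrle : r ≤ 32 := (Nat.le_of_dvd (by omega) hd).trans (by omega)
  have h1' : 32 % r = c % r := h1
  have h2' : 12 % r = f % r := h2
  interval_cases c <;> first | (exfalso; revert hc; decide) | skip
  all_goals
    interval_cases r <;> first | (exfalso; revert hr; decide) | (exfalso; omega) | omega

theorem fix : StFix.{u} := by
  intro F _ R _h2 hES h12 y hy r hr hr2 hyr hnc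
  classical
  have : Finite R := Nat.finite_of_card_ne_zero (by rw [hES.card]; norm_num)
  have hy' : ∀ h, h ∈ R ↔ y * h * y⁻¹ ∈ R := fun h =>
    Subgroup.mem_set_normalizer_iff.mp hy h
  -- the two invariant predicates
  have hP1 : ∀ x : G4 F, x ∈ R → y * x * y⁻¹ ∈ R := fun x hx => (hy' x).mp hx
  have hP2 : ∀ x : G4 F, (x ∈ R ∧ x * x = 1) → (y * x * y⁻¹ ∈ R ∧ (y * x * y⁻¹) * (y * x * y⁻¹) = 1) := by
    rintro x ⟨hx, hxx⟩
    refine ⟨(hy' x).mp hx, ?_⟩
    have : (y * x * y⁻¹) * (y * x * y⁻¹) = y * (x * x) * y⁻¹ := by group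
    rw [this, hxx]; group
  have : Finite {x : G4 F // x ∈ R} := ‹Finite R›
  have : Finite {x : G4 F // x ∈ R ∧ x * x = 1} :=
    Finite.of_injective (fun x : {x : G4 F // x ∈ R ∧ x * x = 1} => (⟨x.1, x.2.1⟩ : R))
      (fun a b hab => by
        simp only [Subtype.mk.injEq] at hab
        exact Subtype.ext hab)
  have e1 := card_fixed_modEq (fun x : G4 F => x ∈ R) y hP1 r hr hyr
  have e2 := card_fixed_modEq (fun x : G4 F => x ∈ R ∧ x * x = 1) y hP2 r hr hyr
  have hR32 : Nat.card {x : G4 F // x ∈ R} = 32 := hES.card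
  rw [hR32] at e1
  have h12' : Nat.card {x : G4 F // x ∈ R ∧ x * x = 1} = 12 := h12
  rw [h12'] at e2
  -- the centraliser as a subgroup
  set C : Subgroup (G4 F) := Subgroup.centralizer ({y} : Set (G4 F)) ⊓ R with hC
  have hmemC : ∀ h : G4 F, h ∈ C ↔ (h ∈ R ∧ y * h = h * y) := by
    intro h
    rw [hC, Subgroup.mem_inf, Subgroup.mem_centralizer_iff]
    constructor
    · rintro ⟨h1, h2⟩
      exact ⟨h2, h1 y rfl⟩
    · rintro ⟨h1, h2⟩
      refine ⟨?_, h1⟩
      rintro g (rfl : g = y)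
      exact h2
  have hcardC : Nat.card (CentR R y) = Nat.card C :=
    Nat.card_congr (Equiv.subtypeEquivRight (fun h => (hmemC h).symm))
  have hCle : C ≤ R := inf_le_right
  have hdvd : Nat.card C ∣ 32 := by
    rw [← hES.card]; exact Subgroup.card_dvd_of_le hCle
  have hne32 : Nat.card C ≠ 32 := by
    intro h32
    apply hnc
    intro h hh
    have hCR : C = R := by
      apply Subgroup.eq_of_le_of_card_ge hCle
      rw [h32, hES.card]
    have : h ∈ C := hCR ▸ hh
    exact ((hmemC h).mp this).2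
  -- fixed points among elements of square one
  set f := Nat.card {x : G4 F // (x ∈ R ∧ x * x = 1) ∧ y * x = x * y} with hf
  have : Finite (CentR R y) :=
    Finite.of_injective (fun x : CentR R y => (⟨x.1, x.2.1⟩ : R))
      (fun a b hab => by
        simp only [Subtype.mk.injEq] at hab
        exact Subtype.ext hab)
  have hfc : f ≤ Nat.card (CentR R y) := by
    apply Nat.card_le_card_of_injective
      (fun x : {x : G4 F // (x ∈ R ∧ x * x = 1) ∧ y * x = x * y} => (⟨x.1, x.2.1.1, x.2.2⟩ : CentR R y))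
    intro a b hab
    simp only [Subtype.mk.injEq] at hab
    exact Subtype.ext hab
  have hf1 : 1 ≤ f := by
    have : Finite {x : G4 F // (x ∈ R ∧ x * x = 1) ∧ y * x = x * y} :=
      Finite.of_injective
        (fun x : {x : G4 F // (x ∈ R ∧ x * x = 1) ∧ y * x = x * y} => (⟨x.1, x.2.1.1, x.2.2⟩ : CentR R y))
        (fun a b hab => by
          simp only [Subtype.mk.injEq] at hab
          exact Subtype.ext hab)
    have : Nonempty {x : G4 F // (x ∈ R ∧ x * x = 1) ∧ y * x = x * y} :=
      ⟨⟨1, ⟨R.one_mem, by simp⟩, by simp⟩⟩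
    exact Nat.succ_le_of_lt Nat.card_pos
  have e1' : 32 ≡ Nat.card C [MOD r] := by
    rw [← hcardC]; exact e1
  rw [hcardC] at hfc ⊢
  exact fix_arith r (Nat.card C) f hr hr2 hdvd hne32 e1' hf1 hfc e2

example : Cfsg.Agent.H75.ES.StFix.{u} := Cfsg.Agent.H61.ES.fix

end Cfsg.Agent.H61.ES

#print axioms Cfsg.Agent.H61.ES.fix
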