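import Mathlib
import Cfsg.Agent.H75.ESDefs

/-!
# S6002-TR (helper61, for helper75)

The trace identity `2 tr(y) tr(y⁻¹) = |C_R(y)|` for `y` in the normaliser of an absolutely
irreducible extraspecial matrix group `R` of order 32, `y` inverting no element of `R` up to sign.
-/

set_option autoImplicit false

namespace Cfsg.Agent.H61.ES

open Cfsg.Agent.H75.ES Matrix

universe u

variable {F : Type u} [Field F]

/-- The averaged conjugate `Σ_{h ∈ R} h M h⁻¹` commutes with `R`. -/
theorem sumConj_comm (R : Subgroup (G4 F)) [Fintype R] (M : M4 F) (g : G4 F) (hg : g ∈ R) :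
    (g : M4 F) * (∑ h : R, ((h : G4 F) : M4 F) * M * (((h : G4 F)⁻¹ : G4 F) : M4 F)) =
      (∑ h : R, ((h : G4 F) : M4 F) * M * (((h : G4 F)⁻¹ : G4 F) : M4 F)) * (g : M4 F) := by
  rw [Finset.mul_sum, Finset.sum_mul]
  refine Fintype.sum_equiv (Equiv.mulLeft (⟨g, hg⟩ : R)) _ _ (fun h => ?_)
  have e1 : (((Equiv.mulLeft (⟨g, hg⟩ : R)) h : R) : G4 F) = g * (h : G4 F) := rfl
  rw [e1, _root_.mul_inv_rev, Units.val_mul, Units.val_mul]
  simp only [mul_assoc]
  rw [Units.inv_mul, mul_one]

/-- `Σ_{h ∈ R} h M h⁻¹ = 8 tr(M) • 1`. -/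
theorem sumConj_scalar (R : Subgroup (G4 F)) [Fintype R] (h2 : (2 : F) ≠ 0)
    (hcard : Fintype.card R = 32)
    (habs : Cfsg.Geo.ActsAbsolutelyIrreducibly (Cfsg.Geo.matrixSet R)) (M : M4 F) :
    (∑ h : R, ((h : G4 F) : M4 F) * M * (((h : G4 F)⁻¹ : G4 F) : M4 F)) =
      (8 * Matrix.trace M) • (1 : M4 F) := by
  obtain ⟨c, hc⟩ := habs.2 (∑ h : R, ((h : G4 F) : M4 F) * M * (((h : G4 F)⁻¹ : G4 F) : M4 F)) (by
    rintro s ⟨g, hg, rfl⟩
    exact (sumConj_comm R M g hg).symm)
  have htr : Matrix.trace (∑ h : R, ((h : G4 F) : M4 F) * M * (((h : G4 F)⁻¹ : G4 F) : M4 F))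
      = 32 * Matrix.trace M := by
    rw [Matrix.trace_sum]
    have : ∀ h : R, Matrix.trace (((h : G4 F) : M4 F) * M * (((h : G4 F)⁻¹ : G4 F) : M4 F))
        = Matrix.trace M := by
      intro h
      rw [Matrix.trace_mul_comm, ← mul_assoc, Units.inv_mul, one_mul]
    rw [Finset.sum_congr rfl (fun h _ => this h), Finset.sum_const, Finset.card_univ, hcard,
      nsmul_eq_mul]
    norm_num
  have htr2 : Matrix.trace (∑ h : R, ((h : G4 F) : M4 F) * M * (((h : G4 F)⁻¹ : G4 F) : M4 F))
      = 4 * c := by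
    rw [hc, Matrix.trace_smul, Matrix.trace_one]
    have : Fintype.card I4 = 4 := by decide
    rw [this, smul_eq_mul]
    push_cast
    ring
  have h4 : (4 : F) ≠ 0 := by
    have : (4 : F) = 2 * 2 := by norm_num
    rw [this]; exact mul_ne_zero h2 h2
  have hcv : c = 8 * Matrix.trace M := by
    apply mul_left_cancel₀ h4
    rw [← htr2, htr]; ring
  rw [hc, hcv]

theorem tr : StTR.{u} := by
  intro F _ R h2 hES habs y hy hninv
  classical
  have : Finite R := Nat.finite_of_card_ne_zero (by rw [hES.card]; norm_num)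
  have : Fintype R := Fintype.ofFinite R
  have hcard : Fintype.card R = 32 := by rw [← Nat.card_eq_fintype_card]; exact hES.card
  have h4 : (4 : F) ≠ 0 := by
    have : (4 : F) = 2 * 2 := by norm_num
    rw [this]; exact mul_ne_zero h2 h2
  have hy' : ∀ h, h ∈ R ↔ y * h * y⁻¹ ∈ R := fun h =>
    Subgroup.mem_set_normalizer_iff.mp hy h
  -- pointwise traces
  have hpt : ∀ h : R, Matrix.trace (((y * (h : G4 F) * y⁻¹ * (h : G4 F)⁻¹ : G4 F)) : M4 F) =
      if y * (h : G4 F) = (h : G4 F) * y then (4 : F) else 0 := by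
    intro h
    by_cases hc : y * (h : G4 F) = (h : G4 F) * y
    · rw [if_pos hc]
      have : y * (h : G4 F) * y⁻¹ * (h : G4 F)⁻¹ = 1 := by
        rw [hc]; group
      rw [this, Units.val_one, Matrix.trace_one]
      have : Fintype.card I4 = 4 := by decide
      rw [this]; norm_num
    · rw [if_neg hc]
      set k : G4 F := y * (h : G4 F) * y⁻¹ * (h : G4 F)⁻¹ with hk
      have hkR : k ∈ R := R.mul_mem ((hy' _).mp h.2) (R.inv_mem h.2)
      have hk1 : k ≠ 1 := by
        intro h1
        apply hc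
        have : y * (h : G4 F) * y⁻¹ = (h : G4 F) := by
          rw [hk] at h1
          exact mul_inv_eq_one.mp h1
        exact mul_inv_eq_iff_eq_mul.mp this
      have hkm1 : k ≠ -1 := by
        intro h1
        apply hninv (h : G4 F) h.2
        rw [hk] at h1
        have := mul_inv_eq_iff_eq_mul.mp h1
        rw [this, neg_one_mul]
      have hnc : ¬ ∀ g ∈ R, k * g = g * k := by
        intro hall
        rcases hES.center k hkR hall with h1 | h1
        · exact hk1 h1
        · exact hkm1 h1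
      push Not at hnc
      obtain ⟨g, hgR, hg⟩ := hnc
      have hanti : k * g = -(g * k) := by
        rcases hES.comm k hkR g hgR with h1 | h1
        · exact absurd h1 hg
        · exact h1
      have hkeq : k = -(g * k * g⁻¹) := by
        have : k = -(g * k) * g⁻¹ := eq_mul_inv_of_mul_eq hanti
        exact this.trans (neg_mul _ _)
      have hM : (k : M4 F) = -((g : M4 F) * (k : M4 F) * ((g⁻¹ : G4 F) : M4 F)) := by
        have := congrArg (fun u : G4 F => (u : M4 F)) hkeq
        simpa [Units.val_neg, Units.val_mul] using this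
      have htr : Matrix.trace (k : M4 F) = - Matrix.trace (k : M4 F) := by
        conv_lhs => rw [hM]
        rw [Matrix.trace_neg, Matrix.trace_mul_comm, ← mul_assoc, Units.inv_mul, one_mul]
      have h2t : (2 : F) * Matrix.trace (k : M4 F) = 0 := by
        have : Matrix.trace (k : M4 F) + Matrix.trace (k : M4 F) = 0 := by
          nth_rewrite 1 [htr]; ring
        rw [two_mul]; exact this
      exact (mul_eq_zero.mp h2t).resolve_left h2
  -- the sum of the traces
  have hsum : ∑ h : R, Matrix.trace (((y * (h : G4 F) * y⁻¹ * (h : G4 F)⁻¹ : G4 F)) : M4 F) =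
      8 * Matrix.trace ((y⁻¹ : G4 F) : M4 F) * Matrix.trace (y : M4 F) := by
    have hs := sumConj_scalar R h2 hcard habs ((y⁻¹ : G4 F) : M4 F)
    have : ∀ h : R, (((y * (h : G4 F) * y⁻¹ * (h : G4 F)⁻¹ : G4 F)) : M4 F) =
        (y : M4 F) * (((h : G4 F) : M4 F) * ((y⁻¹ : G4 F) : M4 F) * (((h : G4 F)⁻¹ : G4 F) : M4 F)) := by
      intro h
      simp only [Units.val_mul, mul_assoc]
    rw [Finset.sum_congr rfl (fun h _ => congrArg Matrix.trace (this h)), ← Matrix.trace_sum,
      ← Finset.mul_sum, hs, Matrix.mul_smul, Matrix.trace_smul, mul_one, smul_eq_mul]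
  -- count
  have hcount : ∑ h : R, (if y * (h : G4 F) = (h : G4 F) * y then (4 : F) else 0) =
      4 * (Nat.card (CentR R y) : F) := by
    rw [Finset.sum_ite, Finset.sum_const_zero, add_zero, Finset.sum_const, nsmul_eq_mul, mul_comm]
    congr 2
    rw [← Fintype.card_subtype, ← Nat.card_eq_fintype_card]
    exact Nat.card_congr
      (Equiv.subtypeSubtypeEquivSubtypeInter (fun h : G4 F => h ∈ R) (fun h => y * h = h * y))
  have hfin : (4 : F) * (2 * (Matrix.trace (y : M4 F) * Matrix.trace ((y⁻¹ : G4 F) : M4 F))) =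
      4 * (Nat.card (CentR R y) : F) := by
    rw [← hcount, ← Finset.sum_congr rfl (fun h _ => hpt h), hsum]
    ring
  exact mul_left_cancel₀ h4 hfin

example : Cfsg.Agent.H75.ES.StTR.{u} := Cfsg.Agent.H61.ES.tr

end Cfsg.Agent.H61.ES

#print axioms Cfsg.Agent.H61.ES.tr
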