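import Mathlib
import Cfsg.Agent.H66.GrossDefs
import Cfsg.Agent.H66.Fpf4
import Cfsg.Agent.H27.Rad
import Cfsg.Agent.H1.Fitting
import Cfsg.Agent.H1.HallHigman

/-!
# Gross's theorem, piece G2A (helper61)

If the conclusion of G1 holds for all pairs of primes, then `τ = σ ^ (2 ^ (n - 1))` centralises
`H / F(H)`.
-/

set_option autoImplicit false

namespace Cfsg.Agent.H61.Gross

open Cfsg Cfsg.Agent.H66.Gross
open scoped commutatorElement Pointwise

universe u

theorem pCore_normal'' (q : ℕ) (H : Type*) [Group H] : (pCore q H).Normal :=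
  Subgroup.sSup_normal _ (fun _ hK => hK.1)

theorem pCore_isPGroup'' (q : ℕ) (H : Type*) [Group H] : IsPGroup q (pCore q H) :=
  Sylow.sSup_of_normal _ (fun _ h => h.2) (fun _ h => h.1)

/-- A finite group with a fixed-point-free automorphism of `2`-power order has odd order. -/
theorem odd_card_of_fpf {H : Type*} [Group H] [Finite H] (σ : MulAut H) (n : ℕ)
    (hσ : σ ^ (2 ^ n) = 1) (hfix : ∀ h : H, σ h = h → h = 1) : Odd (Nat.card H) := by
  have hP : IsPGroup 2 (Subgroup.zpowers σ) := by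
    rintro ⟨g, k, rfl⟩
    refine ⟨n, ?_⟩
    apply Subtype.ext
    simp only [Subgroup.coe_pow, Subgroup.coe_one]
    rw [← zpow_natCast, ← zpow_mul, mul_comm, zpow_mul, zpow_natCast, hσ, one_zpow]
  have h1 := hP.card_modEq_card_fixedPoints H
  have h2 : MulAction.fixedPoints (Subgroup.zpowers σ) H = {1} := by
    ext h
    simp only [MulAction.mem_fixedPoints, Set.mem_singleton_iff]
    constructor
    · intro hh
      exact hfix h (hh ⟨σ, Subgroup.mem_zpowers σ⟩)
    · rintro rfl g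
      exact smul_one g
  rw [h2] at h1
  have h3 : Nat.card ({1} : Set H) = 1 := by simp
  rw [h3] at h1
  rw [Nat.odd_iff]
  exact h1

theorem mem_conj_sylow {p : ℕ} {G : Type*} [Group G] (g : G) (P : Sylow p G) (x : G) :
    x ∈ g • P ↔ g⁻¹ * x * g ∈ P := by
  show x ∈ MulAut.conj g • (P : Subgroup G) ↔ _
  rw [Subgroup.mem_pointwise_smul_iff_inv_smul_mem]
  simp only [MulAut.smul_def, ← map_inv, MulAut.conj_apply, inv_inv]
  exact Iff.rfl

/-- A fixed-point-free automorphism of a finite group normalises some Sylow `p`-subgroup. -/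
theorem exists_invariant_sylow {H : Type*} [Group H] [Finite H] (σ : MulAut H)
    (hfix : ∀ h : H, σ h = h → h = 1) (p : ℕ) [Fact p.Prime] :
    ∃ S : Sylow p H, ∀ x ∈ S, σ x ∈ S := by
  obtain ⟨P⟩ : Nonempty (Sylow p H) := inferInstance
  obtain ⟨k, hk⟩ := MulAction.exists_smul_eq H (σ • P) P
  have hk' : ∀ y ∈ P, k * σ y * k⁻¹ ∈ P := by
    intro y hy
    have h1 : σ y ∈ (σ • P : Sylow p H) :=
      Subgroup.smul_mem_pointwise_smul y σ (P : Subgroup H) hy
    have h2 : k * σ y * k⁻¹ ∈ (k • (σ • P) : Sylow p H) := by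
      rw [mem_conj_sylow]
      have e : k⁻¹ * (k * σ y * k⁻¹) * k = σ y := by group
      rw [e]; exact h1
    rw [hk] at h2; exact h2
  obtain ⟨g, -, hg⟩ := Cfsg.Agent.H66.exists_inv_mul_map σ ⊤ (fun x _ => Subgroup.mem_top _)
    (fun g _ => hfix g) k (Subgroup.mem_top _)
  refine ⟨g • P, ?_⟩
  intro x hx
  rw [mem_conj_sylow] at hx ⊢
  have h3 := hk' _ hx
  have e : k * σ (g⁻¹ * x * g) * k⁻¹ = g⁻¹ * σ x * g := by
    rw [hg]; simp only [map_mul, map_inv]; group
  rw [e] at h3; exact h3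

theorem g2a_holds (h1 : G2a1Statement.{u}) : G2aStatement.{u} := by
  intro H _ _ hsolv σ n hn hσ hfix KH h
  classical
  have hodd : Odd (Nat.card H) := odd_card_of_fpf σ n hσ hfix
  obtain ⟨τ, hτ⟩ : ∃ τ : MulAut H, τ = σ ^ (2 ^ (n - 1)) := ⟨_, rfl⟩
  have hττ : τ * τ = 1 := by
    rw [hτ, ← pow_add, ← two_mul, ← pow_succ', Nat.sub_add_cancel hn, hσ]
  have hττ' : ∀ x, τ (τ x) = x := fun x => by
    have := congrArg (fun f : MulAut H => f x) hττ
    simpa using this
  obtain ⟨N, hN⟩ : ∃ N : Subgroup H, N = fittingSubgroup H := ⟨_, rfl⟩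
  have hNc : N.Characteristic := by
    rw [hN, H27.fitting_eq_rad]; exact H27.rad_characteristic H27.isoInv_nilpotent H
  have hNn : N.Normal := Subgroup.normal_of_characteristic N
  have hmap : ∀ φ : MulAut H, N.map (φ : H →* H) = N :=
    fun φ => Subgroup.characteristic_iff_map_eq.1 hNc φ
  obtain ⟨tb, htb⟩ : ∃ tb : MulAut (H ⧸ N),
      ∀ x, tb (QuotientGroup.mk' N x) = QuotientGroup.mk' N (τ x) :=
    ⟨QuotientGroup.congr N N τ (hmap τ), fun x => rfl⟩
  have hodd' : Odd (Nat.card (H ⧸ N)) := hodd.of_dvd_nat (Subgroup.card_quotient_dvd_card N)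
  have hτS : ∀ (S : Subgroup H), (∀ x ∈ S, σ x ∈ S) → ∀ x ∈ S, τ x ∈ S := by
    intro S hS
    have : ∀ k : ℕ, ∀ x ∈ S, (σ ^ k) x ∈ S := by
      intro k
      induction k with
      | zero => intro x hx; simpa using hx
      | succ k ih => intro x hx; rw [pow_succ', MulAut.mul_apply]; exact hS _ (ih x hx)
    rw [hτ]; exact this _
  have hsurj : Function.Surjective (QuotientGroup.mk' N) := QuotientGroup.mk'_surjective N
  -- step 2: `τ` centralises `O_p(H / N)`
  have step2 : ∀ (p : ℕ) [Fact p.Prime], ∀ g ∈ pCore p (H ⧸ N), tb g = g := by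
    intro p _ g hg
    obtain ⟨S, hS⟩ := exists_invariant_sylow σ hfix p
    have hle : pCore p (H ⧸ N) ≤ (S.mapSurjective hsurj : Sylow p (H ⧸ N)) := by
      have := pCore_normal'' p (H ⧸ N)
      exact (pCore_isPGroup'' p (H ⧸ N)).le_sylow_of_normal _
    obtain ⟨x0, hx0, rfl⟩ : ∃ x0 ∈ (S : Subgroup H), QuotientGroup.mk' N x0 = g := hle hg
    have hpc : (pCore p (H ⧸ N)).Characteristic := by
      rw [H27.pCore_eq_rad]; exact H27.rad_characteristic (H27.isoInv_pGroup p) (H ⧸ N)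
    have htbg : tb (QuotientGroup.mk' N x0) ∈ pCore p (H ⧸ N) :=
      (Subgroup.characteristic_iff_le_comap.1 hpc tb) hg
    have hu : x0⁻¹ * τ x0 ∈ N := by
      apply h1 H N hN p (x0⁻¹ * τ x0)
      · intro q _ hqp y hy
        refine KH q p hqp (S : Subgroup H) S.isPGroup' hS (x0⁻¹ * τ x0)
          (Subgroup.mul_mem _ (Subgroup.inv_mem _ hx0) (hτS _ hS x0 hx0)) ?_ y hy
        rw [← hτ, map_mul, map_inv, hττ']; group
      · rw [map_mul, map_inv, ← htb]
        exact Subgroup.mul_mem _ (Subgroup.inv_mem _ hg) htbg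
    rw [htb]
    have h3 := (QuotientGroup.eq_one_iff (N := N) _).mpr hu
    have h4 : (QuotientGroup.mk' N x0)⁻¹ * QuotientGroup.mk' N (τ x0) = 1 := by
      rw [← map_inv, ← map_mul]; exact h3
    rw [inv_mul_eq_one] at h4
    exact h4.symm
  -- step 3: `τ` centralises `F(H / N)`
  have step3 : ∀ g ∈ fittingSubgroup (H ⧸ N), tb g = g := by
    have hle : fittingSubgroup (H ⧸ N) ≤
        MonoidHom.eqLocus (tb : (H ⧸ N) →* (H ⧸ N)) (MonoidHom.id _) := by
      rw [H1.fitting_eq_iSup_pCore]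
      apply iSup_le
      intro p
      have : Fact (p : ℕ).Prime := ⟨p.2⟩
      intro g hg
      exact step2 p g hg
    intro g hg
    exact hle hg
  -- step 4
  obtain ⟨u, hu⟩ : ∃ u : H ⧸ N, u = QuotientGroup.mk' N (h⁻¹ * τ h) := ⟨_, rfl⟩
  have hτu : tb u = u⁻¹ := by
    rw [hu, htb, ← map_inv]
    congr 1
    rw [map_mul, map_inv, hττ']; group
  have hFn : (fittingSubgroup (H ⧸ N)).Normal := H1.fitting_normal
  have hu2 : u * u ∈ fittingSubgroup (H ⧸ N) := by
    apply H1.centralizer_fitting_le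
    rw [Subgroup.mem_centralizer_iff]
    intro f hf
    have h3 : tb (u * f * u⁻¹) = u * f * u⁻¹ := step3 _ (hFn.conj_mem f hf u)
    rw [map_mul, map_mul, map_inv, hτu, step3 f hf, inv_inv] at h3
    calc f * (u * u) = u * (u⁻¹ * f * u) * u := by group
      _ = u * (u * f * u⁻¹) * u := by rw [h3]
      _ = u * u * f := by group
  have huF : u ∈ fittingSubgroup (H ⧸ N) := by
    have hodd'' : Odd (Nat.card ((H ⧸ N) ⧸ fittingSubgroup (H ⧸ N))) :=
      hodd'.of_dvd_nat (Subgroup.card_quotient_dvd_card _)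
    have h4 := Cfsg.Agent.H66.eq_one_of_mul_self_of_odd hodd''
      (QuotientGroup.mk' (fittingSubgroup (H ⧸ N)) u)
      (by rw [← map_mul]; exact (QuotientGroup.eq_one_iff _).mpr hu2)
    exact (QuotientGroup.eq_one_iff _).mp h4
  have hu1 : u = 1 := by
    apply Cfsg.Agent.H66.eq_one_of_mul_self_of_odd hodd' u
    have h5 := step3 u huF
    rw [hτu] at h5
    calc u * u = u⁻¹ * u := by rw [h5]
      _ = 1 := inv_mul_cancel u
  rw [← hτ, ← hN]
  rw [hu] at hu1
  exact (QuotientGroup.eq_one_iff _).mp hu1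

end Cfsg.Agent.H61.Gross
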