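import Mathlib
import Cfsg.Agent.H66.GrossDefs
import Cfsg.Agent.H27.Rad

/-!
# Gross's theorem, piece G2A1 (helper61)

If `x` centralises `O_q(H)` for all primes `q ≠ p` and the image of `x` in `H / F(H)` lies in
`O_p(H / F(H))`, then `x ∈ F(H)`.
-/

set_option autoImplicit false

namespace Cfsg.Agent.H61.Gross

open Cfsg Cfsg.Agent.H66.Gross
open scoped commutatorElement

universe u

theorem pCore_normal' (q : ℕ) (H : Type*) [Group H] : (pCore q H).Normal :=
  Subgroup.sSup_normal _ (fun _ hK => hK.1)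

theorem pCore_isPGroup' (q : ℕ) (H : Type*) [Group H] : IsPGroup q (pCore q H) :=
  Sylow.sSup_of_normal _ (fun _ h => h.2) (fun _ h => h.1)

theorem g2a1_holds : G2a1Statement.{u} := by
  intro H _ _ N hNn hN p hp x hx hxN
  classical
  obtain ⟨E, hE⟩ : ∃ E : Subgroup H,
      E = sSup {K : Subgroup H | ∃ q : ℕ, q.Prime ∧ q ≠ p ∧ K = pCore q H} := ⟨_, rfl⟩
  have hEn : E.Normal := by
    rw [hE]
    apply Subgroup.sSup_normal
    rintro K ⟨q, hq, hqp, rfl⟩
    exact pCore_normal' q H
  have hPn : (pCore p H).Normal := pCore_normal' p H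
  have hqE : ∀ q : ℕ, q.Prime → q ≠ p → pCore q H ≤ E := by
    intro q hq hqp
    rw [hE]
    exact le_sSup ⟨q, hq, hqp, rfl⟩
  -- `N ≤ O_p(H) ⊔ E`
  have hNle : N ≤ pCore p H ⊔ E := by
    rw [hN, H27.fitting_eq_pCoreJoin]
    apply iSup_le
    rintro ⟨q, hq⟩
    have hqp : q.Prime := Nat.prime_of_mem_primeFactors hq
    by_cases h : q = p
    · subst h; exact le_sup_left
    · exact (hqE q hqp h).trans le_sup_right
  -- the centraliser of `E`
  have hLn : (Subgroup.centralizer (E : Set H)).Normal := Subgroup.normal_centralizer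
  have hxL : x ∈ Subgroup.centralizer (E : Set H) := by
    have h1 : E ≤ Subgroup.centralizer ({x} : Set H) := by
      rw [hE]
      apply sSup_le
      rintro K ⟨q, hq, hqp, rfl⟩ y hy
      rw [Subgroup.mem_centralizer_iff]
      intro z hz
      rw [Set.mem_singleton_iff] at hz
      subst hz
      have : Fact q.Prime := ⟨hq⟩
      exact hx q hqp y hy
    rw [Subgroup.mem_centralizer_iff]
    intro y hy
    have h2 := h1 hy
    rw [Subgroup.mem_centralizer_iff] at h2
    exact (h2 x rfl).symm
  -- `M`, the preimage of `O_p(H/N)`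
  have hMn : ((pCore p (H ⧸ N)).comap (QuotientGroup.mk' N)).Normal :=
    (pCore_normal' p (H ⧸ N)).comap _
  obtain ⟨N1, hN1⟩ : ∃ N1 : Subgroup H,
      N1 = (pCore p (H ⧸ N)).comap (QuotientGroup.mk' N) ⊓ Subgroup.centralizer (E : Set H) :=
    ⟨_, rfl⟩
  have hN1n : N1.Normal := by rw [hN1]; infer_instance
  have hxN1 : x ∈ N1 := by
    rw [hN1]; exact ⟨hxN, hxL⟩
  have hN1L : N1 ≤ Subgroup.centralizer (E : Set H) := by rw [hN1]; exact inf_le_right
  have hN1M : N1 ≤ (pCore p (H ⧸ N)).comap (QuotientGroup.mk' N) := by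
    rw [hN1]; exact inf_le_left
  -- `N1` is nilpotent
  have hnil : Group.IsNilpotent N1 := by
    let f : ↥N1 →* H ⧸ E := (QuotientGroup.mk' E).comp N1.subtype
    have hker : f.rangeRestrict.ker ≤ Subgroup.center ↥N1 := by
      intro g hg
      rw [MonoidHom.ker_rangeRestrict, MonoidHom.mem_ker] at hg
      have hgE : (g : H) ∈ E := by
        have : QuotientGroup.mk' E (g : H) = 1 := hg
        exact (QuotientGroup.eq_one_iff _).mp this
      rw [Subgroup.mem_center_iff]
      intro h
      have hh : (h : H) ∈ Subgroup.centralizer (E : Set H) := hN1L h.2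
      rw [Subgroup.mem_centralizer_iff] at hh
      apply Subtype.ext
      simp only [Subgroup.coe_mul]
      exact (hh _ hgE).symm
    have hp' : IsPGroup p f.range := by
      rintro ⟨_, g, rfl⟩
      have hgM : QuotientGroup.mk' N (g : H) ∈ pCore p (H ⧸ N) := hN1M g.2
      obtain ⟨a, ha⟩ := pCore_isPGroup' p (H ⧸ N) ⟨_, hgM⟩
      have ha' : (g : H) ^ p ^ a ∈ N := by
        have h1 := congrArg Subtype.val ha
        simp only [Subgroup.coe_pow, Subgroup.coe_one] at h1
        rw [← map_pow] at h1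
        exact (QuotientGroup.eq_one_iff _).mp h1
      have h2 : (g : H) ^ p ^ a ∈ ((pCore p H ⊔ E : Subgroup H) : Set H) := hNle ha'
      rw [Subgroup.mul_normal] at h2
      obtain ⟨u, hu, e, he, hue⟩ := h2
      obtain ⟨b, hb⟩ := pCore_isPGroup' p H ⟨u, hu⟩
      have hb' : u ^ p ^ b = 1 := by
        have h1 := congrArg Subtype.val hb
        simpa using h1
      refine ⟨a + b, ?_⟩
      apply Subtype.ext
      simp only [Subgroup.coe_pow, Subgroup.coe_one]
      show (QuotientGroup.mk' E (g : H)) ^ p ^ (a + b) = 1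
      rw [← map_pow, pow_add, pow_mul, ← hue, map_pow, map_mul]
      have h3 : QuotientGroup.mk' E e = 1 := (QuotientGroup.eq_one_iff _).mpr he
      rw [h3, mul_one, ← map_pow, hb', map_one]
    have : Group.IsNilpotent f.range := hp'.isNilpotent
    exact Subgroup.isNilpotent_of_ker_le_center f.rangeRestrict hker
  rw [hN]
  have hle : N1 ≤ fittingSubgroup H := le_sSup ⟨hN1n, hnil⟩
  exact hle hxN1

end Cfsg.Agent.H61.Gross
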