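import Cfsg.Agent.H52.JwDefs
import Cfsg.Agent.S2950

/-!
# JW pieces W-PL and W-PS (helper61, for helper52's S2953 project)

Both are read off S2950 (`L` is the unique maximal 2-local over `K ⊔ J(T)` and `T` is a Sylow
2-subgroup of it).  Closure: the S2950 side only.
-/

set_option autoImplicit false
open Cfsg

namespace Cfsg.Agent.H61.Jw

open Cfsg.Agent.H64.Jz Cfsg.Agent.H52.Jw

universe u

/-- `J(T) ≤ T`. -/
theorem jw_thompson_le {G : Type u} [Group G] (T : Subgroup G) :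
    thompsonSubgroupOf 2 T ≤ T := by
  unfold thompsonSubgroupOf
  exact Subgroup.map_subtype_le _

/-- Under `Base`: `K ⊔ J(T) ≤ K ⊔ T ≤ L`, `T` is a Sylow 2-subgroup of `L`, and `L` is the only
maximal 2-local over `K ⊔ J(T)`. -/
theorem jw_base_facts {G : Type u} [Group G] [Finite G] (S : Sylow 2 G) (M T K L : Subgroup G)
    (hB : Base S M T K L) :
    K ⊔ T ≤ L ∧ IsSylowTwoIn T L ∧
      ∀ L' : Subgroup G, IsMaximalTwoLocal L' → K ⊔ thompsonSubgroupOf 2 T ≤ L' → L' = L := by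
  obtain ⟨hZN, hO, hM, hMJ, hT, hTS, hK, hLmax, hKJL⟩ := hB
  obtain ⟨hchar, hsolv, hZ⟩ := hZN
  obtain ⟨L₀, -, -, huniq, -, hsyl⟩ :=
    Cfsg.Agent.S2950.result hchar hsolv hZ hO S M hM hMJ T hT K hK
  have hLL₀ : L = L₀ := huniq L hLmax hKJL
  subst hLL₀
  refine ⟨sup_le (le_sup_left.trans hKJL) hsyl.1, hsyl, huniq⟩

/-- **W-PL**. -/
theorem pl : StPL.{u} := by
  intro G _ _ S M T K L hB
  obtain ⟨h1, h2, h3⟩ := jw_base_facts S M T K L hB
  refine ⟨h1, h2, fun L' hL' hPL' => h3 L' hL' ?_⟩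
  exact (sup_le_sup_left (jw_thompson_le T) K).trans hPL'

/-- **W-PS**. -/
theorem ps : StPS.{u} := by
  intro G _ _ S M T K L hB
  obtain ⟨h1, h2, -⟩ := jw_base_facts S M T K L hB
  refine ⟨le_sup_right, h2.2.1, ?_⟩
  have hmul : T.relIndex (K ⊔ T) * (K ⊔ T).relIndex L = T.relIndex L :=
    Subgroup.relIndex_mul_relIndex T (K ⊔ T) L le_sup_right h1
  have hodd : Odd (T.relIndex L) := h2.2.2
  rw [← hmul] at hodd
  exact (Nat.odd_mul.mp hodd).1

example : StPL.{u} := pl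
example : StPS.{u} := ps

end Cfsg.Agent.H61.Jw

#print axioms Cfsg.Agent.H61.Jw.pl
#print axioms Cfsg.Agent.H61.Jw.ps
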