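import Cfsg.Agent.H52.JwDefs
import Cfsg.Agent.H61.JwPL
import Cfsg.Agent.H14.Thompson

/-!
# JW piece W-LT (helper61, for helper52's S2953 project)

For `T ≠ S` the normalizer of `T` in the 2-group `S` is larger than `T`; an element `x` of it outside
`T` lies in `S ≤ N_G(J(S)) ≤ M`, normalizes `T`, and is not in `L`, because `S ∩ L` is a 2-subgroup
of `L` over the Sylow 2-subgroup `T` of `L` (S2950).  Closure: the S2950 side only.
-/

set_option autoImplicit false
open Cfsg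

namespace Cfsg.Agent.H61.Jw

open Cfsg.Agent.H64.Jz Cfsg.Agent.H52.Jw

universe u

/-- `S ≤ N_G(J(S))`. -/
theorem jw_le_normalizer_thompson {G : Type u} [Group G] (S : Subgroup G) :
    S ≤ Subgroup.normalizer (thompsonSubgroupOf 2 S : Set G) := by
  intro g hg
  have hS : S.map (MulAut.conj g).toMonoidHom = S := by
    ext x
    constructor
    · rintro ⟨y, hy, rfl⟩
      simpa using S.mul_mem (S.mul_mem hg hy) (S.inv_mem hg)
    · intro hx
      exact ⟨g⁻¹ * x * g, S.mul_mem (S.mul_mem (S.inv_mem hg) hx) hg, by simp [mul_assoc]⟩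
  have hJ := Cfsg.Agent.H14.thompsonSubgroupOf_conj 2 g S
  rw [hS] at hJ
  rw [Subgroup.mem_normalizer_iff]
  intro x
  constructor
  · intro hx
    have h1 : (MulAut.conj g).toMonoidHom x ∈
        (thompsonSubgroupOf 2 S).map (MulAut.conj g).toMonoidHom :=
      Subgroup.mem_map_of_mem _ hx
    rw [hJ] at h1
    simpa using h1
  · intro hx
    rw [← hJ] at hx
    obtain ⟨y, hy, hyx⟩ := hx
    have hyx' : g * y * g⁻¹ = g * x * g⁻¹ := by simpa using hyx
    have : y = x := by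
      have h2 := congrArg (fun z => g⁻¹ * z * g) hyx'
      simpa [mul_assoc] using h2
    exact this ▸ hy

/-- A 2-subgroup of `L` over a Sylow 2-subgroup `T` of `L` is `T`. -/
theorem jw_sylowTwoIn_max {G : Type u} [Group G] [Finite G] {T L Q : Subgroup G}
    (h : IsSylowTwoIn T L) (hQ : IsPGroup 2 ↥Q) (hTQ : T ≤ Q) (hQL : Q ≤ L) : Q ≤ T := by
  haveI : Fact (Nat.Prime 2) := ⟨Nat.prime_two⟩
  have hmul : T.relIndex Q * Q.relIndex L = T.relIndex L :=
    Subgroup.relIndex_mul_relIndex T Q L hTQ hQL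
  have hodd : Odd (T.relIndex Q) := by
    have h3 := h.2.2
    rw [← hmul] at h3
    exact (Nat.odd_mul.mp h3).1
  obtain ⟨n, hn⟩ := IsPGroup.iff_card.mp hQ
  have hdvd : T.relIndex Q ∣ 2 ^ n := hn ▸ Subgroup.relIndex_dvd_card T Q
  obtain ⟨k, -, hk⟩ := (Nat.dvd_prime_pow Nat.prime_two).mp hdvd
  have hk0 : k = 0 := by
    by_contra hk0
    rw [hk] at hodd
    exact (Nat.not_even_iff_odd.mpr hodd) ((Nat.even_pow.mpr ⟨even_two, hk0⟩))
  rw [hk0, pow_zero] at hk
  exact Subgroup.relIndex_eq_one.mp hk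

/-- **W-LT**. -/
theorem ltX : StLtX.{u} := by
  intro G _ _ S M T K L hB hTS'
  obtain ⟨-, hsyl, -⟩ := jw_base_facts S M T K L hB
  obtain ⟨hZN, hO, hM, hMJ, hT, hTS, hK, hLmax, hKJL⟩ := hB
  haveI : Fact (Nat.Prime 2) := ⟨Nat.prime_two⟩
  haveI : Group.IsNilpotent ↥(S : Subgroup G) := IsPGroup.isNilpotent S.isPGroup'
  have hlt : T.subgroupOf (S : Subgroup G) < ⊤ := by
    rw [lt_top_iff_ne_top]
    intro h
    exact hTS' (le_antisymm hTS (Subgroup.subgroupOf_eq_top.mp h))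
  have hnc := normalizerCondition_of_isNilpotent (G := ↥(S : Subgroup G)) _ hlt
  obtain ⟨y, hyN, hyT⟩ := SetLike.exists_of_lt hnc
  refine ⟨(y : G), hMJ (jw_le_normalizer_thompson _ y.2), ?_, ?_⟩
  · rw [Subgroup.mem_normalizer_iff] at hyN ⊢
    intro g
    constructor
    · intro hg
      have h1 := (hyN ⟨g, hTS hg⟩).mp (Subgroup.mem_subgroupOf.mpr hg)
      exact Subgroup.mem_subgroupOf.mp h1
    · intro hg
      have hgS : g ∈ (S : Subgroup G) := by
        have h2 := hTS hg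
        have h3 : g = (y : G)⁻¹ * ((y : G) * g * (y : G)⁻¹) * (y : G) := by group
        rw [h3]
        exact Subgroup.mul_mem _ (Subgroup.mul_mem _ (Subgroup.inv_mem _ y.2) h2) y.2
      have h1 := (hyN ⟨g, hgS⟩).mpr (Subgroup.mem_subgroupOf.mpr hg)
      exact Subgroup.mem_subgroupOf.mp h1
  · intro hyL
    apply hyT
    rw [Subgroup.mem_subgroupOf]
    have hQ : (S : Subgroup G) ⊓ L ≤ T :=
      jw_sylowTwoIn_max hsyl (S.isPGroup'.to_le inf_le_left) (le_inf hTS hsyl.1) inf_le_right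
    exact hQ ⟨y.2, hyL⟩

example : StLtX.{u} := ltX

end Cfsg.Agent.H61.Jw

#print axioms Cfsg.Agent.H61.Jw.ltX
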