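import Cfsg.Agent.H52.JwDefs
import Cfsg.Agent.H61.JwPL
import Cfsg.Agent.Helper55.UqBase

/-!
# JW piece W-TWO (helper61, for helper52's S2953 project)

Two configurations `Base S M₁ T K₁ L₁`, `Base S M₂ T K₂ L₂` with `L₁ ≠ L₂`: then `K₁ ≠ K₂` (S2950
uniqueness for the second one), and `O₂(⟨K₁T, K₂T⟩) = 1`: otherwise its normalizer is a 2-local over
both `K₁ ⊔ J(T)` and `K₂ ⊔ J(T)`, inside a maximal 2-local, which is `L₁` and `L₂` by S2950.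
Closure: the S2950 side only.
-/

set_option autoImplicit false
open Cfsg

namespace Cfsg.Agent.H61.Jw

open Cfsg.Agent.H64.Jz Cfsg.Agent.H52.Jw

universe u

/-- **W-TWO**. -/
theorem two : StTwo.{u} := by
  intro G _ _ S M₁ M₂ T K₁ K₂ L₁ L₂ hB₁ hB₂ hne
  obtain ⟨-, -, h1c⟩ := jw_base_facts S M₁ T K₁ L₁ hB₁
  obtain ⟨-, -, h2c⟩ := jw_base_facts S M₂ T K₂ L₂ hB₂
  obtain ⟨-, -, -, -, -, -, -, hL1max, hKJ1⟩ := hB₁
  constructor
  · intro hK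
    apply hne
    exact h2c L₁ hL1max (hK ▸ hKJ1)
  · by_contra hO2
    have hloc : IsTwoLocal (Subgroup.normalizer
        (pCoreOf 2 ((K₁ ⊔ T) ⊔ (K₂ ⊔ T)) : Set G)) :=
      ⟨pCoreOf 2 ((K₁ ⊔ T) ⊔ (K₂ ⊔ T)), Cfsg.Agent.Helper55.Uq.pCoreOf_isPGroup _, hO2, rfl⟩
    obtain ⟨L', hL'max, hL'⟩ := Cfsg.Agent.Helper55.Uq.exists_maximalTwoLocal hloc
    have hHL' : (K₁ ⊔ T) ⊔ (K₂ ⊔ T) ≤ L' :=
      (Cfsg.Agent.Helper55.Uq.le_normalizer_pCoreOf' _).trans hL'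
    have e1 : L' = L₁ := h1c L' hL'max
      ((sup_le_sup_left (jw_thompson_le T) K₁).trans (le_sup_left.trans hHL'))
    have e2 : L' = L₂ := h2c L' hL'max
      ((sup_le_sup_left (jw_thompson_le T) K₂).trans (le_sup_right.trans hHL'))
    exact hne (e1.symm.trans e2)

example : StTwo.{u} := two

end Cfsg.Agent.H61.Jw

#print axioms Cfsg.Agent.H61.Jw.two
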