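import Cfsg.Agent.H64.JzDefs
import Cfsg.Agent.S2950
import Cfsg.Agent.H12.SpConjG
import Cfsg.Agent.H31.X.CharP2

/-!
# JZ-OUT1 (helper61, for helper64's S2951 / S2952 project)

`T = S` and `N_G(J(S)) ⊄ L`: for `g ∈ N_G(J(S)) ∖ L` the conjugate `K^g` is a `J(S)`-component not inside `L`
(otherwise `L^(g⁻¹)` is a maximal 2-local over `K ⊔ J(S)`, so equals `L` by S2950, and `g ∈ N_G(L) = L`).
-/

set_option autoImplicit false
open Cfsg

namespace Cfsg.Agent.H61.Jz

open Cfsg.Agent.H64.Jz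

universe u

/-- A conjugate of a 2-local subgroup is a 2-local subgroup. -/
theorem isTwoLocal_conj {G : Type u} [Group G] (N : Subgroup G) (x : G) (h : IsTwoLocal N) :
    IsTwoLocal (N.map (MulAut.conj x).toMonoidHom) := by
  obtain ⟨T, hT, hT1, rfl⟩ := h
  refine ⟨T.map (MulAut.conj x).toMonoidHom, hT.map _, ?_, ?_⟩
  · intro h0
    apply hT1
    exact (Subgroup.map_eq_bot_iff_of_injective T (MulAut.conj x).injective).mp h0
  · exact Subgroup.map_equiv_normalizer_eq T (MulAut.conj x)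

theorem map_conj_inv_conj {G : Type u} [Group G] (K : Subgroup G) (t : G) :
    (K.map (MulAut.conj t⁻¹).toMonoidHom).map (MulAut.conj t).toMonoidHom = K := by
  have h := Cfsg.Agent.H12.Sp.map_conj_conj_inv K t⁻¹
  rwa [inv_inv] at h

/-- A conjugate of a maximal 2-local subgroup is a maximal 2-local subgroup. -/
theorem isMaximalTwoLocal_conj {G : Type u} [Group G] (L : Subgroup G) (x : G)
    (h : IsMaximalTwoLocal L) : IsMaximalTwoLocal (L.map (MulAut.conj x).toMonoidHom) := by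
  refine ⟨isTwoLocal_conj L x h.1, ?_⟩
  intro N hN hLN
  have h1 : L ≤ N.map (MulAut.conj x⁻¹).toMonoidHom := by
    have h0 := Subgroup.map_mono (f := (MulAut.conj x⁻¹).toMonoidHom) hLN
    rwa [Cfsg.Agent.H12.Sp.map_conj_conj_inv] at h0
  have h2 := h.2 _ (isTwoLocal_conj N x⁻¹ hN) h1
  rw [← h2, map_conj_inv_conj]

/-- A maximal 2-local subgroup is self-normalizing. -/
theorem normalizer_le_of_maximal {G : Type u} [Group G] [Finite G] (L : Subgroup G)
    (h : IsMaximalTwoLocal L) : Subgroup.normalizer (L : Set G) ≤ L := by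
  obtain ⟨⟨U, hU, hU1, hLU⟩, hmax⟩ := h
  have : Fact (Nat.Prime 2) := ⟨Nat.prime_two⟩
  have hUL : U ≤ L := by
    rw [hLU]
    exact Subgroup.le_normalizer
  have hUQ : U ≤ pCoreOf 2 L :=
    Cfsg.Agent.H31.X.H54.le_pCoreOf hUL (by rw [hLU]) hU
  have hQ1 : pCoreOf 2 L ≠ ⊥ := by
    intro h0
    apply hU1
    rw [eq_bot_iff, ← h0]
    exact hUQ
  have hloc : IsTwoLocal (Subgroup.normalizer ((pCoreOf 2 L : Subgroup G) : Set G)) :=
    ⟨pCoreOf 2 L, Cfsg.Agent.H31.X.H54.isPGroup_pCoreOf L, hQ1, rfl⟩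
  have h3 := hmax _ hloc (Cfsg.Agent.H31.X.H54.le_normalizer_pCoreOf L)
  calc Subgroup.normalizer (L : Set G)
      ≤ Subgroup.normalizer ((pCoreOf 2 L : Subgroup G) : Set G) :=
        Cfsg.Agent.H31.X.H54.normalizer_le_normalizer_pCoreOf L
    _ = L := h3

/-- **JZ-OUT1**. -/
theorem out1 : StOut1.{u} := by
  intro G _ _ S M T K L hB hTS hnot
  obtain ⟨hZN, hO, hM, hMJ, hT, hTS', hK, hLmax, hKJL⟩ := hB
  obtain ⟨hchar, hsolv, hZ⟩ := hZN
  obtain ⟨g, hgN, hgL⟩ := SetLike.not_le_iff_exists.mp hnot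
  obtain ⟨L₀, hL₀max, hL₀, huniq, -, -⟩ :=
    Cfsg.Agent.S2950.result hchar hsolv hZ hO S M hM hMJ T hT K hK
  have hLL₀ : L = L₀ := huniq L hLmax hKJL
  subst hTS
  have hKJ : IsJComponent (S : Subgroup G) K := hK.1.1
  have hJg : (thompsonSubgroupOf 2 (S : Subgroup G)).map (MulAut.conj g).toMonoidHom =
      thompsonSubgroupOf 2 (S : Subgroup G) :=
    Subgroup.mem_normalizer_iff_map_conj_eq.mp hgN
  have hJ' : thompsonSubgroupOf 2 ((S : Subgroup G).map (MulAut.conj g).toMonoidHom) =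
      thompsonSubgroupOf 2 (S : Subgroup G) := by
    rw [← Cfsg.Agent.H14.thompsonSubgroupOf_conj 2 g, hJg]
  have hK'1 := Cfsg.Agent.H12.Sp.isJComponent_conj (S : Subgroup G) K g hKJ
  have hK' : IsJComponent (S : Subgroup G) (K.map (MulAut.conj g).toMonoidHom) :=
    ((Cfsg.Agent.H58.Uq.k0_congr (S : Subgroup G) _ hJ').2 _).mp hK'1
  refine ⟨_, hK', ?_⟩
  intro hK'L
  apply hgL
  have hJg' : (thompsonSubgroupOf 2 (S : Subgroup G)).map (MulAut.conj g⁻¹).toMonoidHom =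
      thompsonSubgroupOf 2 (S : Subgroup G) := by
    conv_lhs => rw [← hJg]
    exact Cfsg.Agent.H12.Sp.map_conj_conj_inv _ g
  have h1 : K ⊔ thompsonSubgroupOf 2 (S : Subgroup G) ≤
      L.map (MulAut.conj g⁻¹).toMonoidHom := by
    apply sup_le
    · have h0 := Subgroup.map_mono (f := (MulAut.conj g⁻¹).toMonoidHom) hK'L
      rwa [Cfsg.Agent.H12.Sp.map_conj_conj_inv] at h0
    · have h2 : thompsonSubgroupOf 2 (S : Subgroup G) ≤ L := le_sup_right.trans hKJL
      have h0 := Subgroup.map_mono (f := (MulAut.conj g⁻¹).toMonoidHom) h2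
      rwa [hJg'] at h0
  have h3 : L.map (MulAut.conj g⁻¹).toMonoidHom = L₀ :=
    huniq _ (isMaximalTwoLocal_conj L g⁻¹ hLmax) h1
  have h4 : L.map (MulAut.conj g⁻¹).toMonoidHom = L := by rw [h3, hLL₀]
  have h5 : g⁻¹ ∈ Subgroup.normalizer (L : Set G) :=
    Subgroup.mem_normalizer_iff_map_conj_eq.mpr h4
  have h6 := normalizer_le_of_maximal L hLmax h5
  simpa using L.inv_mem h6

example : StOut1.{u} := out1

end Cfsg.Agent.H61.Jz

#print axioms Cfsg.Agent.H61.Jz.out1
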