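/-
helper61: the monomial linear maps of `(ZMod q)²`:
`IsD a b f` : `f (x, y) = (a x, b y)`,  `IsW a b f` : `f (x, y) = (b y, a x)`,
with their product, inverse and power rules (used for S3382).
-/
import Mathlib

set_option autoImplicit false

namespace Cfsg.Agent.H61.Mono

variable {q : ℕ} [Fact q.Prime]

/-- The linear automorphisms of `(ZMod q)²`. -/
abbrev L (q : ℕ) := (Fin 2 → ZMod q) ≃ₗ[ZMod q] (Fin 2 → ZMod q)

/-- `f (x, y) = (a x, b y)`. -/
def IsD (a b : ZMod q) (f : L q) : Prop := ∀ v, f v = ![a * v 0, b * v 1]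

/-- `f (x, y) = (b y, a x)`. -/
def IsW (a b : ZMod q) (f : L q) : Prop := ∀ v, f v = ![b * v 1, a * v 0]

theorem isD_one : IsD (1 : ZMod q) 1 (1 : L q) := by
  intro v
  ext i
  fin_cases i <;> simp

theorem IsD.mul {a b c d : ZMod q} {f g : L q} (hf : IsD a b f) (hg : IsD c d g) :
    IsD (a * c) (b * d) (f * g) := by
  intro v
  rw [LinearEquiv.mul_apply, hf, hg]
  ext i
  fin_cases i <;> simp [mul_assoc]

theorem IsD.mulW {a b c d : ZMod q} {f g : L q} (hf : IsD a b f) (hg : IsW c d g) :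
    IsW (b * c) (a * d) (f * g) := by
  intro v
  rw [LinearEquiv.mul_apply, hf, hg]
  ext i
  fin_cases i <;> simp [mul_assoc]

theorem IsW.mulD {a b c d : ZMod q} {f g : L q} (hf : IsW a b f) (hg : IsD c d g) :
    IsW (a * c) (b * d) (f * g) := by
  intro v
  rw [LinearEquiv.mul_apply, hf, hg]
  ext i
  fin_cases i <;> simp [mul_assoc]

theorem IsW.mul {a b c d : ZMod q} {f g : L q} (hf : IsW a b f) (hg : IsW c d g) :
    IsD (b * c) (a * d) (f * g) := by
  intro v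
  rw [LinearEquiv.mul_apply, hf, hg]
  ext i
  fin_cases i <;> simp [mul_assoc]

theorem IsD.ext {a b : ZMod q} {f g : L q} (hf : IsD a b f) (hg : IsD a b g) : f = g :=
  LinearEquiv.ext fun v => by rw [hf v, hg v]

theorem IsW.ext {a b : ZMod q} {f g : L q} (hf : IsW a b f) (hg : IsW a b g) : f = g :=
  LinearEquiv.ext fun v => by rw [hf v, hg v]

theorem IsD.congr {a b c d : ZMod q} {f : L q} (hf : IsD a b f) (h1 : a = c) (h2 : b = d) :
    IsD c d f := by subst h1; subst h2; exact hf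

theorem IsW.congr {a b c d : ZMod q} {f : L q} (hf : IsW a b f) (h1 : a = c) (h2 : b = d) :
    IsW c d f := by subst h1; subst h2; exact hf

theorem IsD.unique {a b c d : ZMod q} {f : L q} (hf : IsD a b f) (hg : IsD c d f) :
    a = c ∧ b = d := by
  have h1 := (hf ![1, 0]).symm.trans (hg ![1, 0])
  have h2 := (hf ![0, 1]).symm.trans (hg ![0, 1])
  have h10 := congrFun h1 0
  have h21 := congrFun h2 1
  simp at h10 h21
  exact ⟨h10, h21⟩

theorem IsW.unique {a b c d : ZMod q} {f : L q} (hf : IsW a b f) (hg : IsW c d f) :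
    a = c ∧ b = d := by
  have h1 := (hf ![1, 0]).symm.trans (hg ![1, 0])
  have h2 := (hf ![0, 1]).symm.trans (hg ![0, 1])
  have h11 := congrFun h1 1
  have h20 := congrFun h2 0
  simp at h11 h20
  exact ⟨h11, h20⟩

theorem IsD.ne_zero {a b : ZMod q} {f : L q} (hf : IsD a b f) : a ≠ 0 ∧ b ≠ 0 := by
  constructor
  · rintro rfl
    have h1 := hf ![1, 0]
    have h2 : f ![1, 0] = 0 := by
      rw [h1]; ext i; fin_cases i <;> simp
    rw [LinearEquiv.map_eq_zero_iff] at h2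
    have := congrFun h2 0
    simp at this
  · rintro rfl
    have h1 := hf ![0, 1]
    have h2 : f ![0, 1] = 0 := by
      rw [h1]; ext i; fin_cases i <;> simp
    rw [LinearEquiv.map_eq_zero_iff] at h2
    have := congrFun h2 1
    simp at this

theorem IsW.ne_zero {a b : ZMod q} {f : L q} (hf : IsW a b f) : a ≠ 0 ∧ b ≠ 0 := by
  constructor
  · rintro rfl
    have h1 := hf ![1, 0]
    have h2 : f ![1, 0] = 0 := by
      rw [h1]; ext i; fin_cases i <;> simp
    rw [LinearEquiv.map_eq_zero_iff] at h2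
    have := congrFun h2 0
    simp at this
  · rintro rfl
    have h1 := hf ![0, 1]
    have h2 : f ![0, 1] = 0 := by
      rw [h1]; ext i; fin_cases i <;> simp
    rw [LinearEquiv.map_eq_zero_iff] at h2
    have := congrFun h2 1
    simp at this

theorem IsD.not_isW {a b c d : ZMod q} {f : L q} (hf : IsD a b f) (hg : IsW c d f) : False := by
  have h1 := (hf ![1, 0]).symm.trans (hg ![1, 0])
  have h10 := congrFun h1 0
  simp at h10
  exact hf.ne_zero.1 h10

/-- The diagonal map with entries `a, b`. -/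
def dEquiv (a b : ZMod q) (ha : a ≠ 0) (hb : b ≠ 0) : L q where
  toFun v := ![a * v 0, b * v 1]
  invFun v := ![a⁻¹ * v 0, b⁻¹ * v 1]
  map_add' v w := by ext i; fin_cases i <;> simp [mul_add]
  map_smul' c v := by ext i; fin_cases i <;> simp [mul_left_comm]
  left_inv v := by ext i; fin_cases i <;> simp [ha, hb]
  right_inv v := by ext i; fin_cases i <;> simp [ha, hb]

/-- The anti-diagonal map `(x, y) ↦ (b y, a x)`. -/
def wEquiv (a b : ZMod q) (ha : a ≠ 0) (hb : b ≠ 0) : L q where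
  toFun v := ![b * v 1, a * v 0]
  invFun v := ![a⁻¹ * v 1, b⁻¹ * v 0]
  map_add' v w := by ext i; fin_cases i <;> simp [mul_add]
  map_smul' c v := by ext i; fin_cases i <;> simp [mul_left_comm]
  left_inv v := by ext i; fin_cases i <;> simp [ha, hb]
  right_inv v := by ext i; fin_cases i <;> simp [ha, hb]

theorem isD_dEquiv (a b : ZMod q) (ha : a ≠ 0) (hb : b ≠ 0) : IsD a b (dEquiv a b ha hb) :=
  fun _ => rfl

theorem isW_wEquiv (a b : ZMod q) (ha : a ≠ 0) (hb : b ≠ 0) : IsW a b (wEquiv a b ha hb) :=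
  fun _ => rfl

theorem IsD.inv {a b : ZMod q} {f : L q} (hf : IsD a b f) : IsD a⁻¹ b⁻¹ f⁻¹ := by
  obtain ⟨ha, hb⟩ := hf.ne_zero
  have h1 : IsD (a * a⁻¹) (b * b⁻¹) (f * dEquiv a⁻¹ b⁻¹ (inv_ne_zero ha) (inv_ne_zero hb)) :=
    hf.mul (isD_dEquiv _ _ _ _)
  rw [mul_inv_cancel₀ ha, mul_inv_cancel₀ hb] at h1
  have h2 : f * dEquiv a⁻¹ b⁻¹ (inv_ne_zero ha) (inv_ne_zero hb) = 1 := h1.ext isD_one
  have h3 : f⁻¹ = dEquiv a⁻¹ b⁻¹ (inv_ne_zero ha) (inv_ne_zero hb) := inv_eq_of_mul_eq_one_right h2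
  rw [h3]
  exact isD_dEquiv _ _ _ _

theorem IsW.inv {a b : ZMod q} {f : L q} (hf : IsW a b f) : IsW b⁻¹ a⁻¹ f⁻¹ := by
  obtain ⟨ha, hb⟩ := hf.ne_zero
  have h1 : IsD (b * b⁻¹) (a * a⁻¹) (f * wEquiv b⁻¹ a⁻¹ (inv_ne_zero hb) (inv_ne_zero ha)) :=
    hf.mul (isW_wEquiv _ _ _ _)
  rw [mul_inv_cancel₀ ha, mul_inv_cancel₀ hb] at h1
  have h2 : f * wEquiv b⁻¹ a⁻¹ (inv_ne_zero hb) (inv_ne_zero ha) = 1 := h1.ext isD_one
  have h3 : f⁻¹ = wEquiv b⁻¹ a⁻¹ (inv_ne_zero hb) (inv_ne_zero ha) := inv_eq_of_mul_eq_one_right h2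
  rw [h3]
  exact isW_wEquiv _ _ _ _

theorem IsD.pow {a b : ZMod q} {f : L q} (hf : IsD a b f) (n : ℕ) : IsD (a ^ n) (b ^ n) (f ^ n) := by
  induction n with
  | zero => simpa using (isD_one (q := q))
  | succ n ih =>
    rw [pow_succ, pow_succ, pow_succ]
    exact ih.mul hf

theorem IsW.sq {a b : ZMod q} {f : L q} (hf : IsW a b f) : IsD (b * a) (a * b) (f ^ 2) := by
  rw [pow_two]
  exact hf.mul hf

end Cfsg.Agent.H61.Mono
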