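import Mathlib
import Cfsg.Agent.H86.NdDefs
import Cfsg.Agent.H86.Ev2Fin
import Cfsg.Agent.H95.OhFin

/-!
# ND-STRUCT (helper86's S5989 / S5991 project): the matrix-model structure statement for odd
`r ≠ p`, from ND-FWD and ND-BACK and the closed pieces.
-/

set_option autoImplicit false

namespace Cfsg.Agent.H61.Nd

open Cfsg.Agent.H45 Cfsg.Agent.H42.Spd Cfsg.Agent.H42.Ti Cfsg.Agent.H14.Ot Cfsg.Agent.H95.Oh
  Cfsg.Agent.H86.Ev2 Cfsg.Agent.H86.Nd Module

universe u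

theorem nds_toLin_pow {F : Type u} [Field F] {ι : Type} [Fintype ι] [DecidableEq ι]
    (x : Matrix.GeneralLinearGroup ι F) (r : ℕ) (h : x ^ r = 1) :
    (Matrix.toLin' (x : Matrix ι ι F)) ^ r = 1 := by
  rw [← Matrix.toLin'_pow, ← Units.val_pow_eq_pow_val, h]
  simp [Matrix.toLin'_one]
  rfl

set_option maxHeartbeats 1000000 in
theorem ndStruct (hF : StNdFwd.{u, u}) (hB : StNdBack.{u, u}) : StNdStruct.{u} := by
  intro F _ _ p _ _ ι _ _ Q B h2 hBr hev r hr hr2 hrp y hy hyr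
  classical
  have hrF : (r : F) ≠ 0 := oh_cast_ne hr hrp
  have hcpos : 0 < cc F r := oh_cc_pos hr hrp
  have hctx : OCtx r B (Matrix.toLin' (y : Matrix ι ι F)) :=
    ⟨hr, hr2, hrF, h2, hBr.symm, hBr.nd, (hBr.iso y).mp hy, nds_toLin_pow y r hyr⟩
  set T : Module.End F (ι → F) := Matrix.toLin' (y : Matrix ι ι F) with hT
  have hfinV : Module.finrank F (ι → F) = Fintype.card ι := Module.finrank_fintype_fun_eq_card F
  have hkk : kk T ⊤ = Module.finrank F ↥(LinearMap.ker (T - 1)) := by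
    unfold kk; rw [top_inf_eq]
  have htopnd : (⊤ : Submodule F (ι → F)) ⊓ perp B ⊤ = ⊥ := by
    rw [eq_bot_iff]
    rintro x ⟨-, hx⟩
    rw [Submodule.mem_bot]
    apply hBr.nd x
    intro z
    rw [hBr.symm]
    exact hx z Submodule.mem_top
  obtain ⟨A, hA⟩ := fin_omodc.{u, u} F (ι → F) r B T hctx
  rw [hfinV, hkk] at hA
  refine ⟨A, hA.symm, ?_, ?_, ?_⟩
  · intro h0
    obtain ⟨j', h1, -, h3⟩ := fin_fwd.{u, u} F (ι → F) r B T hctx ⊤
      (Module.End.invtSubmodule.top_mem T) htopnd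
    rw [hkk, h0, zero_add, finrank_top, hfinV, hA, h0, zero_add] at h1
    have hjj : A = j' := Nat.eq_of_mul_eq_mul_left hcpos h1
    rw [hjj]
    exact h3 (by rw [hkk]; exact h0)
  · intro m W₀ j e hW₀ hjA he1 heK hm
    subst hm
    obtain ⟨v, hv, hvW⟩ := Bridge.exists_ortho hBr Cfsg.Agent.H86.Ev2.fin_ortho.{u, u} h2 _ W₀ hW₀
    have hδ : (∏ a, B (v a) (v a)) ≠ 0 := Finset.prod_ne_zero_iff.mpr (fun a _ => hv.2 a)
    have hjle : kk T ⊤ + cc F r * j ≤ Module.finrank F (ι → F) := by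
      rw [hfinV, hkk, hA]
      exact Nat.add_le_add_left (Nat.mul_le_mul_left _ hjA) _
    obtain ⟨w, hw, hsq, hinv⟩ := hB F (ι → F) r B T hctx j e (∏ a, B (v a) (v a)) hjle he1
      (by rw [hkk]; exact heK) hδ
    obtain ⟨W, hW, hWT⟩ := Bridge.fix_nd hBr fin_spanNd.{u, u} fin_isoGen.{u, u} h2 _ W₀ v hv hvW
      w hw hsq T hinv
    exact ⟨W, hW, hWT⟩
  · intro W hodd hnd hWT
    have hevV : Even (Module.finrank F (ι → F)) := by rw [hfinV]; exact hev
    obtain ⟨j, h1, h2', h3⟩ := hF F (ι → F) r B T hctx hevV W ((map_le_iff_invt T W).mp hWT)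
      ((hBr.ndW W).mp hnd) hodd
    refine ⟨j, kk T W, ?_, by rw [← hkk]; exact h3, h1⟩
    rw [hfinV, hkk, hA] at h2'
    have h4 : cc F r * j ≤ cc F r * A := by omega
    exact Nat.le_of_mul_le_mul_left h4 hcpos

example : (StNdFwd.{u, u}) → (StNdBack.{u, u}) → StNdStruct.{u} := ndStruct

end Cfsg.Agent.H61.Nd

#print axioms Cfsg.Agent.H61.Nd.ndStruct
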