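import Cfsg.Agent.H78.OdDefs

/-!
# OD-FAITH (helper61, for helper78's S2608 `m = 4` half)

Over a finite field of odd characteristic a non-trivial graph automorphism of `D₄(F)` moves the class of some
diagonal automorphism.
-/

set_option autoImplicit false

namespace Cfsg.Agent.H61.Od

open Cfsg Cfsg.Lie Cfsg.Agent.H23 Cfsg.Agent.H23.Stb Cfsg.Agent.H13.D4N Cfsg.Agent.H78.Od

universe u

/-- The commutator of a graph automorphism (node map `s`, inverse `s'`) with a diagonal automorphism acts through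
the scalars `c (s' k) / c k`. -/
theorem conj_diagAct (F : Type u) [Field F] (g d : ↥(chevD4.group F) ≃* ↥(chevD4.group F))
    (s s' : ℕ → ℕ) (c : ℕ → F) (hg : ActS F s g) (hd : DiagAct F d c)
    (hs' : ∀ k < chevD4.rank, s' k < chevD4.rank ∧ s (s' k) = k) :
    DiagAct F (g * d * g⁻¹ * d⁻¹ : MulAut ↥(chevD4.group F)) (fun k => c (s' k) / c k) := by
  obtain ⟨hc, hd⟩ := hd
  refine ⟨fun k hk => div_ne_zero (hc _ (hs' k hk).1) (hc k hk), ?_⟩
  intro k hk t
  obtain ⟨hk', hsk⟩ := hs' k hk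
  have hck := hc k hk
  have hck' := hc _ hk'
  have dinv1 : ∀ u : F, d.symm (xG (packS_D4 F).hP.sem (chevD4.simple k) u) =
      xG (packS_D4 F).hP.sem (chevD4.simple k) ((c k)⁻¹ * u) := by
    intro u
    rw [MulEquiv.symm_apply_eq, (hd k hk _).1, ← mul_assoc, mul_inv_cancel₀ hck, one_mul]
  have dinv2 : ∀ u : F, d.symm (xG (packS_D4 F).hP.sem (chevD4.neg (chevD4.simple k)) u) =
      xG (packS_D4 F).hP.sem (chevD4.neg (chevD4.simple k)) (c k * u) := by
    intro u
    rw [MulEquiv.symm_apply_eq, (hd k hk _).2, ← mul_assoc, inv_mul_cancel₀ hck, one_mul]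
  have ginv1 : ∀ u : F, g.symm (xG (packS_D4 F).hP.sem (chevD4.simple k) u) =
      xG (packS_D4 F).hP.sem (chevD4.simple (s' k)) u := by
    intro u
    rw [MulEquiv.symm_apply_eq, (hg _ hk' _).1, hsk]
  have ginv2 : ∀ u : F, g.symm (xG (packS_D4 F).hP.sem (chevD4.neg (chevD4.simple k)) u) =
      xG (packS_D4 F).hP.sem (chevD4.neg (chevD4.simple (s' k))) u := by
    intro u
    rw [MulEquiv.symm_apply_eq, (hg _ hk' _).2, hsk]
  constructor
  · show g (d (g.symm (d.symm _))) = _
    rw [dinv1, ginv1, (hd _ hk' _).1, (hg _ hk' _).1, hsk]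
    congr 1
    field_simp
  · show g (d (g.symm (d.symm _))) = _
    rw [dinv2, ginv2, (hd _ hk' _).2, (hg _ hk' _).2, hsk]
    congr 1
    field_simp

theorem actS_one (F : Type u) [Field F] :
    ActS F (fun i => ([0, 1, 2, 3] : List ℕ).getD i 0) (1 : MulAut ↥(chevD4.group F)) := by
  intro i hi t
  have hi4 : i < 4 := hi
  interval_cases i <;> exact ⟨rfl, rfl⟩

/-- **OD-FAITH**. -/
theorem faith (_h1 : StDA1.{u}) (h2 : StDA2.{u}) (h4 : StInn2.{u}) : StFaith.{u} := by
  intro F _ _ h2F g hg hg1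
  obtain ⟨L, hLmem, hL⟩ := actS_of_isGraphAut F g hg
  haveI := Fintype.ofFinite F
  have hchar : ringChar F ≠ 2 := by
    intro h
    apply h2F
    have := (ringChar.spec F 2).mpr (by rw [h])
    exact_mod_cast this
  obtain ⟨ν, hν⟩ := FiniteField.exists_nonsquare (F := F) hchar
  have hν0 : ν ≠ 0 := by
    rintro rfl
    exact hν ⟨0, by simp⟩
  have hνinv : ¬ IsSquare ν⁻¹ := by
    rw [isSquare_inv]
    exact hν
  have key : ∀ (s' : ℕ → ℕ) (j : ℕ),
      (∀ k < chevD4.rank, s' k < chevD4.rank ∧ L.getD (s' k) 0 = k) →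
      ¬ (IsSquare ((if s' 0 = j then ν else 1) / (if 0 = j then ν else 1) *
            ((if s' 2 = j then ν else 1) / (if 2 = j then ν else 1))) ∧
         IsSquare ((if s' 0 = j then ν else 1) / (if 0 = j then ν else 1) *
            ((if s' 3 = j then ν else 1) / (if 3 = j then ν else 1)))) →
      ∃ d : MulAut ↥(chevD4.group F), chevD4.IsDiagonalAut d ∧
        g * d * g⁻¹ * d⁻¹ ∉ Cfsg.Inn ↥(chevD4.group F) := by
    intro s' j hinv hns
    obtain ⟨d, hd, hdc⟩ := h2 F (fun i => if i = j then ν else 1)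
      (by intro i _; show (if i = j then ν else 1) ≠ 0; split_ifs; exacts [hν0, one_ne_zero])
    refine ⟨d, hd, fun hinn => hns ?_⟩
    exact h4 F _ _ (conj_diagAct F g d _ s' _ hL hdc hinv) hinn
  simp only [List.mem_cons, List.mem_nil_iff, or_false] at hLmem
  rcases hLmem with rfl | rfl | rfl | rfl | rfl | rfl
  · exact absurd (actS_unique F hL (actS_one F)) hg1
  · refine key (fun k => ([0, 1, 3, 2] : List ℕ).getD k 0) 2 (by decide) ?_
    rintro ⟨h02, h03⟩
    simp at h02 h03
    first | exact hν h02 | exact hν h03 | exact hνinv h02 | exact hνinv h03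
  · refine key (fun k => ([2, 1, 0, 3] : List ℕ).getD k 0) 0 (by decide) ?_
    rintro ⟨h02, h03⟩
    simp at h02 h03
    first | exact hν h02 | exact hν h03 | exact hνinv h02 | exact hνinv h03
  · refine key (fun k => ([3, 1, 2, 0] : List ℕ).getD k 0) 0 (by decide) ?_
    rintro ⟨h02, h03⟩
    simp at h02 h03
    first | exact hν h02 | exact hν h03 | exact hνinv h02 | exact hνinv h03
  · refine key (fun k => ([3, 1, 0, 2] : List ℕ).getD k 0) 0 (by decide) ?_
    rintro ⟨h02, h03⟩
    simp at h02 h03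
    first | exact hν h02 | exact hν h03 | exact hνinv h02 | exact hνinv h03
  · refine key (fun k => ([2, 1, 3, 0] : List ℕ).getD k 0) 0 (by decide) ?_
    rintro ⟨h02, h03⟩
    simp at h02 h03
    first | exact hν h02 | exact hν h03 | exact hνinv h02 | exact hνinv h03

example (h1 : StDA1.{u}) (h2 : StDA2.{u}) (h4 : StInn2.{u}) : StFaith.{u} := faith h1 h2 h4

end Cfsg.Agent.H61.Od

#print axioms Cfsg.Agent.H61.Od.faith
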