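import Cfsg.Agent.H78.OdDefs
import Cfsg.Agent.H13.D4NotInnD

/-!
# OD-INN2 (helper61, for helper78's S2608 `m = 4` half)

If an automorphism of `D₄(F)` acting through the scalars `c` on the fundamental root elements is inner, then
`c₀ c₂` and `c₀ c₃` are squares.  The conjugating element lies in `H` (it normalises `U` and `V`), and the
character of every element of `H` takes a square value on `α₀ + α₂` and on `α₀ + α₃`.
-/

set_option autoImplicit false
set_option maxRecDepth 100000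

namespace Cfsg.Agent.H61.Od

open Cfsg Cfsg.Lie Cfsg.Agent.H23 Cfsg.Agent.H23.Stb Cfsg.Agent.H13.D4N Cfsg.Agent.H78.Od
  Cfsg.Agent.H78.StbG

universe u

/-- Uniqueness of an automorphism with a given diagonal action. -/
theorem diagAct_unique (F : Type u) [Field F] {c : ℕ → F}
    {d d' : ↥(chevD4.group F) ≃* ↥(chevD4.group F)}
    (h : DiagAct F d c) (h' : DiagAct F d' c) : d = d' := by
  have hS : Sem chevD4 F zD4 := (packS_D4 F).hP.sem
  apply MulEquiv.toMonoidHom_injective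
  apply hom_ext_fundG hS (packS_D4 F).hP.semN (packS_D4 F).hP.tab
  intro y i t hi hy
  rcases hy with hy | hy
  · rw [eq_xG hS y _ t hy]
    exact ((h.2 i hi t).1).trans ((h'.2 i hi t).1).symm
  · rw [eq_xG hS y _ t hy]
    exact ((h.2 i hi t).2).trans ((h'.2 i hi t).2).symm

/-- Torus elements whose character has `χ a * χ b` a square. -/
def sqTorus (D : ChevalleyDatum) (F : Type u) [Field F] (a b : ℕ) : Subgroup (GL D.Idx F) where
  carrier := {g | ∃ χ : ℕ → F, IsTorus D χ g ∧ IsSquare (χ a * χ b)}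
  mul_mem' := by
    rintro g₁ g₂ ⟨χ, ⟨h1, h2, h3, h4⟩, hsq⟩ ⟨χ', ⟨h1', h2', h3', h4'⟩, hsq'⟩
    refine ⟨fun c => χ c * χ' c, ⟨fun c => mul_ne_zero (h1 c) (h1' c), ?_, ?_, ?_⟩, ?_⟩
    · intro s hs c x hx
      show χ x.1 * χ' x.1 = χ c * χ' c * (χ s * χ' s) ^ x.2.2
      rw [h2 s hs c x hx, h2' s hs c x hx, mul_pow]; ring
    · intro i
      show χ _ * χ' _ = 1
      rw [h3 i, h3' i, one_mul]
    · rw [Units.val_mul, h4, h4', Matrix.diagonal_mul_diagonal]
    · show IsSquare (χ a * χ' a * (χ b * χ' b))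
      have := hsq.mul hsq'
      rwa [mul_mul_mul_comm] at this
  one_mem' := by
    refine ⟨fun _ => 1, ⟨fun _ => one_ne_zero, ?_, fun _ => rfl, ?_⟩, ?_⟩
    · intro s hs c x hx; simp
    · rw [Units.val_one, ← Matrix.diagonal_one]
    · show IsSquare ((1 : F) * 1)
      exact ⟨1, by ring⟩
  inv_mem' := by
    rintro g₁ ⟨χ, ⟨h1, h2, h3, h4⟩, hsq⟩
    refine ⟨fun c => (χ c)⁻¹, ⟨fun c => inv_ne_zero (h1 c), ?_, ?_, ?_⟩, ?_⟩
    · intro s hs c x hx
      show (χ x.1)⁻¹ = (χ c)⁻¹ * (χ s)⁻¹ ^ x.2.2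
      rw [h2 s hs c x hx, mul_inv, inv_pow]
    · intro i
      show (χ _)⁻¹ = 1
      rw [h3 i, inv_one]
    · apply Units.inv_eq_of_mul_eq_one_right
      rw [h4, Matrix.diagonal_mul_diagonal, ← Matrix.diagonal_one]
      congr 1
      funext k
      exact mul_inv_cancel₀ (h1 _)
    · show IsSquare ((χ a)⁻¹ * (χ b)⁻¹)
      obtain ⟨r, hr⟩ := hsq
      exact ⟨r⁻¹, by rw [← mul_inv, hr, mul_inv]⟩

/-- If `z r a + z r b` is even for every root `r`, the whole diagonal subgroup lies in `sqTorus`. -/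
theorem diagonal_le_sqTorus {D : ChevalleyDatum} {F : Type u} [Field F] {z : ℕ → ℕ → ℤ}
    (hS : Sem D F z) (hT : Tab D) (a b : ℕ) (hev : ∀ r < D.nroots, Even (z r a + z r b)) :
    D.diagonalSubgroup F ≤ sqTorus D F a b := by
  unfold ChevalleyDatum.diagonalSubgroup
  rw [Subgroup.closure_le]
  rintro g ⟨r, t, hr, ht, hg⟩
  have hg' : g = hU hS r t := eq_wordU hS g _ hg
  rw [hg']
  refine ⟨_, hU_isTorus hS hT r hr t ht, ?_⟩
  show IsSquare (t ^ z r a * t ^ z r b)
  rw [← zpow_add₀ ht]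
  obtain ⟨k, hk⟩ := hev r hr
  rw [hk, zpow_add₀ ht]
  exact ⟨_, rfl⟩

theorem even02 : ∀ r < chevD4.nroots, Even (zD4 r (chevD4.simple 0) + zD4 r (chevD4.simple 2)) := by
  decide +kernel

theorem even03 : ∀ r < chevD4.nroots, Even (zD4 r (chevD4.simple 0) + zD4 r (chevD4.simple 3)) := by
  decide +kernel

/-- **OD-INN2** (with OD-DA2 as a hypothesis). -/
theorem inn2 (h2 : StDA2.{u}) : StInn2.{u} := by
  intro F _ d c hdc hinn
  have hC := packS_D4 F
  have hP := (packS_D4 F).hP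
  have hS : Sem chevD4 F zD4 := (packS_D4 F).hP.sem
  have hT := (packS_D4 F).hP.tab
  obtain ⟨d', hd', hd'c⟩ := h2 F c hdc.1
  have hdd : d = d' := diagAct_unique F hdc hd'c
  obtain ⟨χ₀, -, hdU, hdV⟩ := act_of_isDiagonalAut F d' hd'
  rw [← hdd] at hdU hdV
  obtain ⟨x, hxd⟩ := hinn
  have hx : ∀ y : ↥(chevD4.group F), d y = x * y * x⁻¹ := by
    intro y
    rw [← hxd]
    rfl
  have hUG : chevD4.posUnipotent F ≤ chevD4.group F := posUnipotent_le_group hS
  have hVG : chevD4.negUnipotent F ≤ chevD4.group F := negUnipotent_le_group hS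
  have key : ∀ K : Subgroup (GL chevD4.Idx F), K ≤ chevD4.group F → Pres d K K →
      ∀ y : GL chevD4.Idx F, y ∈ K ↔ (x : GL chevD4.Idx F) * y * (x : GL chevD4.Idx F)⁻¹ ∈ K := by
    intro K hK hdK y
    by_cases hy : y ∈ chevD4.group F
    · have e2 := hdK ⟨y, hy⟩
      rw [hx ⟨y, hy⟩] at e2
      exact e2.symm
    · constructor
      · intro h; exact absurd (hK h) hy
      · intro h
        exfalso
        apply hy
        have h2 := hK h
        have : y = (x : GL chevD4.Idx F)⁻¹ *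
            ((x : GL chevD4.Idx F) * y * (x : GL chevD4.Idx F)⁻¹) * (x : GL chevD4.Idx F) := by
          group
        rw [this]
        exact Subgroup.mul_mem _ (Subgroup.mul_mem _ (Subgroup.inv_mem _ x.2) h2) x.2
  have hNUV := Cfsg.Agent.H13.StbG.nuv Cfsg.Agent.H61.Stb.normU Cfsg.Agent.H18.Stb.w0
  have hxH : (x : GL chevD4.Idx F) ∈ chevD4.diagonalSubgroup F :=
    hNUV chevD4 F _ _ _ _ hC _ x.2 (key _ hUG hdU) (key _ hVG hdV)
  have hci : ∀ χ : ℕ → F, IsTorus chevD4 χ (x : GL chevD4.Idx F) →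
      ∀ i < chevD4.rank, χ (chevD4.simple i) = c i := by
    intro χ hχ i hi
    have hl := hT.simple_lt i hi
    have e1 : x * xG hS (chevD4.simple i) 1 * x⁻¹ =
        xG hS (chevD4.simple i) (χ (chevD4.simple i) * 1) :=
      Subtype.ext (isTorus_conj hS χ _ hχ _ hl 1)
    have e2 : xG hS (chevD4.simple i) (c i * 1) = xG hS (chevD4.simple i) (χ (chevD4.simple i) * 1) :=
      ((hdc.2 i hi 1).1).symm.trans ((hx (xG hS (chevD4.simple i) 1)).trans e1)
    have e3 := congrArg Subtype.val e2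
    have := xU_inj hS hT hP.tab2 _ hl _ _ e3
    rw [mul_one, mul_one] at this
    exact this.symm
  constructor
  · obtain ⟨χ, hχ, hsq⟩ :=
      diagonal_le_sqTorus hS hT (chevD4.simple 0) (chevD4.simple 2) even02 hxH
    rw [hci χ hχ 0 (by decide), hci χ hχ 2 (by decide)] at hsq
    exact hsq
  · obtain ⟨χ, hχ, hsq⟩ :=
      diagonal_le_sqTorus hS hT (chevD4.simple 0) (chevD4.simple 3) even03 hxH
    rw [hci χ hχ 0 (by decide), hci χ hχ 3 (by decide)] at hsq
    exact hsq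

example (h : StDA2.{u}) : StInn2.{u} := inn2 h

end Cfsg.Agent.H61.Od

#print axioms Cfsg.Agent.H61.Od.inn2
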