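import Cfsg.Agent.H78.OdDefs

/-!
# OD-S4 (helper61, for helper78's S2608 `m = 4` half)

A group `V ⋊ S` with `|V| = 4`, `|S| = 6` and `S` acting faithfully on `V` is `S₄`:
it acts faithfully on the four cosets of `S`.
-/

set_option autoImplicit false

namespace Cfsg.Agent.H61.Od

universe u

open scoped Pointwise

/-- The internal version: `X = V ⋊ S`. -/
theorem s4_aux (X : Type u) [Group X] [Finite X] (V S : Subgroup X) [V.Normal]
    (hV : Nat.card V = 4) (hS : Nat.card S = 6) (hVS : V ⊓ S = ⊥) (htop : V ⊔ S = ⊤)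
    (hfaith : ∀ s ∈ S, (∀ v ∈ V, s * v = v * s) → s = 1) :
    Nonempty (X ≃* Equiv.Perm (Fin 4)) := by
  classical
  have hcompl : Subgroup.IsComplement' V S := by
    apply Subgroup.isComplement'_of_disjoint_and_mul_eq_univ
    · exact disjoint_iff.mpr hVS
    · rw [← Subgroup.normal_mul, htop]; rfl
  have hcard : Nat.card X = 24 := by
    rw [← hcompl.card_mul_card, hV, hS]
  have hidx : S.index = 4 := by
    have := S.card_mul_index
    rw [hS, hcard] at this
    omega
  let φ : X →* Equiv.Perm (X ⧸ S) := MulAction.toPermHom X (X ⧸ S)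
  have hker : φ.ker = S.normalCore := (Subgroup.normalCore_eq_ker S).symm
  have hinj : Function.Injective φ := by
    rw [← MonoidHom.ker_eq_bot_iff, hker, Subgroup.eq_bot_iff_forall]
    intro n hn
    have hnS : n ∈ S := Subgroup.normalCore_le S hn
    apply hfaith n hnS
    intro v hv
    have hdisj : Disjoint S.normalCore V := by
      rw [disjoint_iff, eq_bot_iff, ← hVS]
      exact le_inf inf_le_right (inf_le_left.trans (Subgroup.normalCore_le S))
    exact (Subgroup.commute_of_normal_of_disjoint _ _ inferInstance inferInstance hdisj n v hn hv)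
  have hq : Nat.card (X ⧸ S) = 4 := hidx
  have hbij : Function.Bijective φ := by
    rw [Nat.bijective_iff_injective_and_card]
    refine ⟨hinj, ?_⟩
    rw [hcard, Nat.card_perm, hq]
    rfl
  let e : X ⧸ S ≃ Fin 4 := Finite.equivFinOfCardEq hq
  exact ⟨(MulEquiv.ofBijective φ hbij).trans (Equiv.permCongrHom e)⟩

/-- **OD-S4**. -/
theorem s4 : Cfsg.Agent.H78.Od.StS4.{u} := by
  intro Q _ _ V S hV hS hnorm hVS hfaith
  have hVle : V ≤ V ⊔ S := le_sup_left
  have hSle : S ≤ V ⊔ S := le_sup_right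
  have hnormal : (V.subgroupOf (V ⊔ S)).Normal := by
    rw [Subgroup.normal_subgroupOf_iff_le_normalizer hVle]
    refine sup_le Subgroup.le_normalizer ?_
    intro s hs
    rw [Subgroup.mem_normalizer_iff]
    intro v
    refine ⟨fun hv => hnorm s hs v hv, fun hv => ?_⟩
    have := hnorm s⁻¹ (S.inv_mem hs) _ hv
    simpa [mul_assoc] using this
  refine s4_aux ↥(V ⊔ S) (V.subgroupOf (V ⊔ S)) (S.subgroupOf (V ⊔ S)) ?_ ?_ ?_ ?_ ?_
  · rw [Nat.card_congr (Subgroup.subgroupOfEquivOfLe hVle).toEquiv, hV]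
  · rw [Nat.card_congr (Subgroup.subgroupOfEquivOfLe hSle).toEquiv, hS]
  · rw [eq_bot_iff]
    rintro x ⟨hxV, hxS⟩
    have hx : (x : Q) ∈ V ⊓ S := ⟨hxV, hxS⟩
    rw [hVS, Subgroup.mem_bot] at hx
    rw [Subgroup.mem_bot]
    exact Subtype.ext hx
  · exact codisjoint_iff.mp (Subgroup.codisjoint_subgroupOf_sup V S)
  · intro s hs hcomm
    have hs' : (s : Q) ∈ S := hs
    have : (s : Q) = 1 := by
      apply hfaith _ hs'
      intro v hv
      have := hcomm ⟨v, hVle hv⟩ hv
      exact congrArg Subtype.val this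
    exact Subtype.ext this

example : Cfsg.Agent.H78.Od.StS4.{u} := s4

end Cfsg.Agent.H61.Od

#print axioms Cfsg.Agent.H61.Od.s4
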