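import Mathlib
import Cfsg.Agent.H61.MinNormal
import Cfsg.Agent.H61.SpecAn

set_option autoImplicit false

namespace Cfsg.Agent.H61

universe u

/-- A minimal normal subgroup of a solvable group is abelian. -/
theorem minimal_normal_comm {G : Type*} [Group G] [Group.IsSolvable G] (M : Subgroup G)
    [hMn : M.Normal] (hMbot : M ≠ ⊥)
    (hmin : ∀ K : Subgroup G, K.Normal → K ≤ M → K = ⊥ ∨ K = M) :
    ∀ a ∈ M, ∀ b ∈ M, a * b = b * a := by
  have hKn : (⁅M, M⁆ : Subgroup G).Normal := inferInstance
  have hKle : ⁅M, M⁆ ≤ M := Subgroup.commutator_le_left M M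
  rcases hmin _ hKn hKle with h | h
  · rw [Subgroup.commutator_eq_bot_iff_le_centralizer] at h
    intro a ha b hb
    exact (Subgroup.mem_centralizer_iff.1 (h hb) a ha)
  · exfalso
    exact (Group.IsSolvable.commutator_lt_of_ne_bot hMbot).ne h

/-- An abelian minimal normal subgroup whose order is divisible by the prime `r` has exponent
`r`. -/
theorem minimal_normal_exponent {G : Type*} [Group G] [Finite G] (M : Subgroup G)
    [hMn : M.Normal]
    (hmin : ∀ K : Subgroup G, K.Normal → K ≤ M → K = ⊥ ∨ K = M)
    (hcomm : ∀ a ∈ M, ∀ b ∈ M, a * b = b * a) (r : ℕ) (hr : r.Prime) (hrM : r ∣ Nat.card M) :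
    ∀ m ∈ M, m ^ r = 1 := by
  let K : Subgroup G :=
    { carrier := {m | m ∈ M ∧ m ^ r = 1}
      mul_mem' := by
        rintro a b ⟨ha, ha'⟩ ⟨hb, hb'⟩
        refine ⟨M.mul_mem ha hb, ?_⟩
        have hc : Commute a b := hcomm a ha b hb
        rw [hc.mul_pow, ha', hb', one_mul]
      one_mem' := ⟨M.one_mem, one_pow r⟩
      inv_mem' := by
        rintro a ⟨ha, ha'⟩
        exact ⟨M.inv_mem ha, by rw [inv_pow, ha', inv_one]⟩ }
  have hKn : K.Normal := by
    constructor
    rintro m ⟨hm, hm'⟩ g
    exact ⟨hMn.conj_mem m hm g, by rw [conj_pow, hm', mul_one, mul_inv_cancel]⟩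
  have hKle : K ≤ M := fun m hm => hm.1
  have := Fact.mk hr
  obtain ⟨x, hx⟩ := exists_prime_orderOf_dvd_card' (G := M) r hrM
  have hxK : (x : G) ∈ K := by
    refine ⟨x.2, ?_⟩
    have : x ^ r = 1 := by rw [← hx]; exact pow_orderOf_eq_one x
    exact_mod_cast congrArg (Subtype.val) this
  rcases hmin K hKn hKle with h | h
  · exfalso
    rw [h, Subgroup.mem_bot] at hxK
    have hx1 : x = 1 := Subtype.ext hxK
    rw [hx1, orderOf_one] at hx
    exact hr.one_lt.ne hx
  · intro m hm
    have : m ∈ K := by rw [h]; exact hm
    exact this.2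

/-- **Two-prime lemma for solvable groups.** If `G` is solvable, `p` divides `|G|` exactly once,
and `G` has no element of order `p q`, then either the `q`-part of `|G|` divides `p - 1`, or
`p ∣ q ^ b - 1` for some `1 ≤ b ≤ v_q(|G|)`. -/
theorem solvable_two_primes (p q : ℕ) (hp : p.Prime) (hq : q.Prime) (hpq : p ≠ q) :
    ∀ (k : ℕ) (G : Type u) [Group G] [Finite G], Nat.card G = k → Group.IsSolvable G →
      p ∣ Nat.card G → ¬ p ^ 2 ∣ Nat.card G → (∀ g : G, orderOf g ≠ p * q) →
      q ^ (Nat.card G).factorization q ∣ p - 1 ∨
        ∃ b, 1 ≤ b ∧ b ≤ (Nat.card G).factorization q ∧ p ∣ q ^ b - 1 := by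
  intro k
  induction k using Nat.strong_induction_on with
  | _ k ih =>
    intro G _ _ hk hsolv hpG hp2G hno
    have hnt : Nontrivial G := by
      rw [← Finite.one_lt_card_iff_nontrivial]
      have := Nat.le_of_dvd Nat.card_pos hpG
      have := hp.two_le
      omega
    obtain ⟨M, hMn, hMbot, hMmin⟩ := exists_minimal_normal G
    have hcomm := minimal_normal_comm M hMbot hMmin
    have hcardeq : Nat.card G = Nat.card (G ⧸ M) * Nat.card M :=
      Subgroup.card_eq_card_quotient_mul_card_subgroup M
    have := Fact.mk hp
    have := Fact.mk hq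
    by_cases hpM : p ∣ Nat.card M
    · -- `M` has order `p`; a Sylow `q`-subgroup acts faithfully on it.
      left
      have hexp := minimal_normal_exponent M hMmin hcomm p hp hpM
      have hPG : IsPGroup p M := by
        intro m
        refine ⟨1, ?_⟩
        rw [pow_one]
        exact Subtype.ext (by simpa using hexp m m.2)
      obtain ⟨b, hb⟩ := (IsPGroup.iff_card).1 hPG
      have hMcard : Nat.card M = p := by
        rcases b with _ | _ | b
        · exfalso
          rw [hb, pow_zero] at hpM
          exact hp.one_lt.ne' (Nat.dvd_one.1 hpM)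
        · rw [hb, zero_add, pow_one]
        · exfalso
          apply hp2G
          have h1 : p ^ 2 ∣ Nat.card M := by
            rw [hb]
            exact pow_dvd_pow p (by omega)
          exact h1.trans (Subgroup.card_subgroup_dvd_card M)
      have hcyc : IsCyclic M := isCyclic_of_prime_card hMcard
      obtain Q : Sylow q G := default
      let φ : (Q : Subgroup G) →* MulAut M :=
        (MulAut.conjNormal (H := M)).comp (Q : Subgroup G).subtype
      have hφ : Function.Injective φ := by
        rw [injective_iff_map_eq_one]
        intro y hy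
        by_contra hy1
        have hyord : orderOf y ∣ Nat.card (Q : Subgroup G) := orderOf_dvd_natCard y
        rw [Sylow.card_eq_multiplicity] at hyord
        obtain ⟨c, hc, hc'⟩ := (Nat.dvd_prime_pow hq).1 hyord
        have hc0 : c ≠ 0 := by
          rintro rfl
          rw [pow_zero, orderOf_eq_one_iff] at hc'
          exact hy1 hc'
        -- `z = y ^ (q ^ (c - 1))` has order `q` and centralizes `M`
        have hzord : orderOf (y ^ (q ^ (c - 1))) = q := by
          rw [orderOf_pow' y (pow_ne_zero _ hq.ne_zero), hc', Nat.gcd_eq_right (pow_dvd_pow q (by omega))]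
          have : q ^ c = q ^ (c - 1) * q := by
            rw [← pow_succ]
            congr 1
            omega
          rw [this, Nat.mul_div_cancel_left _ (pow_pos hq.pos _)]
        have hzφ : φ (y ^ (q ^ (c - 1))) = 1 := by rw [map_pow, hy, one_pow]
        obtain ⟨x, hx⟩ := exists_prime_orderOf_dvd_card' (G := M) p hpM
        have hcm : Commute ((y ^ (q ^ (c - 1)) : (Q : Subgroup G)) : G) (x : G) := by
          have h1 : φ (y ^ (q ^ (c - 1))) x = x := by rw [hzφ]; rfl
          have h2 : (((y ^ (q ^ (c - 1)) : (Q : Subgroup G)) : G)) * (x : G) *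
              (((y ^ (q ^ (c - 1)) : (Q : Subgroup G)) : G))⁻¹ = (x : G) :=
            congrArg Subtype.val h1
          exact mul_inv_eq_iff_eq_mul.1 h2
        have hcop : (orderOf ((y ^ (q ^ (c - 1)) : (Q : Subgroup G)) : G)).Coprime
            (orderOf (x : G)) := by
          rw [Subgroup.orderOf_coe, Subgroup.orderOf_coe, hzord, hx]
          exact (Nat.coprime_primes hq hp).2 hpq.symm
        apply hno (((y ^ (q ^ (c - 1)) : (Q : Subgroup G)) : G) * (x : G))
        rw [hcm.orderOf_mul_eq_mul_orderOf_of_coprime hcop, Subgroup.orderOf_coe,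
          Subgroup.orderOf_coe, hzord, hx, mul_comm]
      have hdvd := Subgroup.card_dvd_of_injective φ hφ
      rw [Sylow.card_eq_multiplicity, IsCyclic.card_mulAut, hMcard, Nat.totient_prime hp] at hdvd
      exact hdvd
    · by_cases hqM : q ∣ Nat.card M
      · -- `M` is a `q`-group on which an element of order `p` acts fixed-point-freely
        right
        have hexp := minimal_normal_exponent M hMmin hcomm q hq hqM
        have hPG : IsPGroup q M := by
          intro m
          refine ⟨1, ?_⟩
          rw [pow_one]
          exact Subtype.ext (by simpa using hexp m m.2)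
        obtain ⟨b, hb⟩ := (IsPGroup.iff_card).1 hPG
        have hb1 : 1 ≤ b := by
          rcases b with _ | b
          · exfalso
            rw [hb, pow_zero] at hqM
            exact hq.one_lt.ne' (Nat.dvd_one.1 hqM)
          · omega
        have hble : b ≤ (Nat.card G).factorization q := by
          apply (hq.pow_dvd_iff_le_factorization Nat.card_pos.ne').1
          rw [← hb]
          exact Subgroup.card_subgroup_dvd_card M
        refine ⟨b, hb1, hble, ?_⟩
        obtain ⟨x, hx⟩ := exists_prime_orderOf_dvd_card' (G := G) p hpG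
        let ψ : Subgroup.zpowers x →* MulAut M :=
          (MulAut.conjNormal (H := M)).comp (Subgroup.zpowers x).subtype
        let _ : MulAction (Subgroup.zpowers x) M := MulAction.compHom M ψ
        have hPx : IsPGroup p (Subgroup.zpowers x) := by
          apply IsPGroup.of_card (n := 1)
          rw [Nat.card_zpowers, hx, pow_one]
        have hmod := hPx.card_modEq_card_fixedPoints M
        have hfix : Nat.card (MulAction.fixedPoints (Subgroup.zpowers x) M) = 1 := by
          rw [Nat.card_eq_one_iff_unique]
          refine ⟨⟨?_⟩, ⟨⟨1, ?_⟩⟩⟩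
          · rintro ⟨m, hm⟩ ⟨m', hm'⟩
            have key : ∀ m : M, m ∈ MulAction.fixedPoints (Subgroup.zpowers x) M → m = 1 := by
              intro m hm
              by_contra hm1
              have h1 : (⟨x, Subgroup.mem_zpowers x⟩ : Subgroup.zpowers x) • m = m := hm _
              have h2 : x * (m : G) * x⁻¹ = (m : G) := congrArg Subtype.val h1
              have hcm : Commute x (m : G) := mul_inv_eq_iff_eq_mul.1 h2
              have hmord : orderOf (m : G) = q := by
                have h3 : orderOf (m : G) ∣ q := orderOf_dvd_of_pow_eq_one (hexp m m.2)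
                rcases (Nat.dvd_prime hq).1 h3 with h | h
                · exfalso
                  rw [orderOf_eq_one_iff] at h
                  exact hm1 (Subtype.ext h)
                · exact h
              have hcop : (orderOf x).Coprime (orderOf (m : G)) := by
                rw [hx, hmord]
                exact (Nat.coprime_primes hp hq).2 hpq
              apply hno (x * (m : G))
              rw [hcm.orderOf_mul_eq_mul_orderOf_of_coprime hcop, hx, hmord]
            apply Subtype.ext
            show m = m'
            rw [key m hm, key m' hm']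
          · intro g
            show ψ g 1 = 1
            exact map_one _
        rw [hfix, hb] at hmod
        exact (Nat.modEq_iff_dvd' (Nat.one_le_pow _ _ hq.pos)).1 hmod.symm
      · -- pass to the quotient
        have hMcard : 1 < Nat.card M := (Subgroup.one_lt_card_iff_ne_bot M).2 hMbot
        have hcardlt : Nat.card (G ⧸ M) < k := by
          rw [← hk, hcardeq]
          have : 0 < Nat.card (G ⧸ M) := Nat.card_pos
          nlinarith
        have hpG' : p ∣ Nat.card (G ⧸ M) := by
          rw [hcardeq] at hpG
          exact ((Nat.Prime.dvd_mul hp).1 hpG).resolve_right hpM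
        have hp2G' : ¬ p ^ 2 ∣ Nat.card (G ⧸ M) := by
          intro h
          apply hp2G
          rw [hcardeq]
          exact Dvd.dvd.mul_right h _
        have hno' : ∀ g : G ⧸ M, orderOf g ≠ p * q := by
          intro g hg
          obtain ⟨g', hg'⟩ := exists_orderOf_of_quotient M (p * q) g hg
          exact hno g' hg'
        have hsolv' : Group.IsSolvable (G ⧸ M) := inferInstance
        have hfac : (Nat.card G).factorization q = (Nat.card (G ⧸ M)).factorization q := by
          rw [hcardeq, Nat.factorization_mul Nat.card_pos.ne' Nat.card_pos.ne', Finsupp.add_apply,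
            Nat.factorization_eq_zero_of_not_dvd hqM, add_zero]
        rw [hfac]
        exact ih _ hcardlt (G ⧸ M) rfl hsolv' hpG' hp2G' hno'

/-- Version with the `q`-part given explicitly. -/
theorem solvable_two_primes' (p q : ℕ) (hp : p.Prime) (hq : q.Prime) (hpq : p ≠ q)
    (G : Type u) [Group G] [Finite G] (hsolv : Group.IsSolvable G)
    (hpG : p ∣ Nat.card G) (hp2G : ¬ p ^ 2 ∣ Nat.card G) (hno : ∀ g : G, orderOf g ≠ p * q)
    (a m : ℕ) (ham : Nat.card G = q ^ a * m) (hqm : ¬ q ∣ m) :
    q ^ a ∣ p - 1 ∨ ∃ b, 1 ≤ b ∧ b ≤ a ∧ p ∣ q ^ b - 1 := by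
  have hm0 : m ≠ 0 := by
    rintro rfl
    exact hqm (dvd_zero q)
  have hfac : (Nat.card G).factorization q = a := by
    rw [ham, Nat.factorization_mul (pow_ne_zero _ hq.ne_zero) hm0, Finsupp.add_apply,
      Nat.factorization_eq_zero_of_not_dvd hqm, add_zero, Nat.Prime.factorization_pow hq]
    simp
  have := solvable_two_primes p q hp hq hpq (Nat.card G) G rfl hsolv hpG hp2G hno
  rwa [hfac] at this

end Cfsg.Agent.H61
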