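import Mathlib
import Cfsg.Agent.H99.ElSTR
import Cfsg.Agent.H4.ElMASCHKE

/-!
helper61: piece STRUCT1 of helper99's S5965 project: the cyclic decomposition of an operator of
prime order `r` prime to the characteristic.
-/

set_option autoImplicit false

namespace Cfsg.Agent.H61.Sub

variable {F : Type*} [Field F]

section blk

variable {V : Type*} [AddCommGroup V] [Module F V]

/-- The annihilator ideal of a vector with respect to an operator. -/
def annIdeal (T : Module.End F V) (w : V) : Ideal (Polynomial F) where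
  carrier := {p | Polynomial.aeval T p w = 0}
  add_mem' := by
    intro a b ha hb
    simp only [Set.mem_ofPred_eq] at *
    rw [map_add, LinearMap.add_apply, ha, hb, add_zero]
  zero_mem' := by simp
  smul_mem' := by
    intro c p hp
    simp only [Set.mem_ofPred_eq, smul_eq_mul] at *
    rw [map_mul, Module.End.mul_apply, hp, map_zero]

theorem mem_annIdeal (T : Module.End F V) (w : V) (p : Polynomial F) :
    p ∈ annIdeal T w ↔ Polynomial.aeval T p w = 0 := Iff.rfl

theorem pow_mem_of_inv (T : Module.End F V) (M : Submodule F V) (hM : ∀ v ∈ M, T v ∈ M)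
    (i : ℕ) : ∀ v ∈ M, (T ^ i) v ∈ M := by
  induction i with
  | zero => intro v hv; simpa using hv
  | succ k ih =>
    intro v hv
    rw [pow_succ, Module.End.mul_apply]
    exact ih _ (hM v hv)

theorem aeval_mem_of_inv (T : Module.End F V) (M : Submodule F V) (hM : ∀ v ∈ M, T v ∈ M)
    (p : Polynomial F) : ∀ v ∈ M, Polynomial.aeval T p v ∈ M := by
  intro v hv
  rw [Polynomial.aeval_eq_sum_range, LinearMap.sum_apply]
  refine Submodule.sum_mem _ (fun i _ => ?_)
  rw [LinearMap.smul_apply]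
  exact M.smul_mem _ (pow_mem_of_inv T M hM i v hv)

theorem aeval_apply_of_natDegree_lt (T : Module.End F V) (p : Polynomial F) (d : ℕ)
    (hd : p.natDegree < d) (w : V) :
    Polynomial.aeval T p w = ∑ i : Fin d, p.coeff i • (T ^ (i : ℕ)) w := by
  conv_lhs => rw [Polynomial.as_sum_range' p d hd]
  rw [map_sum, LinearMap.sum_apply, Finset.sum_range]
  refine Finset.sum_congr rfl (fun i _ => ?_)
  rw [Polynomial.aeval_monomial, Module.End.mul_apply, Module.algebraMap_end_apply]

theorem aeval_comm_apply (T : Module.End F V) (p : Polynomial F) (v : V) :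
    Polynomial.aeval T p (T v) = T (Polynomial.aeval T p v) := by
  have h1 : Polynomial.aeval T (p * Polynomial.X) = Polynomial.aeval T (Polynomial.X * p) := by
    rw [mul_comm]
  rw [map_mul, map_mul, Polynomial.aeval_X] at h1
  exact congrArg (fun f => f v) h1

theorem isUnit_of_dvd_left {g a b : Polynomial F} (hg : g ≠ 0) (hab : g = a * b) (hd : g ∣ a) :
    IsUnit b := by
  obtain ⟨c, hc⟩ := hd
  have h1 : g * 1 = g * (c * b) := by
    rw [mul_one, ← mul_assoc, ← hc]
    exact hab
  have h2 := mul_left_cancel₀ hg h1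
  exact IsUnit.of_mul_eq_one c (by rw [mul_comm]; exact h2.symm)

theorem block (T : Module.End F V) (r : ℕ) (hr0 : 0 < r) (hT : T ^ r = 1)
    (M : Submodule F V) (hM0 : M ≠ ⊥) (hMinv : ∀ v ∈ M, T v ∈ M)
    (hMmin : ∀ M' ≤ M, (∀ v ∈ M', T v ∈ M') → M' = ⊥ ∨ M' = M) :
    ∃ (w₀ : V) (g₀ : Polynomial F), g₀.Monic ∧ Irreducible g₀ ∧ g₀ ∣ Polynomial.X ^ r - 1 ∧
      Polynomial.aeval T g₀ w₀ = 0 ∧
      LinearIndependent F (fun j : Fin g₀.natDegree => (T ^ (j : ℕ)) w₀) ∧
      Submodule.span F (Set.range (fun j : Fin g₀.natDegree => (T ^ (j : ℕ)) w₀)) = M := by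
  classical
  obtain ⟨w₀, hw₀M, hw₀0⟩ := Submodule.exists_mem_ne_zero_of_ne_bot hM0
  have hXr : (Polynomial.X ^ r - 1 : Polynomial F) ∈ annIdeal T w₀ := by
    rw [mem_annIdeal]
    simp [hT]
  have hXr0 : (Polynomial.X ^ r - 1 : Polynomial F) ≠ 0 := by
    have h := (Polynomial.monic_X_pow_sub_C (1 : F) hr0.ne').ne_zero
    simpa using h
  have hgen : ∀ p, p ∈ annIdeal T w₀ ↔
      Submodule.IsPrincipal.generator (annIdeal T w₀) ∣ p :=
    fun p => Submodule.IsPrincipal.mem_iff_generator_dvd _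
  have hgen0 : Submodule.IsPrincipal.generator (annIdeal T w₀) ≠ 0 := by
    intro h0
    have h1 := (hgen _).1 hXr
    rw [h0, zero_dvd_iff] at h1
    exact hXr0 h1
  obtain ⟨g₀, hg₀def⟩ : ∃ g₀ : Polynomial F,
      g₀ = normalize (Submodule.IsPrincipal.generator (annIdeal T w₀)) := ⟨_, rfl⟩
  have hg₀ : ∀ p : Polynomial F, Polynomial.aeval T p w₀ = 0 ↔ g₀ ∣ p := by
    intro p
    rw [← mem_annIdeal, hgen, hg₀def, normalize_dvd_iff]
  have hmonic : g₀.Monic := by
    rw [hg₀def]
    exact Polynomial.monic_normalize hgen0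
  have hg0ne : g₀ ≠ 0 := hmonic.ne_zero
  have hg₀w : Polynomial.aeval T g₀ w₀ = 0 := (hg₀ g₀).2 dvd_rfl
  have hnotunit : ¬ IsUnit g₀ := by
    intro hu
    have h1 : Polynomial.aeval T (1 : Polynomial F) w₀ = 0 := (hg₀ 1).2 hu.dvd
    rw [map_one] at h1
    exact hw₀0 h1
  have hne1 : g₀ ≠ 1 := fun h => hnotunit (h ▸ isUnit_one)
  have hirr : Irreducible g₀ := by
    rw [irreducible_iff]
    refine ⟨hnotunit, ?_⟩
    intro a b hab
    have hinv : ∀ v ∈ M ⊓ LinearMap.ker (Polynomial.aeval T a),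
        T v ∈ M ⊓ LinearMap.ker (Polynomial.aeval T a) := by
      intro v hv
      rw [Submodule.mem_inf] at hv ⊢
      refine ⟨hMinv v hv.1, ?_⟩
      rw [LinearMap.mem_ker, aeval_comm_apply]
      have := hv.2
      rw [LinearMap.mem_ker] at this
      rw [this, map_zero]
    rcases hMmin _ inf_le_left hinv with h | h
    · -- aeval b w₀ is killed by a
      left
      have h1 : Polynomial.aeval T b w₀ ∈ M ⊓ LinearMap.ker (Polynomial.aeval T a) := by
        rw [Submodule.mem_inf]
        refine ⟨aeval_mem_of_inv T M hMinv b w₀ hw₀M, ?_⟩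
        rw [LinearMap.mem_ker, ← Module.End.mul_apply, ← map_mul, ← hab]
        exact hg₀w
      rw [h, Submodule.mem_bot] at h1
      have h2 : g₀ ∣ b := (hg₀ b).1 h1
      exact isUnit_of_dvd_left hg0ne (by rw [mul_comm]; exact hab) h2
    · right
      have h1 : w₀ ∈ M ⊓ LinearMap.ker (Polynomial.aeval T a) := by
        rw [h]
        exact hw₀M
      rw [Submodule.mem_inf] at h1
      have h2 : g₀ ∣ a := (hg₀ a).1 (LinearMap.mem_ker.1 h1.2)
      exact isUnit_of_dvd_left hg0ne hab h2
  have hdvd : g₀ ∣ Polynomial.X ^ r - 1 := (hg₀ _).1 hXr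
  have hli : LinearIndependent F (fun j : Fin g₀.natDegree => (T ^ (j : ℕ)) w₀) := by
    rw [Fintype.linearIndependent_iff]
    intro c hc
    obtain ⟨p, hp⟩ : ∃ p : Polynomial F,
        p = ∑ j : Fin g₀.natDegree, Polynomial.monomial (j : ℕ) (c j) := ⟨_, rfl⟩
    have hpcoeff : ∀ i : Fin g₀.natDegree, p.coeff i = c i := by
      intro i
      rw [hp, Polynomial.finsetSum_coeff]
      rw [Finset.sum_eq_single i]
      · rw [Polynomial.coeff_monomial, if_pos rfl]
      · intro j _ hji
        rw [Polynomial.coeff_monomial, if_neg]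
        exact fun h => hji (Fin.ext h)
      · intro h
        exact absurd (Finset.mem_univ i) h
    have hpdeg : p.degree < (g₀.natDegree : WithBot ℕ) := by
      rw [Polynomial.degree_lt_iff_coeff_zero]
      intro m hm
      rw [hp, Polynomial.finsetSum_coeff]
      apply Finset.sum_eq_zero
      intro j _
      rw [Polynomial.coeff_monomial, if_neg]
      have := j.2
      omega
    have hp0 : Polynomial.aeval T p w₀ = 0 := by
      rw [hp, map_sum, LinearMap.sum_apply, ← hc]
      refine Finset.sum_congr rfl (fun i _ => ?_)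
      rw [Polynomial.aeval_monomial, Module.End.mul_apply, Module.algebraMap_end_apply]
    have hd := (hg₀ p).1 hp0
    have hpz : p = 0 := Polynomial.eq_zero_of_dvd_of_degree_lt hd
      (by rw [Polynomial.degree_eq_natDegree hg0ne]; exact hpdeg)
    intro i
    rw [← hpcoeff i, hpz, Polynomial.coeff_zero]
  refine ⟨w₀, g₀, hmonic, hirr, hdvd, hg₀w, hli, ?_⟩
  -- the span
  obtain ⟨S, hS⟩ : ∃ S : Submodule F V,
      S = Submodule.span F (Set.range (fun j : Fin g₀.natDegree => (T ^ (j : ℕ)) w₀)) := ⟨_, rfl⟩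
  rw [← hS]
  have hSmem : ∀ p : Polynomial F, Polynomial.aeval T p w₀ ∈ S := by
    intro p
    have h1 : Polynomial.aeval T p w₀ = Polynomial.aeval T (p %ₘ g₀) w₀ := by
      conv_lhs => rw [← Polynomial.modByMonic_add_div p g₀]
      rw [map_add, LinearMap.add_apply, mul_comm, map_mul, Module.End.mul_apply, hg₀w, map_zero,
        add_zero]
    rw [h1, aeval_apply_of_natDegree_lt T _ g₀.natDegree
      (Polynomial.natDegree_modByMonic_lt p hmonic hne1), hS]
    refine Submodule.sum_mem _ (fun i _ => ?_)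
    exact Submodule.smul_mem _ _ (Submodule.subset_span ⟨i, rfl⟩)
  have hSle : S ≤ M := by
    rw [hS, Submodule.span_le]
    rintro _ ⟨j, rfl⟩
    exact pow_mem_of_inv T M hMinv _ w₀ hw₀M
  have hSinv : ∀ v ∈ S, T v ∈ S := by
    have h1 : Submodule.map T S ≤ S := by
      rw [hS, Submodule.map_span_le]
      rintro _ ⟨j, rfl⟩
      rw [← hS]
      have h2 := hSmem (Polynomial.X ^ ((j : ℕ) + 1))
      rw [map_pow, Polynomial.aeval_X, pow_succ', Module.End.mul_apply] at h2
      exact h2
    intro v hv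
    exact h1 (Submodule.mem_map_of_mem hv)
  rcases hMmin S hSle hSinv with h | h
  · exfalso
    have h1 := hSmem 1
    rw [map_one, h] at h1
    exact hw₀0 h1
  · exact h

end blk

section main

variable {V : Type*} [AddCommGroup V] [Module F V] [FiniteDimensional F V]

/-- The hand-built reindexing for adjoining one block. -/
def optSigmaEquiv {ι : Type} (g₀ : Polynomial F) (g : ι → Polynomial F) :
    (Fin g₀.natDegree ⊕ ((i : ι) × Fin (g i).natDegree)) ≃
      ((o : Option ι) × Fin ((fun o : Option ι => o.elim g₀ g) o).natDegree) where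
  toFun := Sum.elim (fun j => ⟨none, j⟩) (fun p => ⟨some p.1, p.2⟩)
  invFun := fun p => match p with
    | ⟨none, j⟩ => Sum.inl j
    | ⟨some i, j⟩ => Sum.inr ⟨i, j⟩
  left_inv := by
    rintro (j | ⟨i, j⟩) <;> rfl
  right_inv := by
    rintro ⟨(_ | i), j⟩ <;> rfl

theorem decomp_aux (T : Module.End F V) (r : ℕ) (hr : r.Prime) (hrF : (r : F) ≠ 0)
    (hT : T ^ r = 1) (n : ℕ) :
    ∀ W : Submodule F V, Module.finrank F W = n → (∀ v ∈ W, T v ∈ W) →
    ∃ (ι : Type) (_ : Fintype ι) (w : ι → V) (g : ι → Polynomial F),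
      (∀ s, (g s).Monic ∧ Irreducible (g s) ∧ g s ∣ Polynomial.X ^ r - 1 ∧
        Polynomial.aeval T (g s) (w s) = 0) ∧
      LinearIndependent F
        (fun p : (s : ι) × Fin (g s).natDegree => (T ^ (p.2 : ℕ)) (w p.1)) ∧
      Submodule.span F (Set.range
        (fun p : (s : ι) × Fin (g s).natDegree => (T ^ (p.2 : ℕ)) (w p.1))) = W := by
  induction n using Nat.strong_induction_on with
  | _ n ih =>
    intro W hWn hWinv
    by_cases hW0 : W = ⊥
    · refine ⟨Empty, inferInstance, fun e => e.elim, fun e => e.elim, fun e => e.elim, ?_, ?_⟩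
      · exact linearIndependent_empty_type
      · rw [Set.range_eq_empty, Submodule.span_empty, hW0]
    · obtain ⟨M₀, hM₀W, hM₀0, hM₀inv, hM₀min⟩ :=
        Cfsg.Agent.H99.El.exists_min_invariant T W hWinv hW0
      obtain ⟨w₀, g₀, hmon, hirr, hdvd, hann, hli₀, hspan₀⟩ :=
        block T r hr.pos hT M₀ hM₀0 hM₀inv hM₀min
      obtain ⟨U, hUinv, hc⟩ := Cfsg.Agent.H4.El.exists_invariant_compl T r hrF hT M₀ hM₀inv
      have hW'inv : ∀ v ∈ W ⊓ U, T v ∈ W ⊓ U := by
        intro v hv
        rw [Submodule.mem_inf] at hv ⊢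
        exact ⟨hWinv v hv.1, hUinv v hv.2⟩
      have hW'lt : W ⊓ U < W := by
        refine lt_of_le_of_ne inf_le_left ?_
        intro h
        have h1 : M₀ ≤ U := by
          have : M₀ ≤ W ⊓ U := by rw [h]; exact hM₀W
          exact this.trans inf_le_right
        have h2 : M₀ ≤ M₀ ⊓ U := le_inf le_rfl h1
        rw [hc.inf_eq_bot, le_bot_iff] at h2
        exact hM₀0 h2
      have hlt : Module.finrank F ↥(W ⊓ U) < n := by
        rw [← hWn]
        exact Submodule.finrank_lt_finrank_of_lt hW'lt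
      obtain ⟨ι, hι, w, g, hprops, hli, hspan⟩ := ih _ hlt (W ⊓ U) rfl hW'inv
      have hsup : M₀ ⊔ W ⊓ U = W := by
        rw [inf_comm, ← sup_inf_assoc_of_le U hM₀W, hc.sup_eq_top, top_inf_eq]
      refine ⟨Option ι, inferInstance, fun o => o.elim w₀ w, fun o => o.elim g₀ g, ?_, ?_, ?_⟩
      · rintro (_ | i)
        · exact ⟨hmon, hirr, hdvd, hann⟩
        · exact hprops i
      · have hcomp : (fun p : (o : Option ι) × Fin ((fun o : Option ι => o.elim g₀ g) o).natDegree
            => (T ^ (p.2 : ℕ)) ((fun o : Option ι => o.elim w₀ w) p.1)) ∘ (optSigmaEquiv g₀ g) =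
            Sum.elim (fun j : Fin g₀.natDegree => (T ^ (j : ℕ)) w₀)
              (fun p : (s : ι) × Fin (g s).natDegree => (T ^ (p.2 : ℕ)) (w p.1)) := by
          funext x
          rcases x with j | ⟨i, j⟩ <;> rfl
        have h1 := LinearIndependent.sum_type hli₀ hli
          (by rw [hspan₀, hspan]; exact hc.disjoint.mono_right inf_le_right)
        rw [← hcomp] at h1
        exact (linearIndependent_equiv (optSigmaEquiv g₀ g)).1 h1
      · have hcomp : (fun p : (o : Option ι) × Fin ((fun o : Option ι => o.elim g₀ g) o).natDegree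
            => (T ^ (p.2 : ℕ)) ((fun o : Option ι => o.elim w₀ w) p.1)) ∘ (optSigmaEquiv g₀ g) =
            Sum.elim (fun j : Fin g₀.natDegree => (T ^ (j : ℕ)) w₀)
              (fun p : (s : ι) × Fin (g s).natDegree => (T ^ (p.2 : ℕ)) (w p.1)) := by
          funext x
          rcases x with j | ⟨i, j⟩ <;> rfl
        have h2 := (optSigmaEquiv g₀ g).surjective.range_comp
          (fun p : (o : Option ι) × Fin ((fun o : Option ι => o.elim g₀ g) o).natDegree
            => (T ^ (p.2 : ℕ)) ((fun o : Option ι => o.elim w₀ w) p.1))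
        rw [hcomp, Set.Sum.elim_range] at h2
        show Submodule.span F (Set.range
          (fun p : (o : Option ι) × Fin ((fun o : Option ι => o.elim g₀ g) o).natDegree
            => (T ^ (p.2 : ℕ)) ((fun o : Option ι => o.elim w₀ w) p.1))) = W
        rw [← h2, Submodule.span_union, hspan₀, hspan, hsup]

theorem exists_cyclic_decomposition (T : Module.End F V) (r : ℕ) (hr : r.Prime)
    (hrF : (r : F) ≠ 0) (hT : T ^ r = 1) :
    ∃ (m : ℕ) (w : Fin m → V) (g : Fin m → Polynomial F),
      (∀ s, (g s).Monic ∧ Irreducible (g s) ∧ g s ∣ Polynomial.X ^ r - 1 ∧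
        Polynomial.aeval T (g s) (w s) = 0) ∧
      LinearIndependent F
        (fun p : (s : Fin m) × Fin (g s).natDegree => (T ^ (p.2 : ℕ)) (w p.1)) ∧
      Submodule.span F (Set.range
        (fun p : (s : Fin m) × Fin (g s).natDegree => (T ^ (p.2 : ℕ)) (w p.1))) = ⊤ := by
  obtain ⟨ι, hι, w, g, hprops, hli, hspan⟩ :=
    decomp_aux T r hr hrF hT _ ⊤ rfl (fun v _ => Submodule.mem_top)
  obtain ⟨e⟩ : Nonempty (Fin (Fintype.card ι) ≃ ι) := ⟨(Fintype.equivFin ι).symm⟩
  have hcomp : (fun p : (s : ι) × Fin (g s).natDegree => (T ^ (p.2 : ℕ)) (w p.1)) ∘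
      (Equiv.sigmaCongrLeft (β := fun i : ι => Fin (g i).natDegree) e) =
      (fun p : (s : Fin (Fintype.card ι)) × Fin (g (e s)).natDegree =>
        (T ^ (p.2 : ℕ)) (w (e p.1))) := by
    funext x
    rcases x with ⟨s, j⟩
    rfl
  refine ⟨Fintype.card ι, fun s => w (e s), fun s => g (e s), fun s => hprops (e s), ?_, ?_⟩
  · show LinearIndependent F (fun p : (s : Fin (Fintype.card ι)) × Fin (g (e s)).natDegree =>
        (T ^ (p.2 : ℕ)) (w (e p.1)))
    rw [← hcomp]
    exact (linearIndependent_equiv _).2 hli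
  · show Submodule.span F (Set.range
      (fun p : (s : Fin (Fintype.card ι)) × Fin (g (e s)).natDegree =>
        (T ^ (p.2 : ℕ)) (w (e p.1)))) = ⊤
    rw [← hcomp, (Equiv.sigmaCongrLeft (β := fun i : ι => Fin (g i).natDegree) e).surjective.range_comp]
    exact hspan

end main

end Cfsg.Agent.H61.Sub
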