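import Cfsg.Agent.H61.TmExDefs
import Cfsg.Agent.H49.InvOmega
import Cfsg.Agent.H3.TiCycSet
import Cfsg.Agent.H72.TiSpread
import Cfsg.Agent.H60.OtCommon

/-!
# S5987-EXEVEN (helper61, for helper77): assembly

`exEvenCore`: from the sub-pieces `StModAll`, `StModFix`, `StTypeV`, `StTransM`, `StTransG`
(statements in `Cfsg.Agent.H61.TmExDefs`) to `Cfsg.Agent.H77.Tm.StExEven`.
-/

set_option autoImplicit false
open scoped MatrixGroups
open scoped Matrix

namespace Cfsg.Agent.H61.Tm

open Cfsg.Agent.H45 Cfsg.Agent.H42.Spd Cfsg.Agent.H42.Ti Cfsg.Agent.H77.Tq Cfsg.Agent.H77.Tm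
  Module Polynomial

universe u

/-- A scalar isometry of odd prime order of a nonzero nondegenerate quadratic space is `1`. -/
theorem scal_eq_one {F : Type u} [Field F] {V : Type u} [AddCommGroup V] [Module F V]
    [FiniteDimensional F V] {r : ℕ} {Q : QuadraticForm F V} {g : Module.End F V}
    (h : QCtx r Q g) (hV : 0 < Module.finrank F V) (z : F)
    (hg : g = z • (1 : Module.End F V)) : z = 1 := by
  obtain ⟨v, hv⟩ : ∃ v : V, v ≠ 0 := by
    have : Nontrivial V := Module.finrank_pos_iff.mp hV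
    exact exists_ne 0
  have h1 : z ^ r = 1 := by
    have h0 := congrArg (fun f : Module.End F V => f v) h.pow
    rw [hg, _root_.smul_pow, one_pow] at h0
    simp only [LinearMap.smul_apply, Module.End.one_apply] at h0
    by_contra hne
    have h3 : (z ^ r - 1) • v = 0 := by rw [sub_smul, one_smul, h0, sub_self]
    rcases smul_eq_zero.mp h3 with h4 | h4
    · exact hne (sub_eq_zero.mp h4)
    · exact hv h4
  obtain ⟨w, hw⟩ : ∃ w : V, Q w ≠ 0 := by
    by_contra hcon
    push Not at hcon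
    apply hv
    apply h.nondeg v
    intro y
    simp [QuadraticMap.polar, hcon]
  have h2 : z * z = 1 := by
    have h0 := h.isom w
    rw [hg, LinearMap.smul_apply, Module.End.one_apply, QuadraticMap.map_smul, smul_eq_mul] at h0
    have h3 : (z * z - 1) * Q w = 0 := by linear_combination h0
    rcases mul_eq_zero.mp h3 with h4 | h4
    · exact sub_eq_zero.mp h4
    · exact absurd h4 hw
  have hodd : Odd r := h.prime.eq_two_or_odd'.resolve_left h.ne_two
  obtain ⟨t, ht⟩ := hodd
  have h3 : z ^ r = z := by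
    rw [ht, pow_succ, pow_mul, sq, h2, one_pow, one_mul]
  rw [h3] at h1
  exact h1

/-- The common part of the two cases of `exEvenCore`: the trivial summand `(C, QC)` has the type
prescribed by the parity of `A`. -/
theorem exEven_aux (hFix : StModFix.{u}) (hTV : StTypeV.{u}) (hTM : StTransM.{u})
    (hTG : StTransG.{u})
    (F : Type u) [Field F] [Fintype F] (k : ℕ) (a b : F) (r : ℕ) (hab : Aniso a b) (hk : 2 ≤ k)
    (hev : Even (ii F r)) (hipos : 0 < ii F r)
    (Φs : Finset F[X]) (heval : ∀ φ ∈ Φs, φ.eval 1 ≠ 0) (A e : ℕ) (mult : F[X] → ℕ)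
    (hdim : ii F r * A + 2 * e = 2 * k + 2) (hA : 1 ≤ A)
    (hM : ModelQ F r (ii F r * A) 0 Φs (fun φ => ii F r * mult φ))
    (C : Type u) [AddCommGroup C] [Module F C] [FiniteDimensional F C] (QC : QuadraticForm F C)
    (hCnd : ∀ x, (∀ y, QuadraticMap.polar ⇑QC x y = 0) → x = 0)
    (hCdim : Module.finrank F C = 2 * e)
    (hCodd : Odd A → ∃ L₀ : Submodule F C, TS QC L₀ ∧ Module.finrank F ↥L₀ = e)
    (hCeven : Even A → ∀ L₀ : Submodule F C, TS QC L₀ → Module.finrank F ↥L₀ < e) :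
    ∃ x : GL (MI k) F, x ∈ Cfsg.Geo.omegaGL (Cfsg.quadFormMinus k F a b) ∧ x ^ r = 1 ∧
      fixDim k x + ii F r * A = 2 * k + 2 ∧
      (∀ z : F, (x : Matrix (MI k) (MI k) F) ≠ z • (1 : Matrix (MI k) (MI k) F)) ∧
      ∀ φ ∈ Φs, Module.finrank F ↥(LinearMap.ker
        (aeval (Matrix.toLin' (x : Matrix (MI k) (MI k) F)) φ)) = ii F r * mult φ := by
  obtain ⟨V, _, _, _, Q, g, j, hctx, hVdim, hjinj, hjrange, hjQ, hker⟩ :=
    hFix F r (ii F r * A) Φs _ C QC heval hM hCnd
  have hkerdim : Module.finrank F ↥(LinearMap.ker (g - 1)) = 2 * e := by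
    rw [← hjrange, LinearMap.finrank_range_of_inj hjinj, hCdim]
  have hrangedim : Module.finrank F ↥(LinearMap.range (g - 1)) = ii F r * A := by
    have h0 := LinearMap.finrank_range_add_finrank_ker (g - 1)
    rw [hkerdim, hVdim, hCdim] at h0
    omega
  have hVdim' : Module.finrank F V = 2 * (k + 1) := by rw [hVdim, hCdim]; omega
  have hts : ∀ U : Submodule F V, TS Q U → Module.finrank F ↥U < k + 1 := by
    apply hTV F V r Q g hctx hev A (k + 1) e hrangedim hkerdim hVdim'
    · intro hodd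
      obtain ⟨L₀, hL₀, hL₀dim⟩ := hCodd hodd
      refine ⟨L₀.map j, ?_, ?_, ?_⟩
      · rw [← hjrange]
        exact LinearMap.map_le_range
      · rintro _ ⟨c, hc, rfl⟩
        rw [hjQ]
        exact hL₀ c hc
      · rw [← hL₀dim]
        exact (Submodule.equivMapOfInjective j hjinj L₀).finrank_eq.symm
    · intro heven L hL hLts
      have h1 : TS QC (L.comap j) := by
        intro c hc
        rw [← hjQ]
        exact hLts _ hc
      have h2 := hCeven heven _ h1
      have h3 : (L.comap j).map j = L := by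
        rw [Submodule.map_comap_eq, inf_eq_right, hjrange]
        exact hL
      have h4 : Module.finrank F ↥L = Module.finrank F ↥(L.comap j) := by
        conv_lhs => rw [← h3]
        exact (Submodule.equivMapOfInjective j hjinj _).finrank_eq.symm
      omega
  obtain ⟨ε, hε⟩ := hTM F k a b V Q hab (by rw [hVdim']; ring) hctx.nondeg hts
  obtain ⟨x, hxΩ, hxr, -, hxfix, hxker, hxscal⟩ := hTG F k a b r V Q g ε hab hk hctx hε
  refine ⟨x, hxΩ, hxr, ?_, ?_, ?_⟩
  · rw [hxfix, hkerdim]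
    omega
  · intro z hz
    have hg := hxscal z hz
    have hz1 : z = 1 := scal_eq_one hctx (by rw [hVdim']; omega) z hg
    rw [hz1, one_smul] at hg
    have h0 : LinearMap.ker (g - 1) = ⊤ := by
      rw [hg, sub_self]
      exact LinearMap.ker_zero
    rw [h0, finrank_top, hVdim'] at hkerdim
    have h5 : 0 < ii F r * A := Nat.mul_pos hipos hA
    omega
  · intro φ hφ
    rw [hxker φ, hker φ hφ]

/-- S5987-EXEVEN from the sub-pieces. -/
theorem exEvenCore (hAll : StModAll.{u}) (hFix : StModFix.{u}) (hTV : StTypeV.{u})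
    (hTM : StTransM.{u}) (hTG : StTransG.{u}) : StExEven.{u} := by
  intro F _ _ p _ _ k a b r hab hk hr hr2 hrp hev Φs hΦ A hA hAodd hAeven
  classical
  have hrF : (r : F) ≠ 0 := by
    intro h
    have h1 := (CharP.cast_eq_zero_iff F p r).mp h
    exact hrp ((Nat.prime_dvd_prime_iff_eq Fact.out hr).mp h1).symm
  have hipos : 0 < ii F r := Cfsg.Agent.H60.Ot.ot_ii_pos r hr hrF
  obtain ⟨h, hh⟩ : ∃ h, ii F r = 2 * h := by
    obtain ⟨c, hc⟩ := hev
    exact ⟨c, by omega⟩
  have hdiv : ii F r / 2 = h := by omega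
  rw [hdiv] at hAodd hAeven
  obtain ⟨-, hcyc⟩ := Cfsg.Agent.H3.Ti.cycSet F r hr hrF
  obtain ⟨hcard, -, -⟩ := hcyc Φs hΦ
  have hcard' : (r - 1) / ii F r = Φs.card := Nat.div_eq_of_eq_mul_left hipos hcard.symm
  have hΦpos : 0 < Φs.card := by
    rcases Nat.eq_zero_or_pos Φs.card with h0 | h0
    · rw [h0, zero_mul] at hcard
      have := hr.two_le
      omega
    · exact h0
  obtain ⟨mult, hsum, hhalf⟩ := Cfsg.Agent.H72.Ti.tiSpread F[X] Φs A hΦpos
  have hM := hAll F p r hr hr2 hrp hev a b hab Φs hΦ mult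
  rw [hsum] at hM
  have heval : ∀ φ ∈ Φs, φ.eval 1 ≠ 0 := by
    intro φ hφ h0
    obtain ⟨-, -, hdvd⟩ := (hΦ φ).mp hφ
    have h1 : (cyclotomic r F).eval 1 = 0 := by
      obtain ⟨c, hc⟩ := hdvd
      rw [hc, eval_mul, h0, zero_mul]
    have : Fact r.Prime := ⟨hr⟩
    rw [eval_one_cyclotomic_prime] at h1
    exact hrF h1
  have hiA : ii F r * A = 2 * (h * A) := by rw [hh, mul_assoc]
  have hd : a ^ 2 - 4 * b ≠ 0 := Cfsg.Agent.H49.disc_ne_zero_of_aniso a b hab
  -- the element
  have key : ∃ x : GL (MI k) F, x ∈ Cfsg.Geo.omegaGL (Cfsg.quadFormMinus k F a b) ∧ x ^ r = 1 ∧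
      fixDim k x + ii F r * A = 2 * k + 2 ∧
      (∀ z : F, (x : Matrix (MI k) (MI k) F) ≠ z • (1 : Matrix (MI k) (MI k) F)) ∧
      ∀ φ ∈ Φs, Module.finrank F ↥(LinearMap.ker
        (aeval (Matrix.toLin' (x : Matrix (MI k) (MI k) F)) φ)) = ii F r * mult φ := by
    rcases Nat.even_or_odd A with hAe | hAo
    · -- `A` even: the trivial summand is of minus type
      have hle := hAeven hAe
      obtain ⟨e', he'⟩ : ∃ e', k + 1 - h * A = e' + 1 := ⟨k - h * A, by omega⟩
      refine exEven_aux hFix hTV hTM hTG F k a b r hab (by omega) hev hipos Φs heval A (e' + 1)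
        mult (by omega) hA hM (MI e' → F) (Cfsg.Agent.H49.QMin e' F a b) ?_ ?_ ?_ ?_
      · intro x hx
        exact (Cfsg.Agent.H49.QMin_nondeg e' a b hd).1 x hx
      · exact Cfsg.Agent.H49.finrank_minus e'
      · intro hAo
        exact absurd hAe (Nat.not_even_iff_odd.mpr hAo)
      · intro _ L₀ hL₀
        exact Nat.lt_succ_of_le (Cfsg.Agent.H49.QMin_ts_le e' a b hab hd L₀ hL₀)
    · -- `A` odd: the trivial summand is of plus type
      have hle := hAodd hAo
      refine exEven_aux hFix hTV hTM hTG F k a b r hab (by omega) hev hipos Φs heval A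
        (k + 1 - h * A) mult (by omega) hA hM (Fin (k + 1 - h * A) ⊕ Fin (k + 1 - h * A) → F)
        (Cfsg.Agent.H49.QP (k + 1 - h * A) F) ?_ ?_ ?_ ?_
      · intro x hx
        exact (Cfsg.Agent.H49.QP_nondeg (k + 1 - h * A) F).1 x hx
      · exact Cfsg.Agent.H49.finrank_plus (k + 1 - h * A) F
      · intro _
        exact ⟨Cfsg.Agent.H49.U0 (k + 1 - h * A) F, Cfsg.Agent.H49.U0_ts (k + 1 - h * A) F,
          Cfsg.Agent.H49.finrank_U0 (k + 1 - h * A) F⟩
      · intro hAe
        exact absurd hAe (Nat.not_even_iff_odd.mpr hAo)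
  obtain ⟨x, hxΩ, hxr, hxfix, hxscal, hxker⟩ := key
  refine ⟨x, hxΩ, hxr, hxfix, hxscal, ?_⟩
  rw [hcard']
  refine le_trans (le_of_eq ?_) hhalf
  unfold sDim
  apply Finset.sum_congr rfl
  intro φ hφ
  rw [hxker φ hφ, mul_comm 2 (ii F r), Nat.mul_div_mul_left _ _ hipos]

end Cfsg.Agent.H61.Tm

#print axioms Cfsg.Agent.H61.Tm.exEvenCore
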