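import Cfsg.Agent.H61.TmExDefs
import Cfsg.Agent.H49.StdBasis
import Cfsg.Agent.H49.MinusForm

/-!
# S5987-EXEVEN piece TMX-TRANSM (helper61): a quadratic space of dimension `2 k + 2` without
totally singular subspaces of dimension `k + 1` is isometric to the standard minus space
-/

set_option autoImplicit false
open scoped Matrix

namespace Cfsg.Agent.H61.Tm

open Cfsg.Agent.H45 Cfsg.Agent.H42.Spd Cfsg.Agent.H42.Ti Cfsg.Agent.H77.Tq Cfsg.Agent.H77.Tm
  Module Polynomial

universe u

/-- Two quadratic forms with the same values and the same polar values on a basis are equal. -/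
theorem quad_ext_basis {F : Type*} [Field F] {V : Type*} [AddCommGroup V] [Module F V]
    {ι : Type*} [Fintype ι] (b : Basis ι F V) (Q Q' : QuadraticForm F V)
    (h1 : ∀ i, Q (b i) = Q' (b i))
    (h2 : ∀ i j, QuadraticMap.polar ⇑Q (b i) (b j) = QuadraticMap.polar ⇑Q' (b i) (b j))
    (v : V) : Q v = Q' v := by
  classical
  have hB : QuadraticMap.polarBilin Q = QuadraticMap.polarBilin Q' := by
    apply b.ext
    intro i
    apply b.ext
    intro j
    exact h2 i j
  have hpol : ∀ x y, QuadraticMap.polar ⇑Q x y = QuadraticMap.polar ⇑Q' x y := by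
    intro x y
    have h0 := congrArg (fun B : LinearMap.BilinMap F V F => B x y) hB
    simpa using h0
  have key : ∀ (s : Finset ι) (c : ι → F),
      Q (∑ i ∈ s, c i • b i) = Q' (∑ i ∈ s, c i • b i) := by
    intro s c
    induction s using Finset.induction_on with
    | empty => simp
    | insert i s hi ih =>
      rw [Finset.sum_insert hi, QuadraticMap.map_add Q, QuadraticMap.map_add Q', ih, hpol,
        QuadraticMap.map_smul, QuadraticMap.map_smul, h1]
  have h0 := key Finset.univ (fun i => b.repr v i)
  rwa [b.sum_repr] at h0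

section Std

variable {F : Type u} [Field F]

/-- The polar form of the standard minus form. -/
theorem polar_QMin (n : ℕ) (a b : F) (x y : MI n → F) :
    QuadraticMap.polar (⇑(Cfsg.Agent.H49.QMin n F a b)) x y
      = ∑ i : Fin n, (x (Sum.inl (Sum.inl i)) * y (Sum.inl (Sum.inr i))
          + y (Sum.inl (Sum.inl i)) * x (Sum.inl (Sum.inr i)))
        + (2 * x (Sum.inr 0) * y (Sum.inr 0)
          + a * (x (Sum.inr 0) * y (Sum.inr 1) + x (Sum.inr 1) * y (Sum.inr 0))
          + 2 * b * x (Sum.inr 1) * y (Sum.inr 1)) := by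
  unfold Cfsg.Agent.H49.QMin
  rw [Cfsg.Agent.H49.polar_sumQ, Cfsg.Agent.H49.polar_QP, Cfsg.Agent.H49.polar_binQ]
  rfl

theorem QMin_eq (n : ℕ) (a b : F) (x : MI n → F) :
    Cfsg.Agent.H49.QMin n F a b x
      = ∑ i : Fin n, x (Sum.inl (Sum.inl i)) * x (Sum.inl (Sum.inr i))
        + (x (Sum.inr 0) ^ 2 + a * x (Sum.inr 0) * x (Sum.inr 1) + b * x (Sum.inr 1) ^ 2) := rfl

/-- A span of pairwise polar-orthogonal singular vectors is totally singular. -/
theorem ts_span {V : Type u} [AddCommGroup V] [Module F V] (Q : QuadraticForm F V) {ι : Type*}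
    (w : ι → V) (h1 : ∀ i, Q (w i) = 0) (h2 : ∀ i j, QuadraticMap.polar ⇑Q (w i) (w j) = 0) :
    TS Q (Submodule.span F (Set.range w)) := by
  have hU1 : ∀ x ∈ Submodule.span F (Set.range w), ∀ j, QuadraticMap.polar ⇑Q x (w j) = 0 := by
    intro x hx j
    induction hx using Submodule.span_induction with
    | mem x hx =>
      obtain ⟨i, rfl⟩ := hx
      exact h2 i j
    | zero => simp
    | add x y _ _ hx hy => rw [QuadraticMap.polar_add_left, hx, hy, add_zero]
    | smul c x _ hx => rw [QuadraticMap.polar_smul_left, hx, smul_zero]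
  have hU2 : ∀ x ∈ Submodule.span F (Set.range w), ∀ y ∈ Submodule.span F (Set.range w),
      QuadraticMap.polar ⇑Q x y = 0 := by
    intro x hx y hy
    induction hy using Submodule.span_induction with
    | mem y hy =>
      obtain ⟨j, rfl⟩ := hy
      exact hU1 x hx j
    | zero => simp
    | add y z _ _ hy hz => rw [QuadraticMap.polar_add_right, hy, hz, add_zero]
    | smul c y _ hy => rw [QuadraticMap.polar_smul_right, hy, smul_zero]
  intro x hx
  induction hx using Submodule.span_induction with
  | mem x hx =>
    obtain ⟨i, rfl⟩ := hx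
    exact h1 i
  | zero => simp
  | add x y hx hy ihx ihy => rw [QuadraticMap.map_add Q, ihx, ihy, hU2 x hx y hy]; simp
  | smul c x _ ihx => rw [QuadraticMap.map_smul, ihx, smul_zero]

/-- The substitution `(z₁, z₂) ↦ (z₁ + u z₂, v z₂)` on the last two coordinates. -/
noncomputable def subst (n : ℕ) (u v : F) : (MI n → F) →ₗ[F] (MI n → F) :=
  LinearMap.pi (Sum.elim (fun t => LinearMap.proj (Sum.inl t))
    (fun s => if s = 0 then LinearMap.proj (Sum.inr 0) + u • LinearMap.proj (Sum.inr 1)
      else v • LinearMap.proj (Sum.inr 1)))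

theorem subst_inl (n : ℕ) (u v : F) (c : MI n → F) (t : Fin n ⊕ Fin n) :
    subst n u v c (Sum.inl t) = c (Sum.inl t) := by
  simp [subst]

theorem subst_zero (n : ℕ) (u v : F) (c : MI n → F) :
    subst n u v c (Sum.inr 0) = c (Sum.inr 0) + u * c (Sum.inr 1) := by
  simp [subst]

theorem subst_one (n : ℕ) (u v : F) (c : MI n → F) :
    subst n u v c (Sum.inr 1) = v * c (Sum.inr 1) := by
  simp [subst]

theorem subst_injective (n : ℕ) (u v : F) (hv : v ≠ 0) : Function.Injective (subst n u v) := by
  rw [← LinearMap.ker_eq_bot, LinearMap.ker_eq_bot']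
  intro c hc
  have h1 : c (Sum.inr 1) = 0 := by
    have h0 := congrFun hc (Sum.inr 1)
    rw [subst_one] at h0
    exact (mul_eq_zero.mp h0).resolve_left hv
  funext i
  rcases i with t | s
  · have h0 := congrFun hc (Sum.inl t)
    rwa [subst_inl] at h0
  · fin_cases s
    · have h0 := congrFun hc (Sum.inr 0)
      rw [subst_zero, h1, mul_zero, add_zero] at h0
      exact h0
    · exact h1

theorem QMin_single (n : ℕ) (a b : F) (i : MI n) :
    Cfsg.Agent.H49.QMin n F a b (Pi.single i 1)
      = Sum.elim (fun _ => 0) (fun s : Fin 2 => if s = 0 then 1 else b) i := by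
  rw [QMin_eq]
  rcases i with (i | i) | s
  · simp [Pi.single_apply]
  · simp [Pi.single_apply]
  · fin_cases s
    · simp [Pi.single_apply]
    · simp [Pi.single_apply]

end Std

theorem transM_aux (hIso : StAnisoIso.{u}) (F : Type u) [Field F] [Fintype F] (m : ℕ) (a b : F)
    (V : Type u) [AddCommGroup V] [Module F V] [FiniteDimensional F V] (Q : QuadraticForm F V)
    (hab : Aniso a b) (hdim : Module.finrank F V = 2 * m)
    (hnd : ∀ x, (∀ y, QuadraticMap.polar ⇑Q x y = 0) → x = 0)
    (hts : ∀ U : Submodule F V, TS Q U → Module.finrank F ↥U < m) :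
    ∃ e : V ≃ₗ[F] (MI (m - 1) → F), ∀ v, Cfsg.quadFormMinus (m - 1) F a b (e v) = Q v := by
  classical
  have hQ : (QuadraticMap.polarBilin Q).Nondegenerate :=
    ⟨fun x hx => hnd x hx, fun y hy => hnd y (fun x => by
      rw [QuadraticMap.polar_comm]
      exact hy x)⟩
  rcases Cfsg.Agent.H49.even_standard_basis hdim Q hQ with
    ⟨bb, h1, h2, h3⟩ | ⟨bb, ζ, hζ, h1, h2, h3, h4, h5, h6, h7⟩
  · exfalso
    have hU := ts_span Q (fun i : Fin m => bb (Sum.inl i)) (fun i => (h1 i).1)
      (fun i j => (h3 i j).1)
    have hli : LinearIndependent F (fun i : Fin m => bb (Sum.inl i)) :=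
      bb.linearIndependent.comp _ Sum.inl_injective
    have hfr := finrank_span_eq_card hli
    rw [Fintype.card_fin] at hfr
    have h0 := hts _ hU
    omega
  · have hab1 : Aniso (1 : F) ζ := by
      intro x y hxy
      by_cases hy : y = 0
      · subst hy
        simp at hxy
        exact ⟨hxy, rfl⟩
      · exfalso
        apply hζ (x / y)
        field_simp
        linear_combination hxy
    obtain ⟨u, v, hv, hI⟩ := hIso F 1 ζ a b hab1 hab
    have hsingle : ∀ i, (bb.equivFun : V →ₗ[F] (MI (m - 1) → F)) (bb i) = Pi.single i 1 := by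
      intro i
      funext j
      rw [LinearEquiv.coe_coe, Basis.equivFun_self, Pi.single_apply]
      simp [eq_comm]
    have hQS : ∀ x, Q x = Cfsg.Agent.H49.QMin (m - 1) F 1 ζ (bb.equivFun x) := by
      intro x
      have h0 := quad_ext_basis bb Q ((Cfsg.Agent.H49.QMin (m - 1) F 1 ζ).comp
        (bb.equivFun : V →ₗ[F] (MI (m - 1) → F))) ?_ ?_ x
      · simpa using h0
      · intro i
        rw [QuadraticMap.comp_apply, hsingle, QMin_single]
        rcases i with (i | i) | s
        · exact (h1 i).1
        · exact (h1 i).2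
        · fin_cases s
          · simpa using h5
          · simpa using h7
      · intro i j
        have hc : QuadraticMap.polar
            ⇑((Cfsg.Agent.H49.QMin (m - 1) F 1 ζ).comp
              (bb.equivFun : V →ₗ[F] (MI (m - 1) → F))) (bb i) (bb j)
            = QuadraticMap.polar ⇑(Cfsg.Agent.H49.QMin (m - 1) F 1 ζ)
              (Pi.single i 1) (Pi.single j 1) := by
          simp only [QuadraticMap.polar, QuadraticMap.comp_apply]
          rw [map_add, hsingle, hsingle]
        rw [hc, polar_QMin]
        rcases i with (i | i) | s <;> rcases j with (j | j) | s'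
        · rw [(h3 i j).1]
          simp [Pi.single_apply]
        · rw [h2 i j]
          simp [Pi.single_apply, eq_comm]
        · rw [(h4 i s').1]
          simp [Pi.single_apply]
        · rw [QuadraticMap.polar_comm, h2 j i]
          simp [Pi.single_apply, eq_comm]
        · rw [(h3 i j).2]
          simp [Pi.single_apply]
        · rw [(h4 i s').2]
          simp [Pi.single_apply]
        · rw [QuadraticMap.polar_comm, (h4 j s).1]
          simp [Pi.single_apply]
        · rw [QuadraticMap.polar_comm, (h4 j s).2]
          simp [Pi.single_apply]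
        · fin_cases s <;> fin_cases s'
          · simp only [Fin.zero_eta]
            rw [QuadraticMap.polar_self, h5]
            simp [Pi.single_apply]
          · simp only [Fin.zero_eta, Fin.mk_one]
            rw [h6]
            simp [Pi.single_apply]
          · simp only [Fin.zero_eta, Fin.mk_one]
            rw [QuadraticMap.polar_comm, h6]
            simp [Pi.single_apply]
          · simp only [Fin.mk_one]
            rw [QuadraticMap.polar_self, h7]
            simp [Pi.single_apply]
    refine ⟨bb.equivFun.trans (LinearEquiv.ofInjectiveEndo (subst (m - 1) u v)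
      (subst_injective (m - 1) u v hv)), ?_⟩
    intro x
    rw [hQS x, LinearEquiv.trans_apply, LinearEquiv.coe_ofInjectiveEndo]
    generalize bb.equivFun x = c
    rw [QMin_eq]
    unfold Cfsg.quadFormMinus
    rw [subst_zero, subst_one]
    simp only [subst_inl]
    have h0 := hI (c (Sum.inr 0)) (c (Sum.inr 1))
    linear_combination -h0

/-- TMX-TRANSM. -/
theorem transM (_hStd : StAnisoStd.{u,u}) (hIso : StAnisoIso.{u}) : StTransM.{u} := by
  intro F _ _ k a b V _ _ _ Q hab hdim hnd hts
  exact transM_aux hIso F (k + 1) a b V Q hab (by rw [hdim]; ring) hnd hts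

example (hStd : StAnisoStd.{u,u}) (hIso : StAnisoIso.{u}) : StTransM.{u} := transM hStd hIso

end Cfsg.Agent.H61.Tm

#print axioms Cfsg.Agent.H61.Tm.transM
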