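import Cfsg.Agent.H61.TmExEven
import Cfsg.Agent.H61.TmXTransM
import Cfsg.Agent.H8.TmXAll
import Cfsg.Agent.H8.TmXTransG
import Cfsg.Agent.H27.TmXBlockOne
import Cfsg.Agent.H79.TmXSum
import Cfsg.Agent.H79.TmXFix
import Cfsg.Agent.H79.TmXPowers
import Cfsg.Agent.H63.TmXTypeV
import Cfsg.Agent.H63.TmXBlockEx
import Cfsg.Agent.H86.OtHalf

/-!
# S5987-EXEVEN (helper61, for helper77): final wiring of the sub-pieces

Pieces: helper27 (BLOCKONE), helper79 (POWERS, SUM, FIX), helper63 (BLOCKEX, TYPEV),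
helper8 (ALL, TRANSG), helper61 (TRANSM, assembly).
-/

set_option autoImplicit false

namespace Cfsg.Agent.H61.Tm

open Cfsg.Agent.H45 Cfsg.Agent.H42.Spd Cfsg.Agent.H42.Ti Cfsg.Agent.H77.Tq Cfsg.Agent.H77.Tm
  Module Polynomial

universe u

/-- One block of every type (hypothesis-free). -/
theorem blockExClosed : StBlockEx.{u} :=
  Cfsg.Agent.H63.Tm.blockEx Cfsg.Agent.H27.Tm.blockOne Cfsg.Agent.H79.Tm.powers

/-- Fixed-point-free quadratic models with arbitrary multiplicities (hypothesis-free). -/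
theorem modAllClosed : StModAll.{u} :=
  Cfsg.Agent.H8.Tm.modAll blockExClosed Cfsg.Agent.H79.Tm.modSum

/-- S5987-EXEVEN: only Props of `Cfsg.Agent.H77.TmDefs2` remain as hypotheses. -/
theorem exEven (hStd : StAnisoStd.{u,u}) (hIso : StAnisoIso.{u}) (hOdd : StOddMemAll.{u})
    (hQS : StQStruct.{u,u}) (hTU : StTypeU.{u,u}) (hCP : StComplPlus.{u,u}) : StExEven.{u} :=
  exEvenCore modAllClosed Cfsg.Agent.H79.Tm.modFix
    (Cfsg.Agent.H63.Tm.typeV hQS hTU hCP Cfsg.Agent.H86.Ot.oHalf)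
    (transM hStd hIso) (Cfsg.Agent.H8.Tm.transG hOdd)

example (hStd : StAnisoStd.{u,u}) (hIso : StAnisoIso.{u}) (hOdd : StOddMemAll.{u})
    (hQS : StQStruct.{u,u}) (hTU : StTypeU.{u,u}) (hCP : StComplPlus.{u,u}) :
    Cfsg.Agent.H77.Tm.StExEven.{u} := exEven hStd hIso hOdd hQS hTU hCP

end Cfsg.Agent.H61.Tm

#print axioms Cfsg.Agent.H61.Tm.exEven
#print axioms Cfsg.Agent.H61.Tm.modAllClosed
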