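import Mathlib
import Cfsg.Agent.H81.TypePDefs
import Cfsg.Agent.H4.Chars
import Cfsg.Agent.H4.BrauerBasic
import Cfsg.Agent.H32.SNC

/-!
helper61: piece DEG of S1511 (helper81's project): a signed irreducible character which
agrees with a linear character on `W₁ \ {1}` has degree `≡ 1` modulo `|W₁|`.
-/

set_option autoImplicit false
set_option linter.unusedSectionVars false
set_option linter.unusedVariables false
set_option linter.unusedSimpArgs false

namespace Cfsg.Agent.H61.TyP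

open Cfsg Cfsg.Agent.H4 Cfsg.Agent.H32
open scoped ComplexConjugate

universe u

/-- Piece DEG of S1511. -/
theorem deg : Cfsg.Agent.H81.TyP.StmtDeg.{u} := by
  intro L _ _ W₁ W₂ θ hθ ω hω
  classical
  have : Fintype W₁ := Fintype.ofFinite W₁
  have hN : (Nat.card W₁ : ℂ) ≠ 0 := Nat.cast_ne_zero.mpr Nat.card_pos.ne'
  have key : ∀ χ : L → ℂ, IsCharacter L χ →
      ∃ n : ℕ, ∑ h : W₁, χ h = n * (Nat.card W₁ : ℂ) := by
    intro χ hχ
    have h1 := isCharacter_restrict W₁ hχ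
    have h2 : IsCharacter W₁ (fun _ : W₁ => (1 : ℂ)) := by
      have := isCharacter_of_hom (1 : W₁ →* ℂˣ)
      simpa using this
    obtain ⟨n, hn⟩ := classInner_isCharacter_nat h1 h2
    refine ⟨n, ?_⟩
    unfold classInner at hn
    simp only [map_one, mul_one] at hn
    rw [← hn, mul_comm, ← mul_assoc, mul_inv_cancel₀ hN, one_mul]
  obtain ⟨m, hm⟩ : ∃ m : ℤ, ∑ h : W₁, θ h = m * (Nat.card W₁ : ℂ) := by
    rcases hθ with h | h
    · obtain ⟨n, hn⟩ := key θ (isCharacter_of_isIrrCharacter h)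
      exact ⟨n, by rw [hn]; simp⟩
    · obtain ⟨n, hn⟩ := key (-θ) (isCharacter_of_isIrrCharacter h)
      refine ⟨-n, ?_⟩
      simp only [Pi.neg_apply, Finset.sum_neg_distrib] at hn
      push_cast
      linear_combination -hn
  obtain ⟨ω₁, hω₁⟩ : ∃ ω₁ : W₁ →* ℂˣ,
      ω₁ = ω.comp (Subgroup.inclusion (le_sup_left : W₁ ≤ W₁ ⊔ W₂)) := ⟨_, rfl⟩
  obtain ⟨k, hk⟩ : ∃ k : ℤ, ∑ h : W₁, ((ω₁ h : ℂˣ) : ℂ) = k * (Nat.card W₁ : ℂ) := by
    by_cases h1 : ω₁ = 1
    · refine ⟨1, ?_⟩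
      rw [h1]
      simp [Nat.card_eq_fintype_card]
    · exact ⟨0, by rw [sum_unitsHom_eq_zero ω₁ h1]; simp⟩
  refine ⟨m - k, ?_⟩
  have hs : ∑ h : W₁, (θ h - ((ω₁ h : ℂˣ) : ℂ)) = θ 1 - 1 := by
    rw [Finset.sum_eq_single (1 : W₁)]
    · simp
    · intro h _ hne
      have := hω (Subgroup.inclusion (le_sup_left : W₁ ≤ W₁ ⊔ W₂) h) h.2
        (fun h1 => hne (Subtype.ext h1))
      rw [hω₁]
      show θ h - ((ω (Subgroup.inclusion (le_sup_left : W₁ ≤ W₁ ⊔ W₂) h) : ℂˣ) : ℂ) = 0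
      rw [← this]
      exact sub_self _
    · intro h
      exact absurd (Finset.mem_univ _) h
  rw [← hs, Finset.sum_sub_distrib, hm, hk]
  push_cast
  ring

end Cfsg.Agent.H61.TyP
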