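import Mathlib
import Cfsg.Agent.H81.TypePDefs
import Cfsg.Agent.H4.Induction
import Cfsg.Agent.H4.BrauerBasic
import Cfsg.Agent.H32.SNC

/-!
helper61: piece TIDIFF of S1511 (helper81's project): for a subgroup `W` of `L` which is
"TI off `V`", the difference of two linear characters of `L` which agree on `W ∩ V` and are
determined by their restrictions to `W` is induced from its restriction to `W`.
-/

set_option autoImplicit false
set_option linter.unusedSectionVars false
set_option linter.unusedVariables false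
set_option linter.unusedSimpArgs false

namespace Cfsg.Agent.H61.TyP

open Cfsg Cfsg.Agent.H4 Cfsg.Agent.H32
open scoped ComplexConjugate

universe u

theorem eq_zero_of_classInner_self {G : Type*} [Group G] [Fintype G] {f : G → ℂ}
    (h : classInner f f = 0) : f = 0 := by
  unfold classInner at h
  have hN : (Nat.card G : ℂ)⁻¹ ≠ 0 := inv_ne_zero (Nat.cast_ne_zero.mpr Nat.card_pos.ne')
  have h1 : ∑ g : G, f g * conj (f g) = 0 := (mul_eq_zero.mp h).resolve_left hN
  have h2 : ∑ g : G, Complex.normSq (f g) = 0 := by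
    have : ((∑ g : G, Complex.normSq (f g) : ℝ) : ℂ) = 0 := by
      rw [← h1]
      push_cast
      exact Finset.sum_congr rfl (fun g _ => (Complex.mul_conj _).symm)
    exact_mod_cast this
  funext g
  have := (Finset.sum_eq_zero_iff_of_nonneg (fun g _ => Complex.normSq_nonneg _)).mp h2 g
    (Finset.mem_univ g)
  exact Complex.normSq_eq_zero.mp this

/-- The norm of a difference of two distinct linear characters is `2`. -/
theorem classInner_sub_unitsHom {G : Type*} [Group G] [Fintype G] (ω ω' : G →* ℂˣ)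
    (h : ω ≠ ω') :
    classInner (fun x => ((ω x : ℂˣ) : ℂ) - ((ω' x : ℂˣ) : ℂ))
      (fun x => ((ω x : ℂˣ) : ℂ) - ((ω' x : ℂˣ) : ℂ)) = 2 := by
  classical
  have e : (fun x => ((ω x : ℂˣ) : ℂ) - ((ω' x : ℂˣ) : ℂ))
      = (fun x => ((ω x : ℂˣ) : ℂ)) - (fun x => ((ω' x : ℂˣ) : ℂ)) := rfl
  rw [e, classInner_sub_left, classInner_sub_right, classInner_sub_right,
    classInner_unitsHom, classInner_unitsHom, classInner_unitsHom, classInner_unitsHom,
    if_pos rfl, if_pos rfl, if_neg h, if_neg (Ne.symm h)]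
  norm_num

/-- Piece TIDIFF of S1511. -/
theorem tiDiff : Cfsg.Agent.H81.TyP.StmtTIDiff.{u} := by
  intro L _ _ W V hTI Λ Λ' hV hinj
  classical
  by_cases hΛ : Λ = Λ'
  · subst hΛ
    simp only [sub_self]
    exact indFun_zero W
  have : Fintype W := Fintype.ofFinite W
  obtain ⟨D, hD⟩ : ∃ D : L → ℂ, D = fun x => ((Λ x : ℂˣ) : ℂ) - ((Λ' x : ℂˣ) : ℂ) := ⟨_, rfl⟩
  obtain ⟨β, hβ⟩ : ∃ β : W → ℂ,
      β = fun w : W => ((Λ (w : L) : ℂˣ) : ℂ) - ((Λ' (w : L) : ℂˣ) : ℂ) := ⟨_, rfl⟩
  rw [← hD, ← hβ]
  have hDcf : IsClassFunction L D := by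
    intro g h
    rw [hD]
    simp only [map_mul, map_inv]
    rw [mul_comm (Λ h), mul_comm (Λ' h), mul_inv_cancel_right, mul_inv_cancel_right]
  have hβD : (fun h : W => D h) = β := by rw [hD, hβ]
  -- norms
  have nD : classInner D D = 2 := by
    rw [hD]; exact classInner_sub_unitsHom Λ Λ' hΛ
  have hres : Λ.comp W.subtype ≠ Λ'.comp W.subtype := by
    intro h
    apply hΛ
    apply hinj
    intro w hw
    exact DFunLike.congr_fun h ⟨w, hw⟩
  have nβ : classInner β β = 2 := by
    rw [hβ]; exact classInner_sub_unitsHom (Λ.comp W.subtype) (Λ'.comp W.subtype) hres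
  -- Frobenius
  have h1 : classInner (indFun W β) D = 2 := by
    rw [frobenius_reciprocity W β D hDcf, hβD, nβ]
  have h2 : classInner D (indFun W β) = 2 := by
    rw [← classInner_conj_symm, h1]
    exact map_ofNat _ 2
  have hN : (Nat.card W : ℂ) ≠ 0 := Nat.cast_ne_zero.mpr Nat.card_pos.ne'
  have hval : ∀ w : W, (w : L) ∉ V → indFun W β (w : L) = β w := by
    intro w hw
    rw [indFun_apply]
    have claim : ∀ x : L, extendByZero W β (x⁻¹ * (w : L) * x) = if x ∈ W then β w else 0 := by
      intro x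
      split_ifs with hx
      · have hm : x⁻¹ * (w : L) * x ∈ W := W.mul_mem (W.mul_mem (W.inv_mem hx) w.2) hx
        have key : ∀ M : L →* ℂˣ, M (x⁻¹ * (w : L) * x) = M (w : L) := by
          intro M
          rw [map_mul, map_mul, map_inv, mul_comm ((M x)⁻¹), inv_mul_cancel_right]
        rw [extendByZero_of_mem W β hm, hβ]
        show ((Λ (x⁻¹ * (w : L) * x) : ℂˣ) : ℂ) - ((Λ' (x⁻¹ * (w : L) * x) : ℂˣ) : ℂ)
          = ((Λ (w : L) : ℂˣ) : ℂ) - ((Λ' (w : L) : ℂˣ) : ℂ)
        rw [key Λ, key Λ']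
      · apply extendByZero_of_not_mem
        intro hm
        exact hx (hTI (w : L) x w.2 hw hm)
    simp only [claim]
    rw [Finset.sum_ite, Finset.sum_const_zero, add_zero, Finset.sum_const, nsmul_eq_mul,
      ← Fintype.card_subtype, ← Nat.card_eq_fintype_card]
    change (Nat.card W : ℂ)⁻¹ * ((Nat.card W : ℂ) * β w) = β w
    rw [← mul_assoc, inv_mul_cancel₀ hN, one_mul]
  have h3 : classInner (indFun W β) (indFun W β) = 2 := by
    rw [frobenius_reciprocity W β _ (indFun_isClassFunction W β), ← nβ]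
    unfold classInner
    congr 1
    refine Finset.sum_congr rfl fun w _ => ?_
    by_cases hw : (w : L) ∈ V
    · have : β w = 0 := by
        rw [hβ]
        show ((Λ (w : L) : ℂˣ) : ℂ) - ((Λ' (w : L) : ℂˣ) : ℂ) = 0
        rw [hV (w : L) w.2 hw, sub_self]
      rw [this, zero_mul, zero_mul]
    · show β w * conj (indFun W β (w : L)) = β w * conj (β w)
      rw [hval w hw]
  have hz : classInner (indFun W β - D) (indFun W β - D) = 0 := by
    rw [classInner_sub_left, classInner_sub_right, classInner_sub_right, h3, h1, h2, nD]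
    norm_num
  exact sub_eq_zero.mp (eq_zero_of_classInner_self hz)

end Cfsg.Agent.H61.TyP
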