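import Mathlib
import Cfsg.Agent.H91.U62Defs
import Cfsg.Agent.H61.GU2Sylow

set_option autoImplicit false

/-!
# S5452 (helper91's project), helper61: calculus of the matrices `xmat M` in `SU₆(4)`
-/

namespace Cfsg.Agent.H61.U62

open Cfsg.Agent.H91.U62 Subgroup

universe u

variable {K : Type u} [Field K]

theorem two_eq_zero [Fintype K] (hK : Fintype.card K = 4) : (2 : K) = 0 := by
  have h4 : ((4 : ℕ) : K) = 0 := by
    rw [← hK]
    exact Nat.cast_card_eq_zero K
  have h22 : (2 : K) * 2 = 0 := by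
    push_cast at h4
    linear_combination h4
  exact mul_self_eq_zero.1 h22

theorem pow_four [Fintype K] (hK : Fintype.card K = 4) (x : K) : x ^ 4 = x := by
  rw [← hK]
  exact FiniteField.pow_card x

theorem exists_frob [Fintype K] (hK : Fintype.card K = 4) : ∃ φ : K →+* K, ∀ a, φ a = a ^ 2 :=
  Cfsg.Agent.H61.exists_frobHom (q := 2) (by rw [hK]; norm_num)

theorem sum_r3 {M : Type*} [AddCommMonoid M] (g : Fin 3 → M) :
    ∑ k : Fin 6, g (r3 k) = ∑ l : Fin 3, g l + ∑ l : Fin 3, g l := by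
  simp only [Fin.sum_univ_six, Fin.sum_univ_three, r3]
  simp
  abel

theorem sub_mul_sub (h2 : (2 : K) = 0) (M M' : Matrix (Fin 3) (Fin 3) K) :
    M.submatrix r3 r3 * M'.submatrix r3 r3 = 0 := by
  ext i j
  simp only [Matrix.mul_apply, Matrix.submatrix_apply, Matrix.zero_apply]
  rw [sum_r3 (fun l => M (r3 i) l * M' l (r3 j)), ← two_mul, h2, zero_mul]

theorem xmat_mul (h2 : (2 : K) = 0) (M M' : Matrix (Fin 3) (Fin 3) K) :
    xmat M * xmat M' = xmat (M + M') := by
  unfold xmat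
  rw [add_mul, mul_add, mul_add, one_mul, mul_one, one_mul, sub_mul_sub h2, add_zero]
  ext i j
  simp only [Matrix.add_apply, Matrix.submatrix_apply]
  ring

theorem xmat_zero : xmat (0 : Matrix (Fin 3) (Fin 3) K) = 1 := by
  unfold xmat
  ext i j
  simp

theorem add_self_eq_zero' (h2 : (2 : K) = 0) (M : Matrix (Fin 3) (Fin 3) K) : M + M = 0 := by
  ext i j
  simp only [Matrix.add_apply, Matrix.zero_apply]
  rw [← two_mul, h2, zero_mul]

theorem xmat_self (h2 : (2 : K) = 0) (M : Matrix (Fin 3) (Fin 3) K) : xmat M * xmat M = 1 := by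
  rw [xmat_mul h2, add_self_eq_zero' h2, xmat_zero]

theorem det_xmat (h2 : (2 : K) = 0) (M : Matrix (Fin 3) (Fin 3) K) : (xmat M).det = 1 := by
  have h := congrArg Matrix.det (xmat_self h2 M)
  rw [Matrix.det_mul, Matrix.det_one] at h
  have h3 : ((xmat M).det - 1) * ((xmat M).det - 1) = 0 := by
    linear_combination h + (1 - (xmat M).det) * h2
  have h4 := mul_self_eq_zero.1 h3
  linear_combination h4

theorem xmat_transpose (M : Matrix (Fin 3) (Fin 3) K) : (xmat M).transpose = xmat M.transpose := by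
  unfold xmat
  rw [Matrix.transpose_add, Matrix.transpose_one, Matrix.transpose_submatrix]

theorem xmat_map (φ : K →+* K) (M : Matrix (Fin 3) (Fin 3) K) :
    (xmat M).map φ = xmat (M.map φ) := by
  unfold xmat
  ext i j
  simp only [Matrix.map_apply, Matrix.add_apply, Matrix.submatrix_apply, Matrix.one_apply]
  split_ifs <;> simp

theorem cj_eq (φ : K →+* K) (hφ : ∀ a, φ a = a ^ 2) (M : Matrix (Fin 3) (Fin 3) K) :
    cj M = (M.map φ).transpose := by
  ext i j
  simp [cj, hφ]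

theorem xmat_gram (h2 : (2 : K) = 0) (φ : K →+* K) (hφ : ∀ a, φ a = a ^ 2)
    (M : Matrix (Fin 3) (Fin 3) K) (hM : cj M = M) :
    (xmat M).transpose * (xmat M).map φ = 1 := by
  have h1 : M.map φ = M.transpose := by
    have h3 := congrArg Matrix.transpose hM
    rw [cj_eq φ hφ, Matrix.transpose_transpose] at h3
    exact h3
  rw [xmat_transpose, xmat_map, xmat_mul h2, h1, add_self_eq_zero' h2, xmat_zero]

/-- a matrix of determinant 1 satisfying the Gram identity is (the matrix of) an element of `SU` -/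
theorem exists_SU (φ : K →+* K) (hφ : ∀ a, φ a = a ^ 2) (N : Matrix (Fin 6) (Fin 6) K)
    (hdet : N.det = 1) (hgram : N.transpose * N.map φ = 1) :
    ∃ s : ↥(Cfsg.SU 6 K 2), (s.1.1 : Matrix (Fin 6) (Fin 6) K) = N :=
  ⟨⟨⟨N, hdet⟩, fun u v => Cfsg.Agent.H61.herm_preserves_of_gram φ hφ N hgram u v⟩, rfl⟩

theorem su_ext {s t : ↥(Cfsg.SU 6 K 2)}
    (h : (s.1.1 : Matrix (Fin 6) (Fin 6) K) = t.1.1) : s = t :=
  Subtype.ext (Subtype.ext h)

theorem su_mul_val (s t : ↥(Cfsg.SU 6 K 2)) :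
    ((s * t).1.1 : Matrix (Fin 6) (Fin 6) K) = s.1.1 * t.1.1 := rfl

theorem su_one_val : (((1 : ↥(Cfsg.SU 6 K 2))).1.1 : Matrix (Fin 6) (Fin 6) K) = 1 := rfl

end Cfsg.Agent.H61.U62
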