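import Mathlib
import Cfsg.Agent.H91.U62Defs
import Cfsg.Agent.H61.U62Base

set_option autoImplicit false

/-!
# S5452 (helper91's project), helper61: Kronecker calculus `kr α B` on `Fin 6 = Fin 2 × Fin 3`
-/

namespace Cfsg.Agent.H61.U62

open Cfsg.Agent.H91.U62 Subgroup

universe u

variable {K : Type u} [Field K]

/-- the block index of `i : Fin 6` -/
def h6 : Fin 6 → Fin 2 := ![0, 0, 0, 1, 1, 1]

/-- the Kronecker product `α ⊗ B` as a `6 × 6` matrix -/
def kr (α : Matrix (Fin 2) (Fin 2) K) (B : Matrix (Fin 3) (Fin 3) K) :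
    Matrix (Fin 6) (Fin 6) K :=
  Matrix.of fun i j => α (h6 i) (h6 j) * B (r3 i) (r3 j)

theorem kr_apply (α : Matrix (Fin 2) (Fin 2) K) (B : Matrix (Fin 3) (Fin 3) K) (i j : Fin 6) :
    kr α B i j = α (h6 i) (h6 j) * B (r3 i) (r3 j) := rfl

theorem sum_h6_r3 {M : Type*} [AddCommMonoid M] (g : Fin 2 → Fin 3 → M) :
    ∑ k : Fin 6, g (h6 k) (r3 k) = ∑ a : Fin 2, ∑ l : Fin 3, g a l := by
  simp only [Fin.sum_univ_six, Fin.sum_univ_three, Fin.sum_univ_two, r3, h6]
  simp
  abel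

theorem kr_mul (α α' : Matrix (Fin 2) (Fin 2) K) (B B' : Matrix (Fin 3) (Fin 3) K) :
    kr α B * kr α' B' = kr (α * α') (B * B') := by
  ext i j
  rw [Matrix.mul_apply, kr_apply, Matrix.mul_apply, Matrix.mul_apply]
  simp only [kr_apply]
  rw [sum_h6_r3 (fun a l => α (h6 i) a * B (r3 i) l * (α' a (h6 j) * B' l (r3 j))),
    Finset.sum_mul_sum]
  apply Finset.sum_congr rfl
  intro a _
  apply Finset.sum_congr rfl
  intro l _
  ring

theorem kr_add_left (α α' : Matrix (Fin 2) (Fin 2) K) (B : Matrix (Fin 3) (Fin 3) K) :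
    kr (α + α') B = kr α B + kr α' B := by
  ext i j
  simp [kr_apply, add_mul]

theorem kr_add_right (α : Matrix (Fin 2) (Fin 2) K) (B B' : Matrix (Fin 3) (Fin 3) K) :
    kr α (B + B') = kr α B + kr α B' := by
  ext i j
  simp [kr_apply, mul_add]

theorem kr_sub_right (α : Matrix (Fin 2) (Fin 2) K) (B B' : Matrix (Fin 3) (Fin 3) K) :
    kr α (B - B') = kr α B - kr α B' := by
  ext i j
  simp [kr_apply, mul_sub]

theorem kr_zero_left (B : Matrix (Fin 3) (Fin 3) K) :
    kr (0 : Matrix (Fin 2) (Fin 2) K) B = 0 := by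
  ext i j
  simp [kr_apply]

theorem kr_one_one : kr (1 : Matrix (Fin 2) (Fin 2) K) (1 : Matrix (Fin 3) (Fin 3) K) = 1 := by
  ext i j
  rw [kr_apply, Matrix.one_apply, Matrix.one_apply, Matrix.one_apply]
  have h : ∀ i j : Fin 6, (i = j) ↔ (h6 i = h6 j ∧ r3 i = r3 j) := by decide
  by_cases hij : i = j
  · subst hij
    simp
  · rw [if_neg hij]
    have h' := (not_congr (h i j)).1 hij
    by_cases h1 : h6 i = h6 j
    · rw [if_pos h1, if_neg (fun h3 => h' ⟨h1, h3⟩)]
      simp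
    · rw [if_neg h1]
      simp

theorem kr_transpose (α : Matrix (Fin 2) (Fin 2) K) (B : Matrix (Fin 3) (Fin 3) K) :
    (kr α B).transpose = kr α.transpose B.transpose := by
  ext i j
  rfl

theorem kr_map (φ : K →+* K) (α : Matrix (Fin 2) (Fin 2) K) (B : Matrix (Fin 3) (Fin 3) K) :
    (kr α B).map φ = kr (α.map φ) (B.map φ) := by
  ext i j
  simp [kr_apply]

theorem xmat_eq_kr (M : Matrix (Fin 3) (Fin 3) K) :
    xmat M = 1 + kr (!![1, 1; 1, 1]) M := by
  unfold xmat
  congr 1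
  ext i j
  rw [kr_apply, Matrix.submatrix_apply]
  have h : ∀ a b : Fin 2, (!![1, 1; 1, 1] : Matrix (Fin 2) (Fin 2) K) a b = 1 := by
    intro a b
    fin_cases a <;> fin_cases b <;> rfl
  rw [h, one_mul]

/-- `[I; I]` -/
def Um (K : Type u) [Field K] : Matrix (Fin 6) (Fin 3) K :=
  Matrix.of fun i k => if r3 i = k then 1 else 0

/-- `[c₀ I, c₁ I]` -/
def Vm (c : Fin 2 → K) : Matrix (Fin 3) (Fin 6) K :=
  Matrix.of fun k j => if r3 j = k then c (h6 j) else 0

theorem Um_apply (i : Fin 6) (k : Fin 3) : Um K i k = if r3 i = k then 1 else 0 := rfl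

theorem Vm_apply (c : Fin 2 → K) (k : Fin 3) (j : Fin 6) :
    Vm c k j = if r3 j = k then c (h6 j) else 0 := rfl

theorem kr_rank (c : Fin 2 → K) (C : Matrix (Fin 3) (Fin 3) K) :
    kr (Matrix.of fun _ b => c b) C = Um K * (C * Vm c) := by
  ext i j
  have h1 : (Um K * (C * Vm c)) i j = ∑ k, Um K i k * ∑ l, C k l * Vm c l j := by
    rw [Matrix.mul_apply]
    apply Finset.sum_congr rfl
    intro k _
    rw [Matrix.mul_apply]
  rw [h1, kr_apply]
  simp only [Um_apply, Vm_apply, Matrix.of_apply, ite_mul, one_mul, zero_mul,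
    mul_ite, mul_zero, Finset.sum_ite_eq, Finset.mem_univ, if_true]
  ring

theorem Vm_mul_Um (c : Fin 2 → K) (hc : c 0 + c 1 = 1) : Vm c * Um K = 1 := by
  ext k l
  rw [Matrix.mul_apply]
  simp only [Um_apply, Vm_apply]
  fin_cases k <;> fin_cases l <;>
    simp [Fin.sum_univ_six, r3, h6] <;>
    linear_combination hc

theorem det_one_add_kr_row (c : Fin 2 → K) (hc : c 0 + c 1 = 1) (C : Matrix (Fin 3) (Fin 3) K) :
    (1 + kr (Matrix.of fun _ b => c b) C).det = (1 + C).det := by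
  rw [kr_rank, Matrix.det_one_add_mul_comm, Matrix.mul_assoc, Vm_mul_Um c hc, Matrix.mul_one]

theorem det_one_add_kr_col (d : Fin 2 → K) (hd : d 0 + d 1 = 1) (C : Matrix (Fin 3) (Fin 3) K) :
    (1 + kr (Matrix.of fun a _ => d a) C).det = (1 + C).det := by
  have h1 : (1 + kr (Matrix.of fun a _ => d a) C) =
      (1 + kr (Matrix.of fun _ b => d b) C.transpose).transpose := by
    rw [Matrix.transpose_add, Matrix.transpose_one, kr_transpose, Matrix.transpose_transpose]
    rfl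
  rw [h1, Matrix.det_transpose, det_one_add_kr_row d hd, ← Matrix.det_transpose,
    Matrix.transpose_add, Matrix.transpose_one, Matrix.transpose_transpose]

end Cfsg.Agent.H61.U62
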