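import Mathlib
import Cfsg.Agent.H91.U62Defs
import Cfsg.Agent.H61.U62Base
import Cfsg.Agent.H61.U62Kr

set_option autoImplicit false
set_option linter.unusedSectionVars false

/-!
# S5452 (helper91's project), piece LEVI (helper61)
-/

namespace Cfsg.Agent.H61.U62

open Cfsg.Agent.H91.U62 Subgroup

universe u

variable {K : Type u} [Field K]

theorem exists_omega [Fintype K] (hK : Fintype.card K = 4) : ∃ ω : K, ω ^ 2 + ω + 1 = 0 := by
  classical
  obtain ⟨x, hx⟩ : ∃ x : K, x ∉ ({0, 1} : Finset K) := by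
    by_contra hcon
    rw [not_exists] at hcon
    have h1 : (Finset.univ : Finset K) ⊆ {0, 1} := fun x _ => not_not.1 (hcon x)
    have h3 := Finset.card_le_card h1
    rw [Finset.card_univ, hK] at h3
    have h4 : ({0, 1} : Finset K).card ≤ 2 := Finset.card_le_two
    omega
  simp only [Finset.mem_insert, Finset.mem_singleton, not_or] at hx
  refine ⟨x, ?_⟩
  have h4 := pow_four hK x
  have h5 : x * (x - 1) * (x ^ 2 + x + 1) = 0 := by linear_combination h4
  rcases mul_eq_zero.1 h5 with h | h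
  · rcases mul_eq_zero.1 h with h | h
    · exact absurd h hx.1
    · exact absurd (sub_eq_zero.1 h) hx.2
  · exact h

theorem mk2_congr {a b c d a' b' c' d' : K} (h1 : a = a') (h2 : b = b') (h3 : c = c')
    (h4 : d = d') : (!![a, b; c, d] : Matrix (Fin 2) (Fin 2) K) = !![a', b'; c', d'] := by
  rw [h1, h2, h3, h4]

theorem zero2 : (0 : Matrix (Fin 2) (Fin 2) K) = !![0, 0; 0, 0] := by
  ext i j
  fin_cases i <;> fin_cases j <;> rfl

theorem add2 (a b c d a' b' c' d' : K) : (!![a, b; c, d] : Matrix (Fin 2) (Fin 2) K) +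
    !![a', b'; c', d'] = !![a + a', b + b'; c + c', d + d'] := by
  ext i j
  fin_cases i <;> fin_cases j <;> rfl

section omega

variable {ω : K} (hω : ω ^ 2 + ω + 1 = 0) (h2 : (2 : K) = 0)

include hω h2

theorem al_mul_al : (!![ω ^ 2, ω; ω ^ 2, ω] : Matrix (Fin 2) (Fin 2) K) * !![ω ^ 2, ω; ω ^ 2, ω]
    = !![ω ^ 2, ω; ω ^ 2, ω] := by
  rw [Matrix.mul_fin_two]
  exact mk2_congr (by linear_combination ((1) * ω ^ 2 + (-2)) * hω + ((1) * ω + (1)) * h2) (by linear_combination ((1) * ω) * hω + ((-1) * ω) * h2) (by linear_combination ((1) * ω ^ 2 + (-2)) * hω + ((1) * ω + (1)) * h2) (by linear_combination ((1) * ω) * hω + ((-1) * ω) * h2)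

theorem be_mul_be : (!![ω, ω; ω ^ 2, ω ^ 2] : Matrix (Fin 2) (Fin 2) K) * !![ω, ω; ω ^ 2, ω ^ 2]
    = !![ω, ω; ω ^ 2, ω ^ 2] := by
  rw [Matrix.mul_fin_two]
  exact mk2_congr (by linear_combination ((1) * ω) * hω + ((-1) * ω) * h2) (by linear_combination ((1) * ω) * hω + ((-1) * ω) * h2) (by linear_combination ((1) * ω ^ 2 + (-2)) * hω + ((1) * ω + (1)) * h2) (by linear_combination ((1) * ω ^ 2 + (-2)) * hω + ((1) * ω + (1)) * h2)

theorem al_mul_be : (!![ω ^ 2, ω; ω ^ 2, ω] : Matrix (Fin 2) (Fin 2) K) * !![ω, ω; ω ^ 2, ω ^ 2]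
    = 0 := by
  rw [Matrix.mul_fin_two, zero2]
  exact mk2_congr (by linear_combination ((2) * ω + (-2)) * hω + ((1)) * h2) (by linear_combination ((2) * ω + (-2)) * hω + ((1)) * h2) (by linear_combination ((2) * ω + (-2)) * hω + ((1)) * h2) (by linear_combination ((2) * ω + (-2)) * hω + ((1)) * h2)

theorem be_mul_al : (!![ω, ω; ω ^ 2, ω ^ 2] : Matrix (Fin 2) (Fin 2) K) * !![ω ^ 2, ω; ω ^ 2, ω]
    = 0 := by
  rw [Matrix.mul_fin_two, zero2]
  exact mk2_congr (by linear_combination ((2) * ω + (-2)) * hω + ((1)) * h2) (by linear_combination ((2)) * hω + ((-1) * ω + (-1)) * h2) (by linear_combination ((2) * ω ^ 2 + (-2) * ω) * hω + ((1) * ω) * h2) (by linear_combination ((2) * ω + (-2)) * hω + ((1)) * h2)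

theorem al_add_be : (!![ω ^ 2, ω; ω ^ 2, ω] : Matrix (Fin 2) (Fin 2) K) + !![ω, ω; ω ^ 2, ω ^ 2]
    = 1 := by
  rw [Matrix.one_fin_two, add2]
  exact mk2_congr (by linear_combination ((1)) * hω + ((-1)) * h2) (by linear_combination (0) * hω + ((1) * ω) * h2) (by linear_combination ((2)) * hω + ((-1) * ω + (-1)) * h2) (by linear_combination ((1)) * hω + ((-1)) * h2)

theorem al_mul_J : (!![ω ^ 2, ω; ω ^ 2, ω] : Matrix (Fin 2) (Fin 2) K) * !![1, 1; 1, 1]
    = !![1, 1; 1, 1] := by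
  rw [Matrix.mul_fin_two]
  exact mk2_congr (by linear_combination ((1)) * hω + ((-1)) * h2) (by linear_combination ((1)) * hω + ((-1)) * h2) (by linear_combination ((1)) * hω + ((-1)) * h2) (by linear_combination ((1)) * hω + ((-1)) * h2)

theorem be_mul_J : (!![ω, ω; ω ^ 2, ω ^ 2] : Matrix (Fin 2) (Fin 2) K) * !![1, 1; 1, 1] = 0 := by
  rw [Matrix.mul_fin_two, zero2]
  exact mk2_congr (by linear_combination (0) * hω + ((1) * ω) * h2) (by linear_combination (0) * hω + ((1) * ω) * h2) (by linear_combination ((2)) * hω + ((-1) * ω + (-1)) * h2) (by linear_combination ((2)) * hω + ((-1) * ω + (-1)) * h2)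

theorem J_mul_al : (!![1, 1; 1, 1] : Matrix (Fin 2) (Fin 2) K) * !![ω ^ 2, ω; ω ^ 2, ω] = 0 := by
  rw [Matrix.mul_fin_two, zero2]
  exact mk2_congr (by linear_combination ((2)) * hω + ((-1) * ω + (-1)) * h2) (by linear_combination (0) * hω + ((1) * ω) * h2) (by linear_combination ((2)) * hω + ((-1) * ω + (-1)) * h2) (by linear_combination (0) * hω + ((1) * ω) * h2)

theorem J_mul_be : (!![1, 1; 1, 1] : Matrix (Fin 2) (Fin 2) K) * !![ω, ω; ω ^ 2, ω ^ 2]
    = !![1, 1; 1, 1] := by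
  rw [Matrix.mul_fin_two]
  exact mk2_congr (by linear_combination ((1)) * hω + ((-1)) * h2) (by linear_combination ((1)) * hω + ((-1)) * h2) (by linear_combination ((1)) * hω + ((-1)) * h2) (by linear_combination ((1)) * hω + ((-1)) * h2)

theorem alT_mul_alphi : (!![ω ^ 2, ω ^ 2; ω, ω] : Matrix (Fin 2) (Fin 2) K) *
    !![(ω ^ 2) ^ 2, ω ^ 2; (ω ^ 2) ^ 2, ω ^ 2] = 0 := by
  rw [Matrix.mul_fin_two, zero2]
  exact mk2_congr (by linear_combination ((2) * ω ^ 4 + (-2) * ω ^ 3 + (2) * ω + (-2)) * hω + ((1)) * h2) (by linear_combination ((2) * ω ^ 2 + (-2) * ω) * hω + ((1) * ω) * h2) (by linear_combination ((2) * ω ^ 3 + (-2) * ω ^ 2 + (2)) * hω + ((-1) * ω + (-1)) * h2) (by linear_combination ((2) * ω + (-2)) * hω + ((1)) * h2)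

theorem alT_mul_bephi : (!![ω ^ 2, ω ^ 2; ω, ω] : Matrix (Fin 2) (Fin 2) K) *
    !![ω ^ 2, ω ^ 2; (ω ^ 2) ^ 2, (ω ^ 2) ^ 2] = !![ω ^ 2, ω ^ 2; ω, ω] := by
  rw [Matrix.mul_fin_two]
  exact mk2_congr (by linear_combination ((1) * ω ^ 4 + (-1) * ω ^ 3 + (1) * ω ^ 2 + (-2)) * hω + ((1) * ω + (1)) * h2) (by linear_combination ((1) * ω ^ 4 + (-1) * ω ^ 3 + (1) * ω ^ 2 + (-2)) * hω + ((1) * ω + (1)) * h2) (by linear_combination ((1) * ω ^ 3 + (-1) * ω ^ 2 + (1) * ω) * hω + ((-1) * ω) * h2) (by linear_combination ((1) * ω ^ 3 + (-1) * ω ^ 2 + (1) * ω) * hω + ((-1) * ω) * h2)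

theorem beT_mul_alphi : (!![ω, ω ^ 2; ω, ω ^ 2] : Matrix (Fin 2) (Fin 2) K) *
    !![(ω ^ 2) ^ 2, ω ^ 2; (ω ^ 2) ^ 2, ω ^ 2] = !![ω, ω ^ 2; ω, ω ^ 2] := by
  rw [Matrix.mul_fin_two]
  exact mk2_congr (by linear_combination ((1) * ω ^ 4 + (-1) * ω ^ 2 + (1) * ω) * hω + ((-1) * ω) * h2) (by linear_combination ((1) * ω ^ 2 + (-2)) * hω + ((1) * ω + (1)) * h2) (by linear_combination ((1) * ω ^ 4 + (-1) * ω ^ 2 + (1) * ω) * hω + ((-1) * ω) * h2) (by linear_combination ((1) * ω ^ 2 + (-2)) * hω + ((1) * ω + (1)) * h2)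

theorem beT_mul_bephi : (!![ω, ω ^ 2; ω, ω ^ 2] : Matrix (Fin 2) (Fin 2) K) *
    !![ω ^ 2, ω ^ 2; (ω ^ 2) ^ 2, (ω ^ 2) ^ 2] = 0 := by
  rw [Matrix.mul_fin_two, zero2]
  exact mk2_congr (by linear_combination ((1) * ω ^ 4 + (-1) * ω ^ 3 + (2) * ω + (-2)) * hω + ((1)) * h2) (by linear_combination ((1) * ω ^ 4 + (-1) * ω ^ 3 + (2) * ω + (-2)) * hω + ((1)) * h2) (by linear_combination ((1) * ω ^ 4 + (-1) * ω ^ 3 + (2) * ω + (-2)) * hω + ((1)) * h2) (by linear_combination ((1) * ω ^ 4 + (-1) * ω ^ 3 + (2) * ω + (-2)) * hω + ((1)) * h2)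

end omega

/-- **S5452-LEVI**. -/
theorem levi : LeviStmt.{u} := by
  intro K _ _ hK A hA
  have h2 := two_eq_zero hK
  obtain ⟨φ, hφ⟩ := exists_frob hK
  obtain ⟨ω, hω⟩ := exists_omega hK
  have hφφ : ∀ B : Matrix (Fin 3) (Fin 3) K, (B.map φ).map φ = B := by
    intro B
    ext i j
    simp only [Matrix.map_apply, hφ]
    rw [← pow_mul]
    exact pow_four hK _
  have hdetcj : (cj A).det = 1 := by
    rw [cj_eq φ hφ, Matrix.det_transpose]
    have h3 : (A.map φ).det = φ A.det := by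
      rw [RingHom.map_det, RingHom.mapMatrix_apply]
    rw [h3, hA, map_one]
  have hunit : IsUnit (cj A).det := by
    rw [hdetcj]
    exact isUnit_one
  obtain ⟨A', hA'⟩ : ∃ A' : Matrix (Fin 3) (Fin 3) K, A' = (cj A)⁻¹ := ⟨_, rfl⟩
  have hcA : cj A * A' = 1 := by
    rw [hA']
    exact Matrix.mul_nonsing_inv _ hunit
  have hAc : A' * cj A = 1 := by
    rw [hA']
    exact Matrix.nonsing_inv_mul _ hunit
  have hdetA' : A'.det = 1 := by
    have h3 := congrArg Matrix.det hcA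
    rw [Matrix.det_mul, hdetcj, one_mul, Matrix.det_one] at h3
    exact h3
  have hR1 : A'.transpose * A.map φ = 1 := by
    have h3 := congrArg Matrix.transpose hcA
    rw [Matrix.transpose_mul, cj_eq φ hφ, Matrix.transpose_transpose, Matrix.transpose_one] at h3
    exact h3
  have hR2 : A.transpose * A'.map φ = 1 := by
    have h3 : (A' * cj A).map φ = (1 : Matrix (Fin 3) (Fin 3) K).map φ := by rw [hAc]
    rw [Matrix.map_mul, cj_eq φ hφ, ← Matrix.transpose_map, hφφ,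
      Matrix.map_one _ (map_zero φ) (map_one φ)] at h3
    exact mul_eq_one_comm.1 h3
  obtain ⟨al, hal⟩ : ∃ al : Matrix (Fin 2) (Fin 2) K, al = !![ω ^ 2, ω; ω ^ 2, ω] := ⟨_, rfl⟩
  obtain ⟨be, hbe⟩ : ∃ be : Matrix (Fin 2) (Fin 2) K, be = !![ω, ω; ω ^ 2, ω ^ 2] := ⟨_, rfl⟩
  obtain ⟨JJ, hJJ⟩ : ∃ J : Matrix (Fin 2) (Fin 2) K, J = !![1, 1; 1, 1] := ⟨_, rfl⟩
  have e1 : al * al = al := by rw [hal]; exact al_mul_al hω h2
  have e2 : be * be = be := by rw [hbe]; exact be_mul_be hω h2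
  have e3 : al * be = 0 := by rw [hal, hbe]; exact al_mul_be hω h2
  have e4 : be * al = 0 := by rw [hal, hbe]; exact be_mul_al hω h2
  have e5 : al + be = 1 := by rw [hal, hbe]; exact al_add_be hω h2
  have e6 : al * JJ = JJ := by rw [hal, hJJ]; exact al_mul_J hω h2
  have e7 : be * JJ = 0 := by rw [hbe, hJJ]; exact be_mul_J hω h2
  have e8 : JJ * al = 0 := by rw [hal, hJJ]; exact J_mul_al hω h2
  have e9 : JJ * be = JJ := by rw [hbe, hJJ]; exact J_mul_be hω h2
  have alT : al.transpose = !![ω ^ 2, ω ^ 2; ω, ω] := by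
    rw [hal]
    ext i j
    fin_cases i <;> fin_cases j <;> rfl
  have beT : be.transpose = !![ω, ω ^ 2; ω, ω ^ 2] := by
    rw [hbe]
    ext i j
    fin_cases i <;> fin_cases j <;> rfl
  have alphi : al.map φ = !![(ω ^ 2) ^ 2, ω ^ 2; (ω ^ 2) ^ 2, ω ^ 2] := by
    rw [hal]
    ext i j
    fin_cases i <;> fin_cases j <;> simp [hφ]
  have bephi : be.map φ = !![ω ^ 2, ω ^ 2; (ω ^ 2) ^ 2, (ω ^ 2) ^ 2] := by
    rw [hbe]
    ext i j
    fin_cases i <;> fin_cases j <;> simp [hφ]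
  have e10 : al.transpose * al.map φ = 0 := by rw [alT, alphi]; exact alT_mul_alphi hω h2
  have e11 : al.transpose * be.map φ = al.transpose := by
    rw [alT, bephi]; exact alT_mul_bephi hω h2
  have e12 : be.transpose * al.map φ = be.transpose := by
    rw [beT, alphi]; exact beT_mul_alphi hω h2
  have e13 : be.transpose * be.map φ = 0 := by rw [beT, bephi]; exact beT_mul_bephi hω h2
  have e14 : al.transpose + be.transpose = 1 := by
    rw [← Matrix.transpose_add, e5, Matrix.transpose_one]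
  obtain ⟨g, hg⟩ : ∃ g : Matrix (Fin 6) (Fin 6) K, g = kr al A + kr be A' := ⟨_, rfl⟩
  have hG : g = (1 + kr al (A - 1)) * (1 + kr be (A' - 1)) := by
    have h1 : (1 : Matrix (Fin 6) (Fin 6) K) = kr al 1 + kr be 1 := by
      rw [← kr_add_left, e5, kr_one_one]
    have h3 : 1 + kr al (A - 1) = kr al A + kr be 1 := by
      rw [kr_sub_right]
      nth_rewrite 1 [h1]
      abel
    have h4 : 1 + kr be (A' - 1) = kr al 1 + kr be A' := by
      rw [kr_sub_right]
      nth_rewrite 1 [h1]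
      abel
    rw [h3, h4, add_mul, mul_add, mul_add, kr_mul, kr_mul, kr_mul, kr_mul, e1, e2, e3, e4,
      kr_zero_left, kr_zero_left, hg]
    simp only [mul_one, one_mul, add_zero, zero_add]
  have hgdet : g.det = 1 := by
    rw [hG, Matrix.det_mul]
    have hal' : al = Matrix.of fun _ b => ![ω ^ 2, ω] b := by
      rw [hal]
      ext i j
      fin_cases i <;> fin_cases j <;> rfl
    have hbe' : be = Matrix.of fun a _ => ![ω, ω ^ 2] a := by
      rw [hbe]
      ext i j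
      fin_cases i <;> fin_cases j <;> rfl
    have hc : (![ω ^ 2, ω] : Fin 2 → K) 0 + ![ω ^ 2, ω] 1 = 1 := by
      simp only [Matrix.cons_val_zero, Matrix.cons_val_one]
      linear_combination hω - h2
    have hd : (![ω, ω ^ 2] : Fin 2 → K) 0 + ![ω, ω ^ 2] 1 = 1 := by
      simp only [Matrix.cons_val_zero, Matrix.cons_val_one]
      linear_combination hω - h2
    rw [hal', det_one_add_kr_row _ hc, hbe', det_one_add_kr_col _ hd, add_sub_cancel,
      add_sub_cancel, hA, hdetA', one_mul]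
  have hggram : g.transpose * g.map φ = 1 := by
    have h1 : g.transpose = kr al.transpose A.transpose + kr be.transpose A'.transpose := by
      rw [hg, Matrix.transpose_add, kr_transpose, kr_transpose]
    have h3 : g.map φ = kr (al.map φ) (A.map φ) + kr (be.map φ) (A'.map φ) := by
      rw [hg, ← kr_map, ← kr_map]
      ext i j
      simp [Matrix.add_apply]
    rw [h1, h3, add_mul, mul_add, mul_add, kr_mul, kr_mul, kr_mul, kr_mul, e10, e11, e12, e13,
      hR2, hR1, kr_zero_left, kr_zero_left, zero_add, add_zero, ← kr_add_left, e14, kr_one_one]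
  obtain ⟨gs, hgs⟩ := exists_SU φ hφ g hgdet hggram
  refine ⟨gs, ?_⟩
  intro M s t hs ht
  rw [mul_inv_eq_iff_eq_mul]
  apply su_ext
  rw [su_mul_val, su_mul_val, hs, ht, hgs, xmat_eq_kr, xmat_eq_kr, ← hJJ]
  rw [mul_add, mul_one, add_mul, one_mul, hg, add_mul, mul_add, kr_mul, kr_mul, kr_mul, kr_mul,
    e6, e7, e8, e9, kr_zero_left, kr_zero_left, add_zero, zero_add]
  rw [Matrix.mul_assoc (A * M) (cj A) A', hcA, Matrix.mul_one]

end Cfsg.Agent.H61.U62
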