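import Mathlib
import Cfsg.Agent.H91.U62Defs
import Cfsg.Agent.H61.U62Base

set_option autoImplicit false

/-!
# S5452 (helper91's project), pieces X and FUS1 (helper61)
-/

namespace Cfsg.Agent.H61.U62

open Cfsg.Agent.H91.U62 Subgroup

universe u

/-- **S5452-X**. -/
theorem x : XStmt.{u} := by
  intro K _ _ hK M hM
  obtain ⟨φ, hφ⟩ := exists_frob hK
  have h2 := two_eq_zero hK
  exact exists_SU φ hφ (xmat M) (det_xmat h2 M) (xmat_gram h2 φ hφ M hM)

/-- **S5452-FUS1**. -/
theorem fus1 : Fus1Stmt.{u} := by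
  intro K _ _ hK
  have h2 := two_eq_zero hK
  constructor
  · rintro s ⟨v, -, hs⟩ t ⟨w, -, ht⟩
    show s * t = t * s
    apply su_ext
    rw [su_mul_val, su_mul_val, hs, ht, xmat_mul h2, xmat_mul h2, add_comm]
  · rintro s ⟨v, -, hs⟩
    apply su_ext
    rw [su_mul_val, hs, xmat_self h2]
    rfl

end Cfsg.Agent.H61.U62
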