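import Cfsg.Agent.H58.UqDefs
import Cfsg.Agent.S2942
import Cfsg.Agent.H12.UqK0Conj
import Cfsg.Agent.H59.SpLE

/-!
# UQ-SA (helper61, for helper58's S2950 project): route A of piece S, from the statement S2945

In a member `L` of the family of `T`, every `L`-conjugate of `J(T)` normalizes `W_K`, for a `J(T)`-component
`K ≤ L` lying in some `𝒦₀(T^g)`: `K^(l⁻¹)` is subnormal in `L` (S2942), so it is a `J(T)`-component by S2945,
hence normalized by `J(T)`.
-/

set_option autoImplicit false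
open Cfsg

namespace Cfsg.Agent.H61.Uq

open Cfsg.Agent.H58.Uq
open scoped commutatorElement

universe u

/-- Conjugating a subnormal subgroup of `L` by an element of `L`. -/
theorem subnormal_conj {G : Type u} [Group G] (K L : Subgroup G) (l : G) (hl : l ∈ L)
    (h : (K.subgroupOf L).IsSubnormal) :
    ((K.map (MulAut.conj l⁻¹).toMonoidHom).subgroupOf L).IsSubnormal := by
  have h1 := h.comap (MulAut.conj (⟨l, hl⟩ : ↥L)).toMonoidHom
  have e : (K.subgroupOf L).comap (MulAut.conj (⟨l, hl⟩ : ↥L)).toMonoidHom =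
      (K.map (MulAut.conj l⁻¹).toMonoidHom).subgroupOf L := by
    ext x
    rw [Subgroup.mem_comap, Subgroup.mem_subgroupOf, Subgroup.mem_subgroupOf]
    constructor
    · intro hx
      have hx' : l * (x : G) * l⁻¹ ∈ K := hx
      refine ⟨l * (x : G) * l⁻¹, hx', ?_⟩
      show l⁻¹ * (l * (x : G) * l⁻¹) * l⁻¹⁻¹ = x
      group
    · rintro ⟨k, hk, hkx⟩
      have hkx' : l⁻¹ * k * l⁻¹⁻¹ = (x : G) := hkx
      have e1 : l * (x : G) * l⁻¹ = k := by
        rw [← hkx']
        group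
      show l * (x : G) * l⁻¹ ∈ K
      rw [e1]
      exact hk
  rw [e] at h1
  exact h1

/-- Restricting subnormality to an intermediate subgroup. -/
theorem subnormal_of_le {G : Type u} [Group G] (K M L : Subgroup G) (hML : M ≤ L)
    (h : (K.subgroupOf L).IsSubnormal) : (K.subgroupOf M).IsSubnormal := by
  have h1 := h.comap (Subgroup.inclusion hML)
  have e : (K.subgroupOf L).comap (Subgroup.inclusion hML) = K.subgroupOf M := by
    ext x
    rw [Subgroup.mem_comap, Subgroup.mem_subgroupOf, Subgroup.mem_subgroupOf]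
    rfl
  rw [e] at h1
  exact h1

/-- `J` normalizes `K` when `⁅K, J⁆ = K`. -/
theorem le_normalizer_of_commutator_eq {G : Type u} [Group G] (K J : Subgroup G)
    (h : ⁅K, J⁆ = K) : J ≤ Subgroup.normalizer (K : Set G) := by
  have key : ∀ j ∈ J, ∀ k ∈ K, j * k * j⁻¹ ∈ K := by
    intro j hj k hk
    have h1 : ⁅k, j⁆ ∈ K := by
      rw [← h]
      exact Subgroup.commutator_mem_commutator hk hj
    have e : j * k * j⁻¹ = ⁅k, j⁆⁻¹ * k := by
      rw [commutatorElement_def]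
      group
    rw [e]
    exact K.mul_mem (K.inv_mem h1) hk
  intro j hj
  rw [Subgroup.mem_normalizer_iff]
  intro k
  refine ⟨fun hk => key j hj k hk, fun hk => ?_⟩
  have h2 := key j⁻¹ (J.inv_mem hj) _ hk
  have e : j⁻¹ * (j * k * j⁻¹) * j⁻¹⁻¹ = k := by group
  rw [e] at h2
  exact h2

/-- **UQ-SA**. -/
theorem sA (h45 : St45.{u}) : StS.{u} := by
  intro G _ _ hZN T hT hT1 L hL K hK hKL hg l hl
  obtain ⟨g, hKg⟩ := hg
  obtain ⟨hchar, hsolv, hZ⟩ := hZN
  have hsub : (K.subgroupOf L).IsSubnormal :=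
    Cfsg.Agent.S2942.result hchar hsolv hZ T hT hT1 L hL K hK hKL
  have hK'L : K.map (MulAut.conj l⁻¹).toMonoidHom ≤ L := by
    rintro x ⟨k, hk, rfl⟩
    show l⁻¹ * k * l⁻¹⁻¹ ∈ L
    exact L.mul_mem (L.mul_mem (L.inv_mem hl) (hKL hk)) (L.inv_mem (L.inv_mem hl))
  have hsub' : ((K.map (MulAut.conj l⁻¹).toMonoidHom).subgroupOf L).IsSubnormal :=
    subnormal_conj K L l hl hsub
  have hTL : T ≤ L := hL.1.1
  have hJT : thompsonSubgroupOf 2 T ≤ T := Cfsg.Agent.H14.thompsonSubgroupOf_le 2 T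
  have hsup : K.map (MulAut.conj l⁻¹).toMonoidHom ⊔ thompsonSubgroupOf 2 T ≤ L :=
    sup_le hK'L (hJT.trans hTL)
  have hsub'' : ((K.map (MulAut.conj l⁻¹).toMonoidHom).subgroupOf
      (K.map (MulAut.conj l⁻¹).toMonoidHom ⊔ thompsonSubgroupOf 2 T)).IsSubnormal :=
    subnormal_of_le _ _ L hsup hsub'
  have hk0 := Cfsg.Agent.H12.Uq.k0conj (T.map (MulAut.conj g).toMonoidHom) K l⁻¹ hKg
  have hk0' : ∃ g' : G, K.map (MulAut.conj l⁻¹).toMonoidHom ∈
      jComponentsZero (T.map (MulAut.conj g').toMonoidHom) := by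
    refine ⟨l⁻¹ * g, ?_⟩
    have e : (T.map (MulAut.conj g).toMonoidHom).map (MulAut.conj l⁻¹).toMonoidHom =
        T.map (MulAut.conj (l⁻¹ * g)).toMonoidHom := by
      rw [Subgroup.map_map]
      congr 1
      ext x
      simp [mul_assoc]
    rw [← e]
    exact hk0
  have hJK' : IsJComponent T (K.map (MulAut.conj l⁻¹).toMonoidHom) :=
    h45 ⟨hchar, hsolv, hZ⟩ T hT hT1 L hL _ hK'L hsub'' hk0'
  have hJN : thompsonSubgroupOf 2 T ≤
      Subgroup.normalizer ((K.map (MulAut.conj l⁻¹).toMonoidHom : Subgroup G) : Set G) :=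
    le_normalizer_of_commutator_eq _ _ hJK'.2.1
  have hle := Cfsg.Agent.H59.Sp.le (G := G) (K.map (MulAut.conj l⁻¹).toMonoidHom)
  have hJW := hJN.trans hle
  rw [Cfsg.Agent.H12.Sp.wOf_conj_map] at hJW
  rintro x ⟨j, hj, rfl⟩
  have hj' := hJW hj
  rw [Subgroup.mem_normalizer_iff] at hj' ⊢
  intro w
  have key : ∀ y : G, y ∈ (wOf K).map (MulAut.conj l⁻¹).toMonoidHom ↔ l * y * l⁻¹ ∈ wOf K := by
    intro y
    constructor
    · rintro ⟨w', hw', rfl⟩
      have e : l * ((MulAut.conj l⁻¹).toMonoidHom w') * l⁻¹ = w' := by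
        show l * (l⁻¹ * w' * l⁻¹⁻¹) * l⁻¹ = w'
        group
      rw [e]
      exact hw'
    · intro hy
      refine ⟨l * y * l⁻¹, hy, ?_⟩
      show l⁻¹ * (l * y * l⁻¹) * l⁻¹⁻¹ = y
      group
  have h1 := hj' (l⁻¹ * w * l)
  rw [key, key] at h1
  have e1 : l * (l⁻¹ * w * l) * l⁻¹ = w := by group
  have e2 : l * (j * (l⁻¹ * w * l) * j⁻¹) * l⁻¹ =
      (MulAut.conj l).toMonoidHom j * w * ((MulAut.conj l).toMonoidHom j)⁻¹ := by
    show _ = (l * j * l⁻¹) * w * (l * j * l⁻¹)⁻¹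
    group
  rw [e1, e2] at h1
  exact h1

example (h45 : St45.{u}) : StS.{u} := sA h45

end Cfsg.Agent.H61.Uq

#print axioms Cfsg.Agent.H61.Uq.sA
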