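import Mathlib
import Cfsg.Agent.H74.W2PDefs

set_option autoImplicit false
set_option linter.unusedSectionVars false

/-!
# S0720 (Wielandt, degree 2p), helper61: basic facts on the two `x`-cycles
-/

namespace Cfsg.Agent.H61.W2P

open Cfsg.Agent.H74.W2P Equiv MulAction

variable {Ω : Type*} [Fintype Ω] [DecidableEq Ω]

theorem hyp_pow_apply_eq_iff {G : Subgroup (Perm Ω)} {p : ℕ} {x : Perm Ω} (hyp : Hyp G p x)
    (n : ℕ) (ω : Ω) : (x ^ n) ω = ω ↔ p ∣ n := by
  constructor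
  · intro h
    by_contra hn
    have hcop : Nat.Coprime n p := ((Nat.Prime.coprime_iff_not_dvd hyp.hp).2 hn).symm
    obtain ⟨m, -, hm⟩ := Nat.exists_mul_mod_eq_one_of_coprime hcop hyp.hp.one_lt
    apply hyp.hxfix ω
    have h1 : (x ^ n) ^ m = x := by
      rw [← pow_mul, ← pow_mod_orderOf, hyp.hxord, hm, pow_one]
    have h2 : ∀ k : ℕ, ((x ^ n) ^ k) ω = ω := by
      intro k
      induction k with
      | zero => simp
      | succ k ih => rw [pow_succ, Perm.mul_apply, h, ih]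
    have h3 := h2 m
    rw [h1] at h3
    exact h3
  · rintro ⟨k, rfl⟩
    rw [pow_mul, ← hyp.hxord, pow_orderOf_eq_one, one_pow]
    rfl

theorem hyp_pow_inj {G : Subgroup (Perm Ω)} {p : ℕ} {x : Perm Ω} (hyp : Hyp G p x)
    (a : Ω) {i j : ℕ} (hi : i < p) (hj : j < p) (h : (x ^ i) a = (x ^ j) a) : i = j := by
  wlog hij : i ≤ j generalizing i j
  · exact (this hj hi h.symm (by omega)).symm
  have h3 : (x ^ (j - i)) a = a := by
    have h4 : x ^ j = x ^ i * x ^ (j - i) := by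
      rw [← pow_add]; congr 1; omega
    rw [h4, Perm.mul_apply] at h
    exact ((x ^ i).injective h).symm
  have h5 := (hyp_pow_apply_eq_iff hyp _ _).1 h3
  have h6 := Nat.eq_zero_of_dvd_of_lt h5 (by omega)
  omega

theorem hyp_pow_val_natCast {G : Subgroup (Perm Ω)} {p : ℕ} {x : Perm Ω} (hyp : Hyp G p x)
    (n : ℕ) : x ^ ((n : ZMod p).val) = x ^ n := by
  rw [ZMod.val_natCast, ← hyp.hxord, pow_mod_orderOf]

theorem hyp_sameCycle_iff {G : Subgroup (Perm Ω)} {p : ℕ} {x : Perm Ω} (hyp : Hyp G p x)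
    (a b : Ω) : x.SameCycle a b ↔ ∃ z : ZMod p, (x ^ z.val) a = b := by
  constructor
  · intro h
    obtain ⟨i, hi⟩ := h.exists_nat_pow_eq
    refine ⟨(i : ZMod p), ?_⟩
    rw [hyp_pow_val_natCast hyp]
    exact hi
  · rintro ⟨z, rfl⟩
    exact ⟨(z.val : ℤ), by simp⟩

theorem hyp_val_inj {G : Subgroup (Perm Ω)} {p : ℕ} {x : Perm Ω} (hyp : Hyp G p x) (a : Ω) :
    Function.Injective (fun z : ZMod p => (x ^ z.val) a) := by
  have : NeZero p := ⟨hyp.hp.ne_zero⟩
  intro z z' h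
  exact ZMod.val_injective p (hyp_pow_inj hyp a (ZMod.val_lt z) (ZMod.val_lt z') h)

theorem hyp_card_cycle {G : Subgroup (Perm Ω)} {p : ℕ} {x : Perm Ω} (hyp : Hyp G p x) (a : Ω) :
    (Finset.univ.filter (fun ω => x.SameCycle a ω)).card = p := by
  have : NeZero p := ⟨hyp.hp.ne_zero⟩
  have h1 : (Finset.univ.filter (fun ω => x.SameCycle a ω)) =
      Finset.univ.image (fun z : ZMod p => (x ^ z.val) a) := by
    ext ω
    simp [hyp_sameCycle_iff hyp]
  rw [h1, Finset.card_image_of_injective _ (hyp_val_inj hyp a), Finset.card_univ, ZMod.card]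

theorem hyp_cover {G : Subgroup (Perm Ω)} {p : ℕ} {x : Perm Ω} (hyp : Hyp G p x) (a b : Ω)
    (hab : ¬ x.SameCycle a b) (ω : Ω) : x.SameCycle a ω ∨ x.SameCycle b ω := by
  by_contra hcon
  rw [not_or] at hcon
  have hdisj : Disjoint (Finset.univ.filter (fun ω => x.SameCycle a ω))
      (Finset.univ.filter (fun ω => x.SameCycle b ω)) := by
    rw [Finset.disjoint_left]
    intro c hc hc'
    simp only [Finset.mem_filter, Finset.mem_univ, true_and] at hc hc'
    exact hab (hc.trans hc'.symm)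
  have hcard := Finset.card_union_of_disjoint hdisj
  rw [hyp_card_cycle hyp, hyp_card_cycle hyp] at hcard
  have hsub : (Finset.univ.filter (fun ω => x.SameCycle a ω)) ∪
      (Finset.univ.filter (fun ω => x.SameCycle b ω)) ⊆ Finset.univ.erase ω := by
    intro c hc
    simp only [Finset.mem_union, Finset.mem_filter, Finset.mem_univ, true_and] at hc
    simp only [Finset.mem_erase, Finset.mem_univ, and_true]
    rintro rfl
    rcases hc with hc | hc
    · exact hcon.1 hc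
    · exact hcon.2 hc
  have h2 := Finset.card_le_card hsub
  rw [hcard, Finset.card_erase_of_mem (Finset.mem_univ _), Finset.card_univ, hyp.hcard] at h2
  have h3 := hyp.hp.pos
  omega

theorem hyp_sameCycle_other {G : Subgroup (Perm Ω)} {p : ℕ} {x : Perm Ω} (hyp : Hyp G p x)
    (a b : Ω) (hab : ¬ x.SameCycle a b) (ω : Ω) : x.SameCycle b ω ↔ ¬ x.SameCycle a ω := by
  constructor
  · intro h1 h2
    exact hab (h2.trans h1.symm)
  · intro h
    rcases hyp_cover hyp a b hab ω with h1 | h1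
    · exact absurd h1 h
    · exact h1

theorem mem_orbit_stab_iff (G : Subgroup (Perm Ω)) (a₀ ω ω' : Ω) :
    ω ∈ orbit (stabilizer G a₀) ω' ↔ ∃ g ∈ G, g a₀ = a₀ ∧ g ω' = ω := by
  constructor
  · rintro ⟨⟨⟨g, hg⟩, hga⟩, rfl⟩
    exact ⟨g, hg, hga, rfl⟩
  · rintro ⟨g, hg, hga, rfl⟩
    exact ⟨⟨⟨g, hg⟩, hga⟩, rfl⟩

theorem mk_eq_iff (G : Subgroup (Perm Ω)) (a₀ ω ω' : Ω) :
    (Quotient.mk'' ω : orbitRel.Quotient (stabilizer G a₀) Ω) = Quotient.mk'' ω' ↔
      ω ∈ orbit (stabilizer G a₀) ω' := by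
  rw [Quotient.eq'']
  exact orbitRel_apply

end Cfsg.Agent.H61.W2P
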