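import Mathlib
import Cfsg.Agent.H74.W2PDefs
import Cfsg.Agent.H61.W2PBase

set_option autoImplicit false
set_option linter.unusedSectionVars false

/-!
# S0720 (Wielandt, degree 2p), piece AR (helper61): bridge from the permutation group to `ARA`
-/

namespace Cfsg.Agent.H61.W2P

open Cfsg.Agent.H74.W2P Equiv MulAction

variable {Ω : Type*} [Fintype Ω] [DecidableEq Ω]

theorem cnt_cycle_eq {G : Subgroup (Perm Ω)} {p : ℕ} [Fact p.Prime] {x : Perm Ω}
    (hyp : Hyp G p x) {Q : Type*} (mk : Ω → Q) (b : Ω) (q : Q) :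
    cnt (fun z : ZMod p => mk ((x ^ z.val) b)) q =
      Nat.card {ω : Ω // mk ω = q ∧ x.SameCycle b ω} := by
  classical
  rw [Nat.card_eq_fintype_card, Fintype.card_subtype]
  unfold cnt
  rw [← Finset.card_image_of_injective _ (hyp_val_inj hyp b)]
  congr 1
  ext ω
  simp only [Finset.mem_image, Finset.mem_filter, Finset.mem_univ, true_and]
  constructor
  · rintro ⟨z, hz, rfl⟩
    exact ⟨hz, (hyp_sameCycle_iff hyp _ _).2 ⟨z, rfl⟩⟩
  · rintro ⟨h1, h2⟩
    obtain ⟨z, rfl⟩ := (hyp_sameCycle_iff hyp _ _).1 h2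
    exact ⟨z, h1, rfl⟩

theorem kval_eq_cnt {G : Subgroup (Perm Ω)} {p : ℕ} [Fact p.Prime] {x : Perm Ω}
    (hyp : Hyp G p x) (a₀ ω : Ω) :
    kval G x a₀ ω = cnt (fun z : ZMod p =>
      (Quotient.mk'' ((x ^ z.val) a₀) : orbitRel.Quotient (stabilizer G a₀) Ω))
        (Quotient.mk'' ω) := by
  rw [cnt_cycle_eq hyp (fun ω => (Quotient.mk'' ω : orbitRel.Quotient (stabilizer G a₀) Ω))]
  unfold kval
  apply Nat.card_congr
  apply Equiv.subtypeEquivRight
  intro ω'
  rw [mk_eq_iff]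

theorem nval_eq_cnt {G : Subgroup (Perm Ω)} {p : ℕ} [Fact p.Prime] {x : Perm Ω}
    (hyp : Hyp G p x) (a₀ β ω : Ω) (hβ : ¬ x.SameCycle a₀ β) :
    nval G a₀ ω = cnt (fun z : ZMod p =>
      (Quotient.mk'' ((x ^ z.val) a₀) : orbitRel.Quotient (stabilizer G a₀) Ω))
        (Quotient.mk'' ω) + cnt (fun z : ZMod p =>
      (Quotient.mk'' ((x ^ z.val) β) : orbitRel.Quotient (stabilizer G a₀) Ω))
        (Quotient.mk'' ω) := by
  classical
  rw [cnt_cycle_eq hyp (fun ω => (Quotient.mk'' ω : orbitRel.Quotient (stabilizer G a₀) Ω)),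
    cnt_cycle_eq hyp (fun ω => (Quotient.mk'' ω : orbitRel.Quotient (stabilizer G a₀) Ω))]
  unfold nval
  rw [Nat.card_eq_fintype_card, Nat.card_eq_fintype_card, Nat.card_eq_fintype_card,
    Fintype.card_subtype, Fintype.card_subtype, Fintype.card_subtype]
  rw [← Finset.card_filter_add_card_filter_not (fun ω' => x.SameCycle a₀ ω')]
  congr 1
  · congr 1
    ext ω'
    simp only [Finset.mem_filter, Finset.mem_univ, true_and, mk_eq_iff]
  · congr 1
    ext ω'
    simp only [Finset.mem_filter, Finset.mem_univ, true_and, mk_eq_iff,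
      hyp_sameCycle_other hyp a₀ β hβ]

/-- **S0720-AR**: bridge from the permutation group to the abstract statement `ARA`. -/
theorem ar {G : Subgroup (Perm Ω)} {p : ℕ} [Fact p.Prime] {x : Perm Ω} (hyp : Hyp G p x)
    (a₀ β : Ω) (hβ : ¬ x.SameCycle a₀ β) (e₀ : ℕ) (he₀ : 2 ≤ e₀)
    [Fintype (orbitRel.Quotient (stabilizer G a₀) Ω)]
    (hara : ARA p (orbitRel.Quotient (stabilizer G a₀) Ω) e₀)
    (hone : ∑ ω ∈ Finset.univ.erase a₀,
      ((2 * (kval G x a₀ ω : ℚ) - nval G a₀ ω) / nval G a₀ ω) ^ 2 = 1)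
    (hn : ∀ ω, ω ≠ a₀ → 2 ≤ nval G a₀ ω)
    (g₀ : Perm Ω) (hg₀ : g₀ ∈ G) (hga : g₀ a₀ = a₀) (hgβ : g₀ β = β) (a : ℕ)
    (hconj : g₀ * x * g₀⁻¹ = x ^ a) (hord : orderOf (a : ZMod p) = e₀)
    (Fb : Ω → ZMod p) (hF0 : Fb a₀ = 0) (hFne : ∃ ω, Fb ω ≠ 0)
    (hFinv : ∀ g ∈ G, g a₀ = a₀ → ∀ ω, Fb (g ω) = Fb ω)
    (B C A' B' C' : ZMod p)
    (h1 : ∀ n : ℕ, Fb ((x ^ n) a₀) = B * (n : ZMod p) ^ e₀ + C * (n : ZMod p) ^ (2 * e₀))
    (h2 : ∀ n : ℕ, Fb ((x ^ n) β) = A' + B' * (n : ZMod p) ^ e₀ + C' * (n : ZMod p) ^ (2 * e₀)) :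
    False := by
  classical
  let mk : Ω → orbitRel.Quotient (stabilizer G a₀) Ω := fun ω => Quotient.mk'' ω
  have hmk : ∀ ω ω', mk ω = mk ω' ↔ ∃ g ∈ G, g a₀ = a₀ ∧ g ω' = ω := by
    intro ω ω'
    exact (mk_eq_iff G a₀ ω ω').trans (mem_orbit_stab_iff G a₀ ω ω')
  have hmk0 : ∀ ω, mk ω = mk a₀ ↔ ω = a₀ := by
    intro ω
    rw [hmk]
    constructor
    · rintro ⟨g, -, hga, rfl⟩
      exact hga
    · rintro rfl
      exact ⟨1, G.one_mem, rfl, rfl⟩
  let c1 : ZMod p → orbitRel.Quotient (stabilizer G a₀) Ω := fun z => mk ((x ^ z.val) a₀)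
  let c2 : ZMod p → orbitRel.Quotient (stabilizer G a₀) Ω := fun z => mk ((x ^ z.val) β)
  let val : orbitRel.Quotient (stabilizer G a₀) Ω → ZMod p :=
    Quotient.lift Fb (by
      intro ω ω' h
      have h' : ω ∈ orbit (stabilizer G a₀) ω' := orbitRel_apply.1 h
      obtain ⟨g, hg, hga, rfl⟩ := (mem_orbit_stab_iff G a₀ ω ω').1 h'
      exact hFinv g hg hga ω')
  have hconjn : ∀ n : ℕ, x ^ (a * n) = g₀ * x ^ n * g₀⁻¹ := by
    intro n
    rw [pow_mul, ← hconj, conj_pow]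
  have hmulval : ∀ z : ZMod p, x ^ (((a : ZMod p) * z).val) = g₀ * x ^ z.val * g₀⁻¹ := by
    intro z
    rw [← hconjn, ← hyp_pow_val_natCast hyp (a * z.val)]
    congr 2
    push_cast
    rw [ZMod.natCast_zmod_val]
  have hg₀inv_a : g₀⁻¹ a₀ = a₀ := by
    rw [Perm.inv_eq_iff_eq]; exact hga.symm
  have hg₀inv_β : g₀⁻¹ β = β := by
    rw [Perm.inv_eq_iff_eq]; exact hgβ.symm
  refine hara c1 c2 (mk a₀) ?_ ?_ ?_ (a : ZMod p) hord ?_ ?_ ?_ ?_ val ?_ B C A' B' C' ?_ ?_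
  · intro z
    show mk ((x ^ z.val) a₀) = mk a₀ ↔ z = 0
    rw [hmk0, hyp_pow_apply_eq_iff hyp]
    constructor
    · intro h
      have h3 := Nat.eq_zero_of_dvd_of_lt h (ZMod.val_lt z)
      exact (ZMod.val_eq_zero z).1 h3
    · rintro rfl
      simp
  · intro z
    show mk ((x ^ z.val) β) ≠ mk a₀
    rw [Ne, hmk0]
    intro h
    apply hβ
    have h3 : x.SameCycle β a₀ := (hyp_sameCycle_iff hyp _ _).2 ⟨z, h⟩
    exact h3.symm
  · intro q
    induction q using Quotient.inductionOn' with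
    | h ω =>
      rcases hyp_cover hyp a₀ β hβ ω with h | h
      · obtain ⟨z, hz⟩ := (hyp_sameCycle_iff hyp _ _).1 h
        exact ⟨z, Or.inl (congrArg mk hz)⟩
      · obtain ⟨z, hz⟩ := (hyp_sameCycle_iff hyp _ _).1 h
        exact ⟨z, Or.inr (congrArg mk hz)⟩
  · intro z
    show mk ((x ^ ((a : ZMod p) * z).val) a₀) = mk ((x ^ z.val) a₀)
    rw [hmulval, hmk]
    refine ⟨g₀, hg₀, hga, ?_⟩
    simp [Perm.mul_apply, hg₀inv_a]
  · intro z
    show mk ((x ^ ((a : ZMod p) * z).val) β) = mk ((x ^ z.val) β)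
    rw [hmulval, hmk]
    refine ⟨g₀, hg₀, hga, ?_⟩
    simp [Perm.mul_apply, hg₀inv_β]
  · intro q hq
    induction q using Quotient.inductionOn' with
    | h ω =>
      have hω : ω ≠ a₀ := by
        rintro rfl
        exact hq rfl
      have h3 := hn ω hω
      rw [nval_eq_cnt hyp a₀ β ω hβ] at h3
      exact h3
  · have hk : ∀ ω, (kval G x a₀ ω : ℚ) = cnt c1 (mk ω) := fun ω => by
      rw [kval_eq_cnt hyp a₀ ω]
    have hnv : ∀ ω, (nval G a₀ ω : ℚ) = cnt c1 (mk ω) + cnt c2 (mk ω) := fun ω => by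
      rw [nval_eq_cnt hyp a₀ β ω hβ]
      push_cast
      rfl
    let g : orbitRel.Quotient (stabilizer G a₀) Ω → ℚ := fun q =>
      ((2 * (cnt c1 q : ℚ) - (cnt c1 q + cnt c2 q)) / (cnt c1 q + cnt c2 q)) ^ 2
    have h3 : ∑ ω ∈ Finset.univ.erase a₀, g (mk ω) = 1 := by
      rw [← hone]
      apply Finset.sum_congr rfl
      intro ω _
      simp only [g, hk, hnv]
    rw [← Finset.sum_fiberwise_of_maps_to (t := Finset.univ) (g := mk)
      (fun _ _ => Finset.mem_univ _)] at h3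
    have h0 : ∑ ω ∈ (Finset.univ.erase a₀).filter (fun ω => mk ω = mk a₀), g (mk ω) = 0 := by
      apply Finset.sum_eq_zero
      intro ω hω
      rw [Finset.mem_filter, Finset.mem_erase] at hω
      exact absurd ((hmk0 ω).1 hω.2) hω.1.1
    rw [← Finset.sum_erase (s := Finset.univ) (a := mk a₀)
      (f := fun q => ∑ ω ∈ (Finset.univ.erase a₀).filter (fun ω => mk ω = q), g (mk ω)) h0] at h3
    rw [← h3]
    refine Finset.sum_congr (by congr!) ?_
    intro q hq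
    rw [Finset.mem_erase] at hq
    have h4 : ∀ ω ∈ (Finset.univ.erase a₀).filter (fun ω => mk ω = q), g (mk ω) = g q := by
      intro ω hω
      rw [(Finset.mem_filter.1 hω).2]
    rw [Finset.sum_congr rfl h4, Finset.sum_const, nsmul_eq_mul]
    have h5 : ((Finset.univ.erase a₀).filter (fun ω => mk ω = q)).card
        = cnt c1 q + cnt c2 q := by
      induction q using Quotient.inductionOn' with
      | h ω₀ =>
        have h6 : (Finset.univ.erase a₀).filter (fun ω => mk ω = mk ω₀)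
            = Finset.univ.filter (fun ω => ω ∈ orbit (stabilizer G a₀) ω₀) := by
          ext ω
          simp only [Finset.mem_filter, Finset.mem_erase, Finset.mem_univ, and_true, true_and]
          constructor
          · rintro ⟨-, h⟩
            exact (mk_eq_iff G a₀ ω ω₀).1 h
          · intro h
            refine ⟨?_, (mk_eq_iff G a₀ ω ω₀).2 h⟩
            intro hωa
            rw [hωa] at h
            exact hq.1 ((mk_eq_iff G a₀ _ _).2 h).symm
        have h7 := nval_eq_cnt hyp a₀ β ω₀ hβ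
        unfold nval at h7
        rw [Nat.card_eq_fintype_card, Fintype.card_subtype] at h7
        rw [← h7]
        exact congrArg Finset.card h6
    rw [h5]
    simp only [g]
    push_cast
    by_cases h00 : (cnt c1 q : ℚ) + cnt c2 q = 0
    · rw [h00]
      simp
    · field_simp
      ring
  · obtain ⟨ω, hω⟩ := hFne
    exact ⟨mk ω, hω⟩
  · intro z
    show Fb ((x ^ z.val) a₀) = _
    rw [h1, ZMod.natCast_zmod_val]
  · intro z
    show Fb ((x ^ z.val) β) = _
    rw [h2, ZMod.natCast_zmod_val]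

end Cfsg.Agent.H61.W2P
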