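import Mathlib
import Cfsg.Agent.H74.W2PDefs
import Cfsg.Agent.H61.W2PBase

set_option autoImplicit false
set_option linter.unusedSectionVars false

/-!
# S0720 (Wielandt, degree 2p), helper61: the eigen-projections `Pj h` onto `Vh h`
-/

namespace Cfsg.Agent.H61.W2P

open Cfsg.Agent.H74.W2P Equiv MulAction

variable {Ω : Type*} [Fintype Ω] [DecidableEq Ω]

theorem zeta_prim {p : ℕ} (hp : p ≠ 0) : IsPrimitiveRoot (zeta p) p :=
  Complex.isPrimitiveRoot_exp p hp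

theorem zeta_pow_self {p : ℕ} (hp : p ≠ 0) : zeta p ^ p = 1 := (zeta_prim hp).pow_eq_one

theorem zeta_ne_zero {p : ℕ} (hp : p ≠ 0) : zeta p ≠ 0 := (zeta_prim hp).ne_zero hp

/-- sums over `ZMod p` as sums over `range p` -/
theorem sum_zmod_val {p : ℕ} [NeZero p] {M : Type*} [AddCommMonoid M] (F : ℕ → M) :
    ∑ h : ZMod p, F h.val = ∑ i ∈ Finset.range p, F i := by
  refine Finset.sum_bij (fun h _ => h.val) ?_ ?_ ?_ ?_
  · intro h _
    exact Finset.mem_range.2 (ZMod.val_lt h)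
  · intro h _ h' _ hh
    exact ZMod.val_injective p hh
  · intro i hi
    exact ⟨(i : ZMod p), Finset.mem_univ _, ZMod.val_natCast_of_lt (Finset.mem_range.1 hi)⟩
  · intro h _
    rfl

/-- the projection onto `Vh h` -/
noncomputable def Pj (x : Perm Ω) (p : ℕ) (h : ZMod p) : (Ω → ℂ) →ₗ[ℂ] (Ω → ℂ) :=
  (p : ℂ)⁻¹ • ∑ k ∈ Finset.range p,
    ((zeta p)⁻¹ ^ (h.val * k)) • LinearMap.funLeft ℂ ℂ (x ^ k)

theorem Pj_apply (x : Perm Ω) (p : ℕ) (h : ZMod p) (f : Ω → ℂ) (ω : Ω) :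
    Pj x p h f ω = (p : ℂ)⁻¹ * ∑ k ∈ Finset.range p,
      (zeta p)⁻¹ ^ (h.val * k) * f ((x ^ k) ω) := by
  simp [Pj, LinearMap.funLeft, Finset.sum_apply]

theorem Pj_mem_Vh {G : Subgroup (Perm Ω)} {p : ℕ} {x : Perm Ω} (hyp : Hyp G p x)
    (h : ZMod p) (f : Ω → ℂ) : Pj x p h f ∈ Vh x p h := by
  have hp0 : p ≠ 0 := hyp.hp.ne_zero
  have hz := zeta_ne_zero hp0
  intro ω
  rw [Pj_apply, Pj_apply]
  set c : ℕ → ℂ := fun k => (zeta p)⁻¹ ^ (h.val * k) * f ((x ^ k) ω) with hc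
  have h1 : ∀ k, (zeta p)⁻¹ ^ (h.val * k) * f ((x ^ k) (x ω)) = zeta p ^ h.val * c (k + 1) := by
    intro k
    simp only [hc]
    have h2 : (x ^ (k + 1)) ω = (x ^ k) (x ω) := by
      rw [pow_succ, Perm.mul_apply]
    rw [h2, mul_add, mul_one, pow_add, ← mul_assoc, ← mul_assoc]
    congr 1
    rw [mul_comm (zeta p ^ h.val), mul_assoc, ← mul_pow, mul_inv_cancel₀ hz, one_pow, mul_one]
  have h3 : c p = c 0 := by
    simp only [hc]
    have h4 : x ^ p = 1 := by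
      rw [← hyp.hxord]; exact pow_orderOf_eq_one x
    rw [h4, mul_comm h.val p, pow_mul, inv_pow, zeta_pow_self hp0]
    simp
  have h5 : ∑ k ∈ Finset.range p, c (k + 1) = ∑ k ∈ Finset.range p, c k := by
    have h6 := Finset.sum_range_succ' c p
    have h7 := Finset.sum_range_succ c p
    rw [h7, h3] at h6
    exact (add_right_cancel h6).symm
  rw [Finset.sum_congr rfl (fun k _ => h1 k), ← Finset.mul_sum, h5]
  ring

theorem Vh_pow_apply {p : ℕ} {x : Perm Ω} {h : ZMod p} {f : Ω → ℂ} (hf : f ∈ Vh x p h)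
    (k : ℕ) (ω : Ω) : f ((x ^ k) ω) = (zeta p ^ h.val) ^ k * f ω := by
  induction k with
  | zero => simp
  | succ k ih =>
    rw [pow_succ', Perm.mul_apply, hf, ih]
    ring

theorem Pj_of_mem {G : Subgroup (Perm Ω)} {p : ℕ} {x : Perm Ω} (hyp : Hyp G p x)
    (h : ZMod p) (f : Ω → ℂ) (hf : f ∈ Vh x p h) : Pj x p h f = f := by
  have hp0 : p ≠ 0 := hyp.hp.ne_zero
  have hz := zeta_ne_zero hp0
  funext ω
  rw [Pj_apply]
  have h1 : ∀ k ∈ Finset.range p, (zeta p)⁻¹ ^ (h.val * k) * f ((x ^ k) ω) = f ω := by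
    intro k _
    rw [Vh_pow_apply hf, ← mul_assoc, ← pow_mul, ← mul_pow, inv_mul_cancel₀ hz, one_pow, one_mul]
  rw [Finset.sum_congr rfl h1, Finset.sum_const, Finset.card_range, nsmul_eq_mul, ← mul_assoc,
    inv_mul_cancel₀ (Nat.cast_ne_zero.2 hp0), one_mul]

theorem sum_Pj {G : Subgroup (Perm Ω)} {p : ℕ} [NeZero p] {x : Perm Ω} (hyp : Hyp G p x)
    (f : Ω → ℂ) : ∑ h : ZMod p, Pj x p h f = f := by
  have hp0 : p ≠ 0 := hyp.hp.ne_zero
  have hz := zeta_ne_zero hp0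
  funext ω
  rw [Finset.sum_apply]
  simp only [Pj_apply]
  rw [← Finset.mul_sum, Finset.sum_comm]
  have h1 : ∀ k ∈ Finset.range p,
      ∑ h : ZMod p, (zeta p)⁻¹ ^ (h.val * k) * f ((x ^ k) ω) =
        if k = 0 then (p : ℂ) * f ω else 0 := by
    intro k hk
    rw [← Finset.sum_mul]
    have h2 : ∑ h : ZMod p, (zeta p)⁻¹ ^ (h.val * k) =
        ∑ i ∈ Finset.range p, ((zeta p)⁻¹ ^ k) ^ i := by
      rw [← sum_zmod_val (p := p) (fun i => ((zeta p)⁻¹ ^ k) ^ i)]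
      apply Finset.sum_congr rfl
      intro h _
      rw [← pow_mul, mul_comm]
    rw [h2]
    split_ifs with hk0
    · subst hk0
      simp
    · have hprim : IsPrimitiveRoot ((zeta p)⁻¹ ^ k) p := by
        apply IsPrimitiveRoot.pow_of_coprime (zeta_prim hp0).inv
        apply Nat.Coprime.symm
        rw [Nat.Prime.coprime_iff_not_dvd hyp.hp]
        intro hdvd
        have := Nat.le_of_dvd (Nat.pos_of_ne_zero hk0) hdvd
        have := Finset.mem_range.1 hk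
        omega
      rw [hprim.geom_sum_eq_zero hyp.hp.one_lt, zero_mul]
  rw [Finset.sum_congr rfl h1, Finset.sum_ite_eq' (Finset.range p) 0]
  rw [if_pos (Finset.mem_range.2 (Nat.pos_of_ne_zero hp0)), ← mul_assoc,
    inv_mul_cancel₀ (Nat.cast_ne_zero.2 hp0), one_mul]

theorem U0_pull {G : Subgroup (Perm Ω)} {x : Perm Ω} (a₀ : Ω) (y : Perm Ω) (hy : y ∈ G)
    (f : Ω → ℂ) (hf : f ∈ U0 G x a₀) : LinearMap.funLeft ℂ ℂ y f ∈ U0 G x a₀ := by
  have h1 : (U0 G x a₀).map (LinearMap.funLeft ℂ ℂ y) ≤ U0 G x a₀ := by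
    unfold U0
    rw [Submodule.map_span_le]
    rintro m ⟨g, hg, rfl⟩
    apply Submodule.subset_span
    exact ⟨g * y, G.mul_mem hg hy, rfl⟩
  exact h1 (Submodule.mem_map_of_mem hf)

theorem U0_Pj {G : Subgroup (Perm Ω)} {p : ℕ} {x : Perm Ω} (hyp : Hyp G p x) (a₀ : Ω)
    (h : ZMod p) (f : Ω → ℂ) (hf : f ∈ U0 G x a₀) : Pj x p h f ∈ U0 G x a₀ := by
  unfold Pj
  rw [LinearMap.smul_apply, LinearMap.sum_apply]
  apply Submodule.smul_mem
  apply Submodule.sum_mem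
  intro k _
  rw [LinearMap.smul_apply]
  apply Submodule.smul_mem
  exact U0_pull a₀ (x ^ k) (G.pow_mem hyp.hxG k) f hf

end Cfsg.Agent.H61.W2P
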