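import Mathlib
import Cfsg.Agent.H74.W2PDefs
import Cfsg.Agent.H61.W2PBase
import Cfsg.Agent.H61.W2PProj

set_option autoImplicit false
set_option linter.unusedSectionVars false

/-!
# S0720 (Wielandt, degree 2p), piece LA13 (helper61): `∑ (2k - n)² / n² = 1`
-/

namespace Cfsg.Agent.H61.W2P

open Cfsg.Agent.H74.W2P Equiv MulAction

variable {Ω : Type*} [Fintype Ω] [DecidableEq Ω]

theorem sig_sq (x : Perm Ω) (a₀ ω : Ω) : sig x a₀ ω * sig x a₀ ω = 1 := by
  unfold sig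
  split_ifs <;> simp

theorem sig_apply_x (x : Perm Ω) (a₀ ω : Ω) : sig x a₀ (x ω) = sig x a₀ ω := by
  unfold sig
  simp [Perm.sameCycle_apply_right]

theorem sig_ne_zero (x : Perm Ω) (a₀ : Ω) : sig x a₀ ≠ 0 := by
  intro h
  have h1 := congrFun h a₀
  unfold sig at h1
  rw [if_pos (Perm.SameCycle.refl x a₀)] at h1
  exact one_ne_zero h1

theorem card_not_cycle {G : Subgroup (Perm Ω)} {p : ℕ} {x : Perm Ω} (hyp : Hyp G p x) (a₀ : Ω) :
    (Finset.univ.filter (fun ω => ¬ x.SameCycle a₀ ω)).card = p := by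
  have h1 := Finset.card_filter_add_card_filter_not (s := (Finset.univ : Finset Ω))
    (fun ω => x.SameCycle a₀ ω)
  rw [hyp_card_cycle hyp a₀, Finset.card_univ, hyp.hcard] at h1
  omega

theorem sum_sig {G : Subgroup (Perm Ω)} {p : ℕ} {x : Perm Ω} (hyp : Hyp G p x) (a₀ : Ω) :
    ∑ ω, sig x a₀ ω = 0 := by
  unfold sig
  rw [Finset.sum_ite, Finset.sum_const, Finset.sum_const, hyp_card_cycle hyp a₀,
    card_not_cycle hyp a₀]
  simp

theorem sig_mem_U0 (G : Subgroup (Perm Ω)) (x : Perm Ω) (a₀ : Ω) : sig x a₀ ∈ U0 G x a₀ :=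
  Submodule.subset_span ⟨1, G.one_mem, rfl⟩

theorem sig_comp_mem_U0 (G : Subgroup (Perm Ω)) (x : Perm Ω) (a₀ : Ω) (g : Perm Ω)
    (hg : g ∈ G) : (fun ω => sig x a₀ (g ω)) ∈ U0 G x a₀ :=
  Submodule.subset_span ⟨g, hg, rfl⟩

theorem sum_U0 {G : Subgroup (Perm Ω)} {p : ℕ} {x : Perm Ω} (hyp : Hyp G p x) (a₀ : Ω)
    (f : Ω → ℂ) (hf : f ∈ U0 G x a₀) : ∑ ω, f ω = 0 := by
  unfold U0 at hf
  induction hf using Submodule.span_induction with
  | mem f hf =>
    obtain ⟨g, hg, rfl⟩ := hf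
    rw [Equiv.sum_comp g (sig x a₀)]
    exact sum_sig hyp a₀
  | zero => simp
  | add f f' _ _ h1 h2 => simp [Finset.sum_add_distrib, h1, h2]
  | smul c f _ h1 => simp [← Finset.mul_sum, h1]

theorem exists_not_sameCycle {G : Subgroup (Perm Ω)} {p : ℕ} {x : Perm Ω} (hyp : Hyp G p x)
    (a₀ : Ω) : ∃ β, ¬ x.SameCycle a₀ β := by
  by_contra hcon
  rw [not_exists] at hcon
  have h1 : (Finset.univ.filter (fun ω => x.SameCycle a₀ ω)) = Finset.univ := by
    ext ω
    simp only [Finset.mem_filter, Finset.mem_univ, true_and, iff_true]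
    exact not_not.1 (hcon ω)
  have h2 := hyp_card_cycle hyp a₀
  rw [h1, Finset.card_univ, hyp.hcard] at h2
  have h3 := hyp.hp.pos
  omega

theorem U0_inf_Vh_zero {G : Subgroup (Perm Ω)} {p : ℕ} {x : Perm Ω} (hyp : Hyp G p x)
    (a₀ : Ω) : U0 G x a₀ ⊓ Vh x p 0 = Submodule.span ℂ {sig x a₀} := by
  apply le_antisymm
  · rintro f ⟨hfU, hfV⟩
    rw [Submodule.mem_span_singleton]
    have hinv : ∀ (k : ℕ) (ω : Ω), f ((x ^ k) ω) = f ω := by
      intro k ω
      rw [Vh_pow_apply hfV]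
      simp [ZMod.val_zero]
    obtain ⟨β, hβ⟩ := exists_not_sameCycle hyp a₀
    have hval : ∀ ω, f ω = if x.SameCycle a₀ ω then f a₀ else f β := by
      intro ω
      split_ifs with h
      · obtain ⟨z, rfl⟩ := (hyp_sameCycle_iff hyp _ _).1 h
        exact hinv _ _
      · obtain ⟨z, rfl⟩ := (hyp_sameCycle_iff hyp _ _).1
          ((hyp_sameCycle_other hyp a₀ β hβ ω).2 h)
        exact hinv _ _
    have hsum := sum_U0 hyp a₀ f hfU
    rw [Finset.sum_congr rfl (fun ω _ => hval ω), Finset.sum_ite, Finset.sum_const,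
      Finset.sum_const, hyp_card_cycle hyp a₀, card_not_cycle hyp a₀] at hsum
    have hfβ : f β = - f a₀ := by
      have hp0 : (p : ℂ) ≠ 0 := Nat.cast_ne_zero.2 hyp.hp.ne_zero
      rw [nsmul_eq_mul, nsmul_eq_mul, ← mul_add] at hsum
      have h3 := (mul_eq_zero.1 hsum).resolve_left hp0
      linear_combination h3
    refine ⟨f a₀, ?_⟩
    funext ω
    rw [hval ω, hfβ]
    simp only [Pi.smul_apply, sig, smul_eq_mul]
    split_ifs <;> ring
  · rw [Submodule.span_singleton_le_iff_mem]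
    refine ⟨sig_mem_U0 G x a₀, ?_⟩
    intro ω
    rw [sig_apply_x]
    simp

open Classical in
/-- the averaged Gram matrix of the translates of `σ` -/
noncomputable def Mmat (G : Subgroup (Perm Ω)) (x : Perm Ω) (a₀ : Ω) : Matrix Ω Ω ℂ :=
  fun i j => (Nat.card G : ℂ)⁻¹ * ∑ g : G, sig x a₀ (g.1 i) * sig x a₀ (g.1 j)

theorem card_G_ne_zero (G : Subgroup (Perm Ω)) : (Nat.card G : ℂ) ≠ 0 :=
  Nat.cast_ne_zero.2 Nat.card_pos.ne'

theorem Mmat_cent (G : Subgroup (Perm Ω)) (x : Perm Ω) (a₀ : Ω) : CentC G (Mmat G x a₀) := by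
  classical
  intro h hh i j
  unfold Mmat
  congr 1
  exact Equiv.sum_comp (Equiv.mulRight (⟨h, hh⟩ : G))
    (fun g : G => sig x a₀ (g.1 i) * sig x a₀ (g.1 j))

theorem Mmat_symm (G : Subgroup (Perm Ω)) (x : Perm Ω) (a₀ : Ω) (i j : Ω) :
    Mmat G x a₀ i j = Mmat G x a₀ j i := by
  classical
  unfold Mmat
  congr 1
  apply Finset.sum_congr rfl
  intro g _
  ring

theorem Mmat_diag (G : Subgroup (Perm Ω)) (x : Perm Ω) (a₀ : Ω) (i : Ω) :
    Mmat G x a₀ i i = 1 := by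
  classical
  unfold Mmat
  simp only [sig_sq, Finset.sum_const, Finset.card_univ, nsmul_eq_mul, mul_one]
  rw [← Nat.card_eq_fintype_card]
  exact inv_mul_cancel₀ (card_G_ne_zero G)

open Classical in
theorem Mmat_mulVec (G : Subgroup (Perm Ω)) (x : Perm Ω) (a₀ : Ω) (f : Ω → ℂ) (i : Ω) :
    (Mmat G x a₀).mulVec f i = (Nat.card G : ℂ)⁻¹ *
      ∑ g : G, sig x a₀ (g.1 i) * ∑ j, sig x a₀ (g.1 j) * f j := by
  classical
  simp only [Matrix.mulVec, dotProduct, Mmat, Finset.mul_sum, Finset.sum_mul, mul_assoc]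
  exact Finset.sum_comm

theorem Mmat_mulVec_mem (G : Subgroup (Perm Ω)) (x : Perm Ω) (a₀ : Ω) (f : Ω → ℂ) :
    (Mmat G x a₀).mulVec f ∈ U0 G x a₀ := by
  classical
  have h1 : (Mmat G x a₀).mulVec f = ∑ g : G,
      ((Nat.card G : ℂ)⁻¹ * ∑ j, sig x a₀ (g.1 j) * f j) • (fun ω => sig x a₀ (g.1 ω)) := by
    funext i
    rw [Mmat_mulVec, Finset.sum_apply, Finset.mul_sum]
    apply Finset.sum_congr rfl
    intro g _
    simp only [Pi.smul_apply, smul_eq_mul]
    ring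
  rw [h1]
  apply Submodule.sum_mem
  intro g _
  apply Submodule.smul_mem
  exact sig_comp_mem_U0 G x a₀ g.1 g.2

theorem Mmat_entry {G : Subgroup (Perm Ω)} {p : ℕ} {x : Perm Ω} (hyp : Hyp G p x) (a₀ δ : Ω)
    (hsc : ScalU G x a₀) :
    (nval G a₀ δ : ℂ) * Mmat G x a₀ a₀ δ = 2 * (kval G x a₀ δ : ℂ) - nval G a₀ δ := by
  classical
  let A : Matrix Ω Ω ℂ := fun i j => if ∃ g ∈ G, g a₀ = i ∧ g δ = j then 1 else 0
  have hA : CentC G A := by
    intro h hh i j
    simp only [A]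
    congr 1
    apply propext
    constructor
    · rintro ⟨g, hg, h1, h2⟩
      refine ⟨h⁻¹ * g, G.mul_mem (G.inv_mem hh) hg, ?_, ?_⟩
      · simp [Perm.mul_apply, h1]
      · simp [Perm.mul_apply, h2]
    · rintro ⟨g, hg, rfl, rfl⟩
      exact ⟨h * g, G.mul_mem hh hg, rfl, rfl⟩
  have hA0 : ∀ j, A a₀ j = if j ∈ orbit (stabilizer G a₀) δ then 1 else 0 := by
    intro j
    simp only [A, mem_orbit_stab_iff]
  have hk : kval G x a₀ δ = (Finset.univ.filter
      (fun j => j ∈ orbit (stabilizer G a₀) δ ∧ x.SameCycle a₀ j)).card := by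
    unfold kval
    rw [Nat.card_eq_fintype_card, Fintype.card_subtype]
  have hn0 : nval G a₀ δ = (Finset.univ.filter
      (fun j => j ∈ orbit (stabilizer G a₀) δ)).card := by
    unfold nval
    rw [Nat.card_eq_fintype_card, Fintype.card_subtype]
  have hn : nval G a₀ δ = (Finset.univ.filter
      (fun j => j ∈ orbit (stabilizer G a₀) δ ∧ x.SameCycle a₀ j)).card +
      (Finset.univ.filter
      (fun j => j ∈ orbit (stabilizer G a₀) δ ∧ ¬ x.SameCycle a₀ j)).card := by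
    rw [hn0, ← Finset.card_filter_add_card_filter_not (fun j => x.SameCycle a₀ j),
      Finset.filter_filter, Finset.filter_filter]
  have haA : ∑ j, A a₀ j * sig x a₀ j = 2 * (kval G x a₀ δ : ℂ) - nval G a₀ δ := by
    simp only [hA0, ite_mul, one_mul, zero_mul]
    rw [← Finset.sum_filter]
    unfold sig
    rw [Finset.sum_ite, Finset.sum_const, Finset.sum_const, Finset.filter_filter,
      Finset.filter_filter, hn, hk]
    push_cast
    simp only [nsmul_eq_mul, mul_one, mul_neg]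
    ring
  have hAσ := hsc A hA (sig x a₀) (sig_mem_U0 G x a₀)
  rw [haA] at hAσ
  have hM1 : ∀ j, j ∈ orbit (stabilizer G a₀) δ → Mmat G x a₀ a₀ j = Mmat G x a₀ a₀ δ := by
    intro j hj
    obtain ⟨g, hg, hga, rfl⟩ := (mem_orbit_stab_iff G a₀ j δ).1 hj
    have h3 := Mmat_cent G x a₀ g hg a₀ δ
    rw [hga] at h3
    exact h3
  have h1 : ∑ j, A a₀ j * Mmat G x a₀ a₀ j = (nval G a₀ δ : ℂ) * Mmat G x a₀ a₀ δ := by
    simp only [hA0, ite_mul, one_mul, zero_mul]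
    rw [← Finset.sum_filter,
      Finset.sum_congr rfl (fun j hj => hM1 j (Finset.mem_filter.1 hj).2),
      Finset.sum_const, nsmul_eq_mul, hn0]
  have h2 : ∑ j, A a₀ j * Mmat G x a₀ a₀ j = 2 * (kval G x a₀ δ : ℂ) - nval G a₀ δ := by
    have h3 : ∀ g : G, ∑ j, A a₀ j * sig x a₀ (g.1 j) =
        (2 * (kval G x a₀ δ : ℂ) - nval G a₀ δ) * sig x a₀ (g.1 a₀) := by
      intro g
      have h4 : ∑ j, A a₀ j * sig x a₀ (g.1 j) =
          ∑ j, A (g.1 a₀) (g.1 j) * sig x a₀ (g.1 j) := by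
        apply Finset.sum_congr rfl
        intro j _
        rw [hA g.1 g.2]
      rw [h4, Equiv.sum_comp g.1 (fun j => A (g.1 a₀) j * sig x a₀ j)]
      have h5 := congrFun hAσ (g.1 a₀)
      simpa [Matrix.mulVec, dotProduct] using h5
    simp only [Mmat]
    calc ∑ j, A a₀ j * ((Nat.card G : ℂ)⁻¹ * ∑ g : G, sig x a₀ (g.1 a₀) * sig x a₀ (g.1 j))
        = (Nat.card G : ℂ)⁻¹ * ∑ g : G, sig x a₀ (g.1 a₀) *
            ∑ j, A a₀ j * sig x a₀ (g.1 j) := by
          simp only [Finset.mul_sum]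
          rw [Finset.sum_comm]
          apply Finset.sum_congr rfl
          intro g _
          apply Finset.sum_congr rfl
          intro j _
          ring
      _ = (Nat.card G : ℂ)⁻¹ * ∑ g : G, (2 * (kval G x a₀ δ : ℂ) - nval G a₀ δ) := by
          congr 1
          apply Finset.sum_congr rfl
          intro g _
          rw [h3 g, mul_comm, mul_assoc, sig_sq, mul_one]
      _ = 2 * (kval G x a₀ δ : ℂ) - nval G a₀ δ := by
          rw [Finset.sum_const, Finset.card_univ, nsmul_eq_mul, ← mul_assoc,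
            ← Nat.card_eq_fintype_card, inv_mul_cancel₀ (card_G_ne_zero G), one_mul]
  rw [← h1, h2]

/-- **S0720-LA13**. -/
theorem la_one {G : Subgroup (Perm Ω)} {p : ℕ} {x : Perm Ω} (hyp : Hyp G p x) (a₀ : Ω)
    (hU : DimU G p x a₀) (hsc : ScalU G x a₀) :
    ∑ ω ∈ Finset.univ.erase a₀,
      ((2 * (kval G x a₀ ω : ℚ) - nval G a₀ ω) / nval G a₀ ω) ^ 2 = 1 := by
  classical
  have hpne : NeZero p := ⟨hyp.hp.ne_zero⟩
  have hp0 : (p : ℂ) ≠ 0 := Nat.cast_ne_zero.2 hyp.hp.ne_zero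
  set a : ℂ := ∑ j, (Mmat G x a₀) a₀ j * sig x a₀ j with ha
  set S : ℚ := ∑ ω ∈ Finset.univ.erase a₀,
    ((2 * (kval G x a₀ ω : ℚ) - nval G a₀ ω) / nval G a₀ ω) ^ 2 with hS
  have hMU : ∀ f ∈ U0 G x a₀, (Mmat G x a₀).mulVec f = a • f := hsc (Mmat G x a₀) (Mmat_cent G x a₀)
  have hnpos : ∀ ω, (nval G a₀ ω : ℂ) ≠ 0 := by
    intro ω
    rw [Nat.cast_ne_zero]
    unfold nval
    have : Nonempty (orbit (stabilizer G a₀) ω) := ⟨⟨ω, mem_orbit_self ω⟩⟩
    exact Nat.card_pos.ne'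
  have hentry : ∀ ω, (Mmat G x a₀) a₀ ω =
      (((2 * (kval G x a₀ ω : ℚ) - nval G a₀ ω) / nval G a₀ ω : ℚ) : ℂ) := by
    intro ω
    have h1 := Mmat_entry hyp a₀ ω hsc
    push_cast
    rw [eq_div_iff (hnpos ω), mul_comm]
    exact h1
  have ha2 : a = ∑ j, ((Mmat G x a₀) a₀ j) ^ 2 := by
    have h1 := hMU _ (Mmat_mulVec_mem G x a₀ (Pi.single a₀ 1))
    have h2 := congrFun h1 a₀
    simp only [Matrix.mulVec_single_one, Pi.smul_apply, smul_eq_mul] at h2
    rw [show (Mmat G x a₀).col a₀ a₀ = (Mmat G x a₀) a₀ a₀ from rfl, Mmat_diag, mul_one] at h2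
    rw [← h2]
    simp only [Matrix.mulVec, dotProduct]
    apply Finset.sum_congr rfl
    intro j _
    rw [show (Mmat G x a₀).col a₀ j = (Mmat G x a₀) j a₀ from rfl, Mmat_symm G x a₀ j a₀, sq]
  have ha3 : a = 1 + (S : ℂ) := by
    rw [ha2, ← Finset.add_sum_erase Finset.univ _ (Finset.mem_univ a₀), Mmat_diag, one_pow, hS]
    push_cast
    congr 1
    apply Finset.sum_congr rfl
    intro ω _
    rw [hentry ω]
    push_cast
    rfl
  have hSnn : 0 ≤ S := Finset.sum_nonneg (fun ω _ => sq_nonneg _)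
  have ha0 : a ≠ 0 := by
    rw [ha3]
    have h1 : (1 + S : ℚ) ≠ 0 := by positivity
    exact_mod_cast h1
  let E : (Ω → ℂ) →ₗ[ℂ] (Ω → ℂ) := a⁻¹ • Matrix.toLin' (Mmat G x a₀)
  have hEapp : ∀ f, E f = a⁻¹ • (Mmat G x a₀).mulVec f := by
    intro f
    show a⁻¹ • (Matrix.toLin' (Mmat G x a₀) f) = _
    rw [Matrix.toLin'_apply]
  have hEU : ∀ f, E f ∈ U0 G x a₀ := by
    intro f
    rw [hEapp]
    exact Submodule.smul_mem _ _ (Mmat_mulVec_mem G x a₀ f)
  have hEid : ∀ f ∈ U0 G x a₀, E f = f := by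
    intro f hf
    rw [hEapp, hMU f hf, smul_smul, inv_mul_cancel₀ ha0, one_smul]
  have hEV : ∀ (h : ZMod p) (f : Ω → ℂ), f ∈ Vh x p h → E f ∈ Vh x p h := by
    intro h f hf ω
    rw [hEapp]
    simp only [Pi.smul_apply, smul_eq_mul, Matrix.mulVec, dotProduct]
    rw [← Equiv.sum_comp x (fun j => (Mmat G x a₀) (x ω) j * f j)]
    have h1 : ∀ j, (Mmat G x a₀) (x ω) (x j) * f (x j) = zeta p ^ h.val * ((Mmat G x a₀) ω j * f j) := by
      intro j
      rw [Mmat_cent G x a₀ x hyp.hxG, hf j]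
      ring
    rw [Finset.sum_congr rfl (fun j _ => h1 j), ← Finset.mul_sum]
    ring
  have hproj : ∀ h : ZMod p, LinearMap.IsProj (U0 G x a₀ ⊓ Vh x p h) (E ∘ₗ Pj x p h) := by
    intro h
    constructor
    · intro f
      exact ⟨hEU _, hEV h _ (Pj_mem_Vh hyp h f)⟩
    · intro f hf
      show E (Pj x p h f) = f
      rw [Pj_of_mem hyp h f hf.2, hEid f hf.1]
  have htr : ∀ h : ZMod p, LinearMap.trace ℂ (Ω → ℂ) (E ∘ₗ Pj x p h) = 1 := by
    intro h
    rw [(hproj h).trace]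
    by_cases hh : h = 0
    · subst hh
      rw [U0_inf_Vh_zero hyp a₀, finrank_span_singleton (sig_ne_zero x a₀)]
      simp
    · rw [hU h hh]
      simp
  have hEsum : E = ∑ h : ZMod p, E ∘ₗ Pj x p h := by
    apply LinearMap.ext
    intro f
    rw [LinearMap.sum_apply]
    simp only [LinearMap.comp_apply]
    rw [← map_sum, sum_Pj hyp f]
  have htrE : LinearMap.trace ℂ (Ω → ℂ) E = p := by
    rw [hEsum, map_sum, Finset.sum_congr rfl (fun h _ => htr h), Finset.sum_const,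
      Finset.card_univ, ZMod.card]
    simp
  have htrM : LinearMap.trace ℂ (Ω → ℂ) (Matrix.toLin' (Mmat G x a₀)) = 2 * p := by
    rw [Matrix.trace_toLin'_eq, Matrix.trace]
    simp only [Matrix.diag_apply, Mmat_diag, Finset.sum_const, Finset.card_univ, hyp.hcard]
    simp
  have h3 : a⁻¹ * (2 * (p : ℂ)) = p := by
    rw [← htrM, ← htrE]
    show _ = LinearMap.trace ℂ (Ω → ℂ) (a⁻¹ • Matrix.toLin' (Mmat G x a₀))
    rw [map_smul, smul_eq_mul]
  have ha4 : a = 2 := by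
    have h4 : a * (a⁻¹ * (2 * (p : ℂ))) = a * p := by rw [h3]
    rw [← mul_assoc, mul_inv_cancel₀ ha0, one_mul] at h4
    exact (mul_right_cancel₀ hp0 h4).symm
  have h6 : (S : ℂ) = 1 := by
    rw [ha3] at ha4
    linear_combination ha4
  exact_mod_cast h6

end Cfsg.Agent.H61.W2P
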